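import Cfsg.Agent.Lib.ConwayType.Pair
import Cfsg.Agent.Lib.Fischer2.ExtraspecialOut
import Cfsg.Agent.Lib.Cores.GenFitting
import Cfsg.Agent.Lib.PGroups.Extraspecial

/-!
The coordinates and the pair for a group of Conway type.
-/

set_option autoImplicit false
set_option linter.unusedSectionVars false

namespace CfsgLib.ConwayType

open CfsgLib.ExtraspecialLarge CfsgLib.ClassicalForms

variable {G : Type*} [Group G] [Finite G]

theorem aniso_one_one : Aniso (1 : ZMod 2) 1 := by unfold Aniso; decide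

/-- The action of the centraliser on coordinates of the extraspecial group. -/
theorem exists_action {ι : Type} (qq : QuadraticForm (ZMod 2) (ι → ZMod 2)) {z : G}
    {Qf : G → Subgroup G} (core : CoreSetting Qf z) (θ : G → ι → ZMod 2)
    (θ_mul : ∀ x ∈ Qf z, ∀ y ∈ Qf z, θ (x * y) = θ x + θ y)
    (θ_surj : ∀ v, ∃ x ∈ Qf z, θ x = v)
    (θ_ker : ∀ x ∈ Qf z, θ x = 0 ↔ x = 1 ∨ x = z)
    (θ_sq : ∀ x ∈ Qf z, x * x = 1 ↔ qq (θ x) = 0) :
    ∃ r : ↥(Subgroup.centralizer ({z} : Set G)) →* orth qq,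
      (∀ (c : ↥(Subgroup.centralizer ({z} : Set G))), ∀ x ∈ Qf z,
        θ ((c : G) * x * (c : G)⁻¹) = (r c : (ι → ZMod 2) ≃ₗ[ZMod 2] (ι → ZMod 2)) (θ x)) ∧
      r.ker = (Qf z).subgroupOf (Subgroup.centralizer ({z} : Set G)) := by
  classical
  have hgood := core.good
  have hcz : ∀ c : ↥(Subgroup.centralizer ({z} : Set G)), (c : G) * z = z * c := fun c =>
    Subgroup.mem_centralizer_singleton_iff.1 c.2
  have hnorm : ∀ (c : ↥(Subgroup.centralizer ({z} : Set G))) x, x ∈ Qf z →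
      (c : G) * x * (c : G)⁻¹ ∈ Qf z := fun c x hx => hgood.norm c (hcz c) x hx
  choose L hL hLθ using θ_surj
  have θ1 : θ 1 = 0 := (θ_ker 1 (one_mem _)).2 (Or.inl rfl)
  have θz : θ z = 0 := (θ_ker z hgood.mem).2 (Or.inr rfl)
  have hfib : ∀ x y, x ∈ Qf z → y ∈ Qf z → θ x = θ y → x = y ∨ x = z * y := by
    intro x y hx hy e
    have h0 : θ (x * y⁻¹) = 0 := by
      have h1 := θ_mul _ ((Qf z).mul_mem hx ((Qf z).inv_mem hy)) y hy
      rw [inv_mul_cancel_right, e] at h1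
      exact right_eq_add.1 h1
    rcases (θ_ker _ ((Qf z).mul_mem hx ((Qf z).inv_mem hy))).1 h0 with a | a
    · exact Or.inl (mul_inv_eq_one.1 a)
    · exact Or.inr (mul_inv_eq_iff_eq_mul.1 a)
  let act : ↥(Subgroup.centralizer ({z} : Set G)) → (ι → ZMod 2) → ι → ZMod 2 :=
    fun c v => θ ((c : G) * L v * (c : G)⁻¹)
  have hact : ∀ (c : ↥(Subgroup.centralizer ({z} : Set G))) (x : G), x ∈ Qf z → θ ((c : G) * x * (c : G)⁻¹) = act c (θ x) := by
    intro c x hx
    rcases hfib x (L (θ x)) hx (hL _) (hLθ _).symm with e | e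
    · conv_lhs => rw [e]
    · conv_lhs => rw [e]
      rw [show (c : G) * (z * L (θ x)) * (c : G)⁻¹ = (c : G) * z * (c : G)⁻¹ * ((c : G) * L (θ x) * (c : G)⁻¹)
        by group, conj_fix_iff.2 (hcz c), θ_mul z hgood.mem _ (hnorm c _ (hL _)), θz, zero_add]
  have hadd : ∀ c u v, act c (u + v) = act c u + act c v := by
    intro c u v
    have e := hact c (L u * L v) ((Qf z).mul_mem (hL u) (hL v))
    rw [θ_mul _ (hL u) _ (hL v), hLθ, hLθ] at e
    rw [← e, ← θ_mul _ (hnorm c _ (hL u)) _ (hnorm c _ (hL v))]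
    congr 1
    group
  have hone : ∀ v, act 1 v = v := fun v => by simp [act, hLθ]
  have hcomp : ∀ c d v, act (c * d) v = act c (act d v) := by
    intro c d v
    show _ = act c (θ _)
    rw [← hact c _ (hnorm d _ (hL v))]
    simp only [act, Subgroup.coe_mul]
    congr 1
    group
  have hq01 : ∀ s t : ZMod 2, (s = 0 ↔ t = 0) → s = t := by decide
  have hqq : ∀ c v, qq (act c v) = qq v := by
    intro c v
    apply hq01
    rw [show qq v = qq (θ (L v)) by rw [hLθ]]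
    show qq (θ _) = 0 ↔ _
    rw [← θ_sq _ (hL v), ← θ_sq _ (hnorm c _ (hL v)),
      show (c : G) * L v * (c : G)⁻¹ * ((c : G) * L v * (c : G)⁻¹) = (c : G) * (L v * L v) * (c : G)⁻¹ by
        group]
    exact conj_eq_one_iff
  have hsmul : ∀ c (a : ZMod 2) v, act c (a • v) = a • act c v := by
    intro c a v
    rcases z2_cases a with rfl | rfl
    · rw [zero_smul, zero_smul]
      have := hadd c 0 0
      rw [add_zero] at this
      exact right_eq_add.1 this
    · rw [one_smul, one_smul]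
  let lin : ↥(Subgroup.centralizer ({z} : Set G)) → ((ι → ZMod 2) ≃ₗ[ZMod 2] (ι → ZMod 2)) := fun c =>
    { toFun := act c
      map_add' := hadd c
      map_smul' := fun a v => hsmul c a v
      invFun := act c⁻¹
      left_inv := fun v => by rw [← hcomp, inv_mul_cancel, hone]
      right_inv := fun v => by rw [← hcomp, mul_inv_cancel, hone] }
  let r : ↥(Subgroup.centralizer ({z} : Set G)) →* orth qq :=
    MonoidHom.mk' (fun c => ⟨lin c, hqq c⟩) fun c d => orth_ext fun v => hcomp c d v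
  refine ⟨r, fun c x hx => hact c x hx, ?_⟩
  ext c
  rw [MonoidHom.mem_ker, Subgroup.mem_subgroupOf]
  constructor
  · intro hc
    have htriv : ∀ x ∈ Qf z, (c : G) * x * (c : G)⁻¹ = x ∨ (c : G) * x * (c : G)⁻¹ = z * x := by
      intro x hx
      refine hfib _ _ (hnorm c x hx) hx ?_
      rw [hact c x hx]
      exact congrArg (fun g : orth qq => (g : (ι → ZMod 2) ≃ₗ[ZMod 2] (ι → ZMod 2)) (θ x)) hc
    let K : Subgroup G := Qf z ⊓ Subgroup.centralizer ({(c : G)} : Set G)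
    have hK : ∀ x, x ∈ K ↔ x ∈ Qf z ∧ x * c = c * x := fun x => by
      rw [Subgroup.mem_inf, Subgroup.mem_centralizer_singleton_iff]
    by_cases hall : ∀ x ∈ Qf z, (c : G) * x * (c : G)⁻¹ = x
    · exact hgood.cen _ fun x hx => conj_fix_iff.1 (hall x hx)
    push Not at hall
    obtain ⟨x, hx, hne⟩ := hall
    have hcx := (htriv x hx).resolve_left hne
    obtain ⟨p, hp, hpK, hpx⟩ := hgood.exists_flip (U := K) inf_le_left
      ((hK z).2 ⟨hgood.mem, (hcz c).symm⟩) hx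
      (fun hm => hne (conj_fix_iff.2 ((hK x).1 hm).2.symm))
    have hall' : ∀ y ∈ Qf z, (p⁻¹ * c) * y = y * (p⁻¹ * c) := by
      intro y hy
      have hxfix : (p⁻¹ * c) * x = x * (p⁻¹ * c) := by
        rw [← conj_fix_iff]
        calc p⁻¹ * c * x * (p⁻¹ * (c : G))⁻¹ = p⁻¹ * ((c : G) * x * (c : G)⁻¹) * p := by group
          _ = p⁻¹ * (p * x * p⁻¹) * p := by rw [hcx, hpx]
          _ = x := by group
      have hKfix : ∀ k ∈ K, (p⁻¹ * c) * k = k * (p⁻¹ * c) := fun k hk =>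
        comm_mul (comm_inv (hpK k hk)) ((hK k).1 hk).2.symm
      by_cases hyK : y ∈ K
      · exact hKfix y hyK
      · have hyne : (c : G) * y * (c : G)⁻¹ ≠ y := fun e =>
          hyK ((hK y).2 ⟨hy, (conj_fix_iff.1 e).symm⟩)
        have hcy := (htriv y hy).resolve_left hyne
        have hxy : x⁻¹ * y ∈ K := by
          refine (hK _).2 ⟨(Qf z).mul_mem ((Qf z).inv_mem hx) hy, (conj_fix_iff.1 ?_).symm⟩
          calc (c : G) * (x⁻¹ * y) * (c : G)⁻¹
              = ((c : G) * x * (c : G)⁻¹)⁻¹ * ((c : G) * y * (c : G)⁻¹) := by group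
            _ = x⁻¹ * y := by rw [hcx, hcy]; group
        rw [show y = x * (x⁻¹ * y) by group]
        exact (Commute.mul_right (show Commute (p⁻¹ * (c : G)) x from hxfix)
          (show Commute (p⁻¹ * (c : G)) (x⁻¹ * y) from hKfix _ hxy)).eq
    have := (Qf z).mul_mem hp (hgood.cen _ hall')
    rwa [mul_inv_cancel_left] at this
  · intro hc
    refine orth_ext fun v => ?_
    show act c v = v
    have h1 := θ_mul _ ((Qf z).mul_mem hc (hL v)) _ ((Qf z).inv_mem hc)
    have h2 := θ_mul _ hc _ (hL v)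
    have h3 := θ_mul _ hc _ ((Qf z).inv_mem hc)
    rw [mul_inv_cancel, θ1] at h3
    show θ _ = v
    rw [h1, h2, hLθ, add_comm (θ c), add_assoc, ← h3, add_zero]

omit [Group G] [Finite G] in
theorem exists_setting [Group G] [Finite G] (z : G) (hz : orderOf z = 2)
    (Q : Subgroup (Subgroup.centralizer ({z} : Set G))) [Q.Normal]
    (hF : Cfsg.generalizedFittingSubgroup (Subgroup.centralizer ({z} : Set G)) = Q)
    (hQ : Cfsg.IsExtraspecial 2 Q) (hcard : Nat.card Q = 2 ^ 9)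
    (e : (Subgroup.centralizer ({z} : Set G)) ⧸ Q ≃*
      Cfsg.Omega (ZMod 2) (Cfsg.quadFormPlus 4 (ZMod 2))) :
    ∃ (Qf : G → Subgroup G) (θ : G → V) (ρ : G → O) (J : Subgroup O),
      Setting z Qf θ ρ J ∧ ∀ (c : G) (hc : c ∈ Subgroup.centralizer ({z} : Set G)),
        c ∈ Qf z ↔ (⟨c, hc⟩ : Subgroup.centralizer ({z} : Set G)) ∈ Q := by
  classical
  haveI : Fact (Nat.Prime 2) := ⟨Nat.prime_two⟩
  let Qf : G → Subgroup G := fun x => (Cfsg.pCore 2 ↥(Subgroup.centralizer ({x} : Set G))).map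
    (Subgroup.centralizer ({x} : Set G)).subtype
  have hcore : Cfsg.pCore 2 ↥(Subgroup.centralizer ({z} : Set G)) = Q :=
    le_antisymm (hF ▸ CfsgLib.Cores.pCore_le_generalizedFittingSubgroup 2)
      (CfsgLib.Cores.le_pCore hQ.1.1)
  have hQz : Qf z = Q.map (Subgroup.centralizer ({z} : Set G)).subtype := by
    show Subgroup.map _ (Cfsg.pCore 2 _) = _
    rw [hcore]
  have hmem : ∀ {c : G}, c ∈ Qf z ↔ ∃ hc : c ∈ Subgroup.centralizer ({z} : Set G),
      (⟨c, hc⟩ : Subgroup.centralizer ({z} : Set G)) ∈ Q := by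
    intro c
    rw [hQz]
    constructor
    · rintro ⟨⟨a, ha⟩, h, rfl⟩; exact ⟨ha, h⟩
    · rintro ⟨hc, h⟩; exact ⟨⟨c, hc⟩, h, rfl⟩
  have hzC : z ∈ Subgroup.centralizer ({z} : Set G) := Subgroup.mem_centralizer_singleton_iff.2 rfl
  have hcenQ : Subgroup.centralizer (Q : Set ↥(Subgroup.centralizer ({z} : Set G))) ≤ Q := by
    conv_rhs => rw [← hF]
    rw [← hF]
    exact CfsgLib.Cores.centralizer_generalizedFittingSubgroup_le
  have hzQ : (⟨z, hzC⟩ : ↥(Subgroup.centralizer ({z} : Set G))) ∈ Q :=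
    hcenQ (Subgroup.mem_centralizer_iff.2 fun a _ =>
      Subtype.ext (Subgroup.mem_centralizer_singleton_iff.1 a.2))
  have core : CoreSetting Qf z := by
    refine ⟨fun _ => rfl, hz, ?_, ?_⟩
    · rw [hQz]
      exact CfsgLib.PGroups.IsExtraspecial.of_mulEquiv (Subgroup.equivMapOfInjective _ _
        (Subgroup.subtype_injective _)) hQ
    · intro a ha
      have hzq : z ∈ Qf z := hmem.2 ⟨hzC, hzQ⟩
      have haC : a ∈ Subgroup.centralizer ({z} : Set G) :=
        Subgroup.mem_centralizer_singleton_iff.2 (Subgroup.mem_centralizer_iff.1 ha z hzq).symm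
      refine hmem.2 ⟨haC, hcenQ (Subgroup.mem_centralizer_iff.2 fun b hb => Subtype.ext ?_)⟩
      exact Subgroup.mem_centralizer_iff.1 ha b (hmem.2 ⟨b.2, hb⟩)
  have hgood := core.good
  obtain ⟨m, -, hm7, hcoord⟩ := CfsgLib.Fischer2.ExtraspecialOut.exists_hasCoord (E := ↥Q) hQ
  have hm : m = 4 := by
    rw [hcard] at hm7
    have := Nat.pow_right_injective le_rfl hm7
    omega
  subst hm
  -- transport coordinates to `G`
  have transport : ∀ {ι : Type} (π : ↥Q → ι → ZMod 2), (∀ a b, π (a * b) = π a + π b) →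
      Function.Surjective π → (∀ a, π a = 0 ↔ a ∈ Subgroup.center ↥Q) →
      ∀ qq : (ι → ZMod 2) → ZMod 2, (∀ a, a * a = 1 ↔ qq (π a) = 0) →
      ∃ θ : G → ι → ZMod 2, (∀ x ∈ Qf z, ∀ y ∈ Qf z, θ (x * y) = θ x + θ y) ∧
        (∀ v, ∃ x ∈ Qf z, θ x = v) ∧ (∀ x ∈ Qf z, θ x = 0 ↔ x = 1 ∨ x = z) ∧
        (∀ x ∈ Qf z, x * x = 1 ↔ qq (θ x) = 0) := by
    intro ι π h1 h2 h3 qq h4
    let θ : G → ι → ZMod 2 := fun c =>
      if hc : ∃ hc : c ∈ Subgroup.centralizer ({z} : Set G),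
          (⟨c, hc⟩ : Subgroup.centralizer ({z} : Set G)) ∈ Q then π ⟨⟨c, hc.1⟩, hc.2⟩ else 0
    have hθ : ∀ a : ↥Q, θ ((a : ↥(Subgroup.centralizer ({z} : Set G))) : G) = π a := fun a => by
      simp only [θ, dif_pos (show ∃ hc, _ from ⟨a.1.2, a.2⟩)]
    have hlift : ∀ x ∈ Qf z, ∃ a : ↥Q, ((a : ↥(Subgroup.centralizer ({z} : Set G))) : G) = x :=
      fun x hx => ⟨⟨⟨x, (hmem.1 hx).1⟩, (hmem.1 hx).2⟩, rfl⟩
    refine ⟨θ, ?_, fun v => ?_, ?_, ?_⟩
    · intro x hx y hy
      obtain ⟨a, rfl⟩ := hlift x hx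
      obtain ⟨b, rfl⟩ := hlift y hy
      rw [hθ, hθ, ← h1, ← hθ (a * b)]
      rfl
    · obtain ⟨a, rfl⟩ := h2 v
      exact ⟨_, hmem.2 ⟨a.1.2, a.2⟩, hθ a⟩
    · intro x hx
      obtain ⟨a, rfl⟩ := hlift x hx
      rw [hθ, h3, Subgroup.mem_center_iff]
      constructor
      · intro hc
        refine hgood.center _ hx fun y hy => ?_
        obtain ⟨b, rfl⟩ := hlift y hy
        exact congrArg (fun t : ↥Q => ((t : ↥(Subgroup.centralizer ({z} : Set G))) : G)) (hc b)
      · rintro (h | h) b <;> apply Subtype.ext <;> apply Subtype.ext <;>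
          simp only [Subgroup.coe_mul, h, one_mul, mul_one]
        exact Subgroup.mem_centralizer_singleton_iff.1 b.1.2
    · intro x hx
      obtain ⟨a, rfl⟩ := hlift x hx
      rw [hθ, ← h4, Subtype.ext_iff, Subtype.ext_iff]
      rfl
  have hker : (Qf z).subgroupOf (Subgroup.centralizer ({z} : Set G)) = Q := by
    ext c
    rw [Subgroup.mem_subgroupOf]
    exact ⟨fun h => (hmem.1 h).2, fun h => hmem.2 ⟨c.2, h⟩⟩
  have hrange : ∀ {X : Type} [Group X] (r : ↥(Subgroup.centralizer ({z} : Set G)) →* X),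
      r.ker = Q → 2 * Nat.card r.range = 348364800 := by
    intro X _ r hr
    have h := card_Omega
    rw [← Nat.card_congr e.toEquiv, ← Subgroup.index_eq_card, ← hr, Subgroup.index_ker] at h
    exact h
  rcases hcoord with ⟨⟨π, h1, h2, h3, h4⟩, -⟩ | ⟨⟨π, h1, h2, h3, h4⟩, -⟩
  · obtain ⟨θ, t1, t2, t3, t4⟩ := transport π h1 h2 h3 _ h4
    have t4' : ∀ x ∈ Qf z, x * x = 1 ↔ qM (θ x) = 0 := fun x hx => by
      rw [qPlus_apply]; exact t4 x hx
    obtain ⟨r, hact, hr⟩ := exists_action qM core θ t1 t2 t3 t4'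
    let ρ : G → O := fun c => if hc : c ∈ Subgroup.centralizer ({z} : Set G) then r ⟨c, hc⟩ else 1
    have hρ : ∀ (c : G) (hc : c * z = z * c),
        ρ c = r ⟨c, Subgroup.mem_centralizer_singleton_iff.2 hc⟩ := fun c hc => by
      simp only [ρ, dif_pos (Subgroup.mem_centralizer_singleton_iff.2 hc)]
    refine ⟨Qf, θ, ρ, r.range,
      ⟨core, t1, t2, t3, fun x hx => by rw [← qM_apply]; exact t4' x hx, ?_,
        hrange r (hr.trans hker), ?_, ?_, ?_⟩,
      fun c hc => ⟨fun h => (hmem.1 h).2, fun h => hmem.2 ⟨hc, h⟩⟩⟩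
    · intro c hc x hx
      rw [hρ c hc]
      exact hact ⟨c, _⟩ x hx
    · intro c hc
      rw [hρ c hc]
      exact ⟨_, rfl⟩
    · rintro _ ⟨c, rfl⟩
      have hc := Subgroup.mem_centralizer_singleton_iff.1 c.2
      exact ⟨c, hc, hρ _ hc⟩
    · intro c hc
      rw [hρ c hc, ← MonoidHom.mem_ker, hr, Subgroup.mem_subgroupOf]
  · exfalso
    obtain ⟨θ, t1, t2, t3, t4⟩ := transport π h1 h2 h3 _ h4
    obtain ⟨r, -, hr⟩ := exists_action (qMinus 3 (ZMod 2) 1 1) core θ t1 t2 t3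
      (fun x hx => by rw [qMinus_apply]; exact t4 x hx)
    have hd := Subgroup.card_subgroup_dvd_card r.range
    have hc := hrange r (hr.trans hker)
    have hO := card_orth_qMinus (F := ZMod 2) (a := 1) (b := 1) aniso_one_one 3
    rw [Nat.card_zmod] at hO
    norm_num [Finset.prod_range_succ] at hO
    have hO' : Nat.card (orth (qMinus 3 (ZMod 2) 1 1)) = 394813440 := by exact_mod_cast hO
    rw [hO', show Nat.card r.range = 174182400 by omega] at hd
    norm_num at hd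

/-- Conjugates of `z` in its extraspecial group give a pair. -/
theorem Setting.exists_pairSetting {z : G} {Qf : G → Subgroup G} {θ : G → V} {ρ : G → O}
    {J : Subgroup O} (S : Setting z Qf θ ρ J) {g : G} (hg : g * z * g⁻¹ ∈ Qf z)
    (hne : g * z * g⁻¹ ≠ z) : ∃ y h, PairSetting z Qf θ ρ J y h := by
  have h1 : g * z * g⁻¹ ≠ 1 := fun e => S.z_ne (conj_eq_one_iff.1 e)
  have h2 : (g * z * g⁻¹) * (g * z * g⁻¹) = 1 := by
    rw [show g * z * g⁻¹ * (g * z * g⁻¹) = g * (z * z) * g⁻¹ by group, S.z_sq]; group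
  have h0 : θ (g * z * g⁻¹) ≠ 0 := fun e => ((S.θ_ker _ hg).1 e).elim h1 hne
  obtain ⟨j, hj, hje⟩ := S.half.exists_transport ((S.θ_sq _ hg).1 h2) h0
  obtain ⟨c, hc, hρ⟩ := S.ρ_surj _ (J.inv_mem hj)
  set y := c * (g * z * g⁻¹) * c⁻¹ with hy_def
  have hyQ : y ∈ Qf z := S.conj_mem_Q hc hg
  have hθy : θ y = eV := by rw [hy_def, S.ρ_act c hc _ hg, hρ, ← hje, ap_inv_ap]
  have hyg : (c * g) * z * (c * g)⁻¹ = y := by rw [hy_def]; group
  have hgood : Good (Qf y) y := S.core.good_of_conj ⟨_, hyg⟩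
  have hzy : z ∈ Qf y := by
    have := S.core.symm (g := c * g) (by rw [hyg]; exact hyQ)
    rwa [hyg] at this
  have hyz : y ≠ z := fun e => by
    rw [e, S.θ_z] at hθy
    exact absurd hθy (by decide)
  obtain ⟨r, hr, hθr⟩ := S.θ_surj fV
  have hrz := conj_fix_iff.2 (S.comm_z hr)
  have hry : r * y * r⁻¹ = z * y := by
    rw [S.conj_eq hr hyQ, hθr, hθy, bl_comm, bl_e_f, zp_one]
  obtain ⟨p, hp, hpz⟩ : ∃ p ∈ Qf y, p * z * p⁻¹ = y * z := by
    by_contra hno
    push Not at hno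
    rcases hgood.center z hzy (fun q hq => conj_fix_iff.1
      ((hgood.cases_conj q hq z hzy).resolve_right (hno q hq))) with e | e
    · exact S.z_ne e
    · exact hyz e.symm
  have hpy := conj_fix_iff.2 (hgood.comm p hp)
  have hyy := hgood.sq_u
  have hzz := S.z_sq
  have hcomm : y * z = z * y := S.comm_z hyQ
  refine ⟨y, r * p * r, { toSetting := S, y_mem := hyQ, θy := hθy, hz := ?_, hy := ?_ }⟩
  · calc r * p * r * z * (r * p * r)⁻¹ = r * (p * (r * z * r⁻¹) * p⁻¹) * r⁻¹ := by group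
      _ = r * (y * z) * r⁻¹ := by rw [hrz, hpz]
      _ = (r * y * r⁻¹) * (r * z * r⁻¹) := by group
      _ = y := by rw [hry, hrz, mul_assoc, hcomm, ← mul_assoc, hzz, one_mul]
  · calc r * p * r * y * (r * p * r)⁻¹ = r * (p * (r * y * r⁻¹) * p⁻¹) * r⁻¹ := by group
      _ = r * ((p * z * p⁻¹) * (p * y * p⁻¹)) * r⁻¹ := by rw [hry]; group
      _ = z := by rw [hpz, hpy, hcomm, mul_assoc z y y, hyy, mul_one, hrz]

/-- `z` is the only central involution of a Sylow 2-subgroup, so every involution has a conjugate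
in the centraliser of `z`. -/
theorem Setting.exists_conj_comm {z : G} {Qf : G → Subgroup G} {θ : G → V} {ρ : G → O}
    {J : Subgroup O} (S : Setting z Qf θ ρ J) (hQ2 : IsPGroup 2 (Qf z)) {x : G} (hx : orderOf x = 2) :
    ∃ g : G, (g * x * g⁻¹) * z = z * (g * x * g⁻¹) := by
  haveI : Fact (Nat.Prime 2) := ⟨Nat.prime_two⟩
  obtain ⟨T, hT⟩ := hQ2.exists_le_sylow
  haveI : Nontrivial ↥(T : Subgroup G) :=
    ⟨⟨z, hT S.z_mem⟩, 1, fun e => S.z_ne (congrArg Subtype.val e)⟩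
  haveI := T.2.center_nontrivial
  obtain ⟨w, hw⟩ := exists_ne (1 : Subgroup.center ↥(T : Subgroup G))
  have hwc : ∀ a ∈ (T : Subgroup G), ((w : ↥(T : Subgroup G)) : G) * a = a * w := fun a ha =>
    (congrArg Subtype.val (Subgroup.mem_center_iff.1 w.2 ⟨a, ha⟩)).symm
  have hwQ : ((w : ↥(T : Subgroup G)) : G) ∈ Qf z :=
    S.good.cen _ fun a ha => hwc a (hT ha)
  have hwz : ((w : ↥(T : Subgroup G)) : G) = z := by
    refine (S.good.center _ hwQ fun a ha => (hwc a (hT ha)).symm).resolve_left fun e => hw ?_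
    exact Subtype.ext (Subtype.ext e)
  have hxp : IsPGroup 2 (Subgroup.zpowers x) := by
    refine IsPGroup.of_card (n := 1) ?_
    rw [Nat.card_zpowers, hx]; rfl
  obtain ⟨T', hT'⟩ := hxp.exists_le_sylow
  obtain ⟨g, hg⟩ := MulAction.exists_smul_eq G T' T
  refine ⟨g, ?_⟩
  have hmem : g * x * g⁻¹ ∈ (T : Subgroup G) := by
    rw [← hg]
    exact Subgroup.smul_mem_pointwise_smul x (MulAut.conj g) _ (hT' (Subgroup.mem_zpowers x))
  have := hwc _ hmem
  rw [hwz] at this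
  exact this.symm

end CfsgLib.ConwayType
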