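import Cfsg.Agent.Lib.ConwayType.Commutator

/-!
Involutions of the centraliser of `z` over Siegel transformations at `eV`, up to conjugation.
-/

set_option autoImplicit false
set_option linter.unusedSectionVars false

namespace CfsgLib.ConwayType

open CfsgLib.ExtraspecialLarge

variable {G : Type*} [Group G] [Finite G]
variable {z : G} {Qf : G → Subgroup G} {θ : G → V} {ρ : G → O} {J : Subgroup O} {y h : G}

theorem conj_inv_eq {c a b : G} (h : c * a * c⁻¹ = b) : c⁻¹ * b * c = a := by rw [← h]; group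

namespace Setting

variable (S : Setting z Qf θ ρ J)
include S

theorem conj_involution {c i : G} (hi : i * i = 1) (hi1 : i ≠ 1) :
    c * i * c⁻¹ * (c * i * c⁻¹) = 1 ∧ c * i * c⁻¹ ≠ 1 := by
  constructor
  · rw [show c * i * c⁻¹ * (c * i * c⁻¹) = c * (i * i) * c⁻¹ by group, hi]; group
  · simpa using hi1

end Setting

namespace PairSetting

variable (P : PairSetting z Qf θ ρ J y h)
include P

/-- An involution of `Qf z` is conjugate under the centraliser to `z` or `y`. -/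
theorem Q_cases {i : G} (hi : i ∈ Qf z) (h2 : i * i = 1) (h1 : i ≠ 1) :
    ∃ c, c * z = z * c ∧ (c * i * c⁻¹ = z ∨ c * i * c⁻¹ = y) := by
  by_cases h0 : θ i = 0
  · refine ⟨1, by simp, Or.inl ?_⟩
    rw [one_mul, inv_one, mul_one]
    exact ((P.θ_ker i hi).1 h0).resolve_left h1
  obtain ⟨g, hg, hge⟩ := P.half.exists_transport ((P.θ_sq i hi).1 h2) h0
  obtain ⟨c, hc, hρ⟩ := P.ρ_surj _ (J.inv_mem hg)
  have hi' := P.toSetting.conj_mem_Q hc hi
  have hθ : θ (c * i * c⁻¹) = θ y := by rw [P.ρ_act c hc i hi, hρ, P.θy, ← hge, ap_inv_ap]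
  rcases P.toSetting.eq_or_of_θ hi' P.y_mem hθ with e | e
  · exact ⟨c, hc, Or.inr e⟩
  · obtain ⟨r, hr, hry⟩ := P.exists_flip_y
    have hrz := P.toSetting.comm_z hr
    refine ⟨r * c, comm_mul hrz hc, Or.inr ?_⟩
    calc r * c * i * (r * c)⁻¹ = r * (c * i * c⁻¹) * r⁻¹ := by group
      _ = (r * z * r⁻¹) * (r * y * r⁻¹) := by rw [e]; group
      _ = y := by rw [conj_fix_iff.2 hrz, hry, ← mul_assoc, P.toSetting.z_sq, one_mul]

/-- An involution over a Siegel transformation at `eV`. -/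
theorem decompose {i s : G} {w : V} (hw : Mid w) (hw0 : w ≠ 0) (hiz : i * z = z * i)
    (hi2 : i * i = 1) (hρ : ρ i = Te w hw.bl_eV) (hs : inWy z Qf y s) (hsw : wS ρ s = w) :
    ∃ u, inW z Qf y u ∧ i = s * u ∧ bl (θ u) w = q w ∧ q (θ u) = q w := by
  obtain ⟨hws, es⟩ := P.wS_spec hs
  have hρs : ρ s = Te w hw.bl_eV := by rw [es]; exact Te_congr hsw _ _
  have huz : (s⁻¹ * i) * z = z * (s⁻¹ * i) := comm_mul (comm_inv hs.2) hiz
  have hTinv : (Te w hw.bl_eV)⁻¹ = Te w hw.bl_eV := inv_eq_of_mul_eq_one_right (T_mul_self _ _)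
  have hu : s⁻¹ * i ∈ Qf z := by
    refine (P.ρ_ker _ huz).1 ?_
    rw [P.toSetting.ρ_mul (comm_inv hs.2) hiz, P.toSetting.ρ_inv hs.2, hρs, hρ, inv_mul_cancel]
  set u := s⁻¹ * i with hu_def
  have hiu : i = s * u := by rw [hu_def]; group
  have hsq := P.sq_wS hs
  rw [hsw] at hsq
  have hin : (s⁻¹ * u * s) ∈ Qf z := by
    have := P.toSetting.conj_mem_Q (comm_inv hs.2) hu
    rwa [inv_inv] at this
  have hθ1 : θ (s⁻¹ * u * s) = sgf eV w (θ u) := by
    have := P.ρ_act s⁻¹ (comm_inv hs.2) u hu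
    rw [inv_inv, P.toSetting.ρ_inv hs.2, hρs, hTinv, Te, ap_T] at this
    exact this
  have h0 : q w • eV + (sgf eV w (θ u) + θ u) = 0 := by
    have e : s * s * (s⁻¹ * u * s * u) = 1 := by
      rw [← hi2, hiu]; group
    have := congrArg θ e
    have hssQ : s * s ∈ Qf z := by rw [hsq]; exact zp_mem P.y_mem _
    rw [P.θ_mul _ hssQ _ ((Qf z).mul_mem hin hu), P.θ_mul _ hin u hu, hθ1, hsq, P.toSetting.θ_one] at this
    rw [← this]
    congr 1
    rcases z2_cases (q w) with a | a <;> rw [a] <;> simp [P.toSetting.θ_one, P.θy]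
  rw [sgf_eq] at h0
  have hbe : bl (θ u) eV = 0 := by
    refine (z2_cases _).resolve_right fun e => hw0 ?_
    have h1 := congrArg md h0
    simp only [md_add, md_smul, md_eV, smul_zero, zero_add, add_zero, md_zero, e, one_smul,
      md_of_mid hw] at h1
    rw [add_comm (md (θ u)) w, add_assoc, vadd_self, add_zero] at h1
    exact h1
  have hbw : bl (θ u) w = q w := by
    rw [hbe, zero_smul, mul_zero, add_zero, add_zero,
      add_comm (θ u) (bl (θ u) w • eV), add_assoc (bl (θ u) w • eV), vadd_self, add_zero,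
      ← add_smul] at h0
    have h1 := congrFun h0 (.inl 0)
    simp only [Pi.smul_apply, smul_eq_mul, Pi.zero_apply] at h1
    rw [show eV (.inl 0) = 1 from rfl, mul_one] at h1
    exact (CharTwo.add_eq_zero.1 h1).symm
  have huW : inW z Qf y u := (P.W_iff hu).2 (by rw [bl_comm]; exact hbe)
  refine ⟨u, huW, hiu, hbw, ?_⟩
  have hc := P.comm_eq hs huW
  rw [hsw, hbw] at hc
  have huy : u * zp y (q w) = zp y (q w) * u := zp_comm huW.2 _
  have key : zp z (q w + q (θ u)) = 1 := by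
    calc zp z (q w + q (θ u))
        = zp z (q w) * (zp y (q w) * zp y (q w)) * zp z (q (θ u)) := by
          rw [← zp_add P.y_sq, CharTwo.add_self_eq_zero, zp_zero, mul_one, zp_add P.toSetting.z_sq]
      _ = (s * u * s⁻¹ * u⁻¹) * (u * (s * s) * u) := by
          rw [hc, hsq, huy, mul_assoc (zp y (q w)) u u, P.toSetting.sq_eq hu]
          group
      _ = 1 := by rw [← hi2, hiu]; group
  rcases z2_cases (q w + q (θ u)) with a | a
  · exact (CharTwo.add_eq_zero.1 a).symm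
  · rw [a, zp_one] at key
    exact absurd key P.toSetting.z_ne

/-- Conjugating `s u` by an element of `Qf z`. -/
theorem conj_su {s u x : G} {w : V} (hw : Mid w) (hs : inWy z Qf y s) (hsw : wS ρ s = w)
    (hu : u ∈ Qf z) (hx : x ∈ Qf z) :
    ∃ u', u' ∈ Qf z ∧ x * (s * u) * x⁻¹ = s * u' ∧
      θ u' = sgf eV w (θ x) + θ x + θ u := by
  obtain ⟨hws, es⟩ := P.wS_spec hs
  have hρs : ρ s = Te w hw.bl_eV := by rw [es]; exact Te_congr hsw _ _
  have hTinv : (Te w hw.bl_eV)⁻¹ = Te w hw.bl_eV := inv_eq_of_mul_eq_one_right (T_mul_self _ _)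
  have h1 : s⁻¹ * x * s ∈ Qf z := by
    have := P.toSetting.conj_mem_Q (comm_inv hs.2) hx
    rwa [inv_inv] at this
  have hθ1 : θ (s⁻¹ * x * s) = sgf eV w (θ x) := by
    have := P.ρ_act s⁻¹ (comm_inv hs.2) x hx
    rw [inv_inv, P.toSetting.ρ_inv hs.2, hρs, hTinv, Te, ap_T] at this
    exact this
  refine ⟨s⁻¹ * x * s * u * x⁻¹, (Qf z).mul_mem ((Qf z).mul_mem h1 hu) ((Qf z).inv_mem hx),
    by group, ?_⟩
  rw [P.θ_mul _ ((Qf z).mul_mem h1 hu) _ ((Qf z).inv_mem hx), P.θ_mul _ h1 u hu, hθ1,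
    P.toSetting.θ_inv hx]
  abel

theorem inWy_of_θ {u : G} (hu : u ∈ Qf z) (h0 : md (θ u) = 0) : inWy z Qf y u ∧ wS ρ u = 0 := by
  refine ⟨⟨?_, P.toSetting.comm_z hu⟩, P.wS_of_mem hu⟩
  have hd := md_decomp (θ u)
  rw [h0, zero_add] at hd
  set c := θ u (.inl 0)
  have he : θ u = θ (zp z 0 * zp y c) := by rw [P.θ_zp_mul]; exact hd
  rcases P.toSetting.eq_or_of_θ hu
    ((Qf z).mul_mem (zp_mem P.toSetting.z_mem _) (zp_mem P.y_mem _)) he with e | e <;> rw [e]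
  · exact (Qf y).mul_mem (zp_mem P.z_memy _) (zp_mem P.goody.mem _)
  · exact (Qf y).mul_mem P.z_memy ((Qf y).mul_mem (zp_mem P.z_memy _) (zp_mem P.goody.mem _))

end PairSetting

/-- A representative `s u` with parameters `w` and `m`. -/
structure IsRep (z : G) (Qf : G → Subgroup G) (θ : G → V) (ρ : G → O) (y : G) (w m : V) (s u : G) :
    Prop where
  hs : inWy z Qf y s
  hsw : wS ρ s = w
  hu : u ∈ Qf z
  hθu : θ u = m

namespace PairSetting

variable (P : PairSetting z Qf θ ρ J y h)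
include P

theorem exists_rep_of {w : V} (hw : Mid w) (m : V) : ∃ s u, IsRep z Qf θ ρ y w m s u := by
  obtain ⟨s, hs, hsw⟩ := P.exists_Wy hw
  obtain ⟨u, hu, hθu⟩ := P.θ_surj m
  exact ⟨s, u, hs, hsw, hu, hθu⟩

/-- Two elements of the second half with the same parameter differ by a common element. -/
theorem diff_mem {s t : G} (hs : inWy z Qf y s) (ht : inWy z Qf y t) (e : wS ρ s = wS ρ t) :
    s⁻¹ * t ∈ Qf z ∧ s⁻¹ * t ∈ Qf y ∧ md (θ (s⁻¹ * t)) = 0 := by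
  have hd := P.Wy_mul (P.Wy_inv hs) ht
  have hd0 : wS ρ (s⁻¹ * t) = 0 := by
    have e1 := P.wS_mul hs hd
    rw [mul_inv_cancel_left, ← e] at e1
    exact left_eq_add.1 e1
  have hdQ := P.mem_of_wS_zero hd hd0
  refine ⟨hdQ, hd.1, ?_⟩
  rcases P.θ_inter hdQ hd.1 with a | a <;> rw [a]
  · exact md_zero
  · exact md_eV

/-- Lifts with the same reduced parameters are conjugate under `C(z, y)`. -/
theorem conj_rep {w m xe xz : V} (hw : Mid w) (hm : Mid m) (hxe : Mid xe) (hxz : Mid xz)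
    (he1 : bl xe w = 1) (he2 : bl xe m = 0) (hz1 : bl xz w = 0) (hz2 : bl xz m = 1) {s₀ u₀ : G}
    (T : IsRep z Qf θ ρ y w m s₀ u₀) {g : O} (hg : g ∈ J) (hge : ap g eV = eV) {s u : G}
    (hs : inWy z Qf y s) (hu : inW z Qf y u) (hgw : md (ap g (wS ρ s)) = w)
    (hgm : md (ap g (md (θ u))) = m) :
    ∃ c, c * z = z * c ∧ c * y = y * c ∧ c * (s * u) * c⁻¹ = s₀ * u₀ := by
  obtain ⟨c, hcz, hcy, rfl⟩ := P.exists_lift hg hge
  obtain ⟨hs', hsw'⟩ := P.wS_conj hcz hcy hs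
  rw [hgw] at hsw'
  obtain ⟨hdQ, hdy, hmdd⟩ := P.diff_mem T.hs hs' (T.hsw.trans hsw'.symm)
  have hcu := P.toSetting.conj_mem_Q hcz hu.1
  -- the final two adjustments inside `Qf z`
  have hlast : ∀ u', u' ∈ Qf z → θ u' = m →
      ∃ c, c * z = z * c ∧ c * y = y * c ∧ c * (s₀ * u') * c⁻¹ = s₀ * u₀ := by
    intro u' hu' e
    rcases P.toSetting.eq_or_of_θ hu' T.hu (e.trans T.hθu.symm) with e1 | e1
    · exact ⟨1, by simp, by simp, by simp [e1]⟩
    · obtain ⟨x, hxW, hθx⟩ := P.exists_W xz hxz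
      refine ⟨x, P.toSetting.comm_z hxW.1, hxW.2, ?_⟩
      have hc := P.comm_eq T.hs hxW
      rw [T.hsw, hθx, hz1, zp_zero, zp_zero, one_mul] at hc
      have hxs : x * s₀ * x⁻¹ = s₀ := by
        have h' : s₀ * x * s₀⁻¹ = x := mul_inv_eq_one.1 hc
        exact conj_fix_iff.2 (mul_inv_eq_iff_eq_mul.1 h').symm
      have hxu : x * u₀ * x⁻¹ = z * u₀ := by
        rw [P.toSetting.conj_eq hxW.1 T.hu, hθx, T.hθu, hz2, zp_one]
      calc x * (s₀ * u') * x⁻¹ = (x * s₀ * x⁻¹) * ((x * z * x⁻¹) * (x * u₀ * x⁻¹)) := by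
            rw [e1]; group
        _ = s₀ * u₀ := by
          rw [hxs, conj_fix_iff.2 (P.toSetting.comm_z hxW.1), hxu, ← mul_assoc z z,
            P.toSetting.z_sq, one_mul]
  set u' := s₀⁻¹ * (c * s * c⁻¹) * (c * u * c⁻¹) with hu'def
  have hu' : u' ∈ Qf z := (Qf z).mul_mem hdQ hcu
  have hmd : md (θ u') = m := by
    rw [hu'def, P.θ_mul _ hdQ _ hcu, md_add, hmdd, zero_add, P.ρ_act c hcz u hu.1, ← md_ap hge, hgm]
  have hconj : c * (s * u) * c⁻¹ = s₀ * u' := by rw [hu'def]; group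
  have hd := md_decomp (θ u')
  rw [hmd] at hd
  rcases z2_cases (θ u' (.inl 0)) with a | a <;> rw [a] at hd
  · obtain ⟨c', h1, h2, h3⟩ := hlast u' hu' (by simpa using hd)
    refine ⟨c' * c, comm_mul h1 hcz, comm_mul h2 hcy, ?_⟩
    rw [← h3, ← hconj]; group
  · obtain ⟨x, hx, hθx⟩ := P.exists_W xe hxe
    obtain ⟨u'', hu'', he, hθ⟩ := P.conj_su hw T.hs T.hsw hu' hx.1
    have hsg : sgf eV w xe + xe = eV := by
      rw [sgf_eq, bl_comm xe eV, hxe.bl_eV, zero_smul, mul_zero, add_zero, add_zero, he1, one_smul,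
        add_comm xe, add_assoc, vadd_self, add_zero]
    obtain ⟨c', h1, h2, h3⟩ := hlast u'' hu'' (by
      rw [hθ, hθx, hsg, hd, one_smul, add_comm m, ← add_assoc, vadd_self, zero_add])
    refine ⟨c' * x * c, comm_mul (comm_mul h1 (P.toSetting.comm_z hx.1)) hcz,
      comm_mul (comm_mul h2 hx.2) hcy, ?_⟩
    rw [← h3, ← he, ← hconj]; group

/-- The second class: nonsingular parameter. -/
theorem orbit_c {s₀ u₀ : G} (T : IsRep z Qf θ ρ y cV uV s₀ u₀) {s u : G} (hs : inWy z Qf y s)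
    (hu : inW z Qf y u) (hq : q (wS ρ s) = 1) (hb : bl (θ u) (wS ρ s) = 1) (hqu : q (θ u) = 1) :
    ∃ c, c * z = z * c ∧ c * y = y * c ∧ c * (s * u) * c⁻¹ = s₀ * u₀ := by
  have hM := (P.wS_spec hs).1
  have hw0 : wS ρ s ≠ 0 := fun e => by rw [e, q_zero] at hq; exact zero_ne_one hq
  have hbe := (P.W_iff hu.1).1 hu
  obtain ⟨g, hg, hge, hcase⟩ := P.half.exists_orbit hM hw0
  have hgw : md (ap g (wS ρ s)) = cV := by
    rcases hcase with ⟨e, -⟩ | ⟨-, e⟩
    · exact e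
    · rw [hq] at e; exact absurd e one_ne_zero
  have hgu : bl eV (ap g (md (θ u))) = 0 := bl_eV_ap hge (mid_md hbe).bl_eV
  obtain ⟨p, hp, hp1, hp2⟩ := plane_class (md (ap g (md (θ u)))) (mid_md hgu)
    (by rw [← hgw, bl_md_md hgu (bl_eV_ap hge hM.bl_eV), bl_ap, bl_md_left hM.bl_eV, hb])
    (by rw [q_md hgu, q_ap, q_md hbe, hqu])
  obtain ⟨g', hg', hg'e, hg'x⟩ := P.half.exists_stab hp
  refine P.conj_rep mid_cV mid_uV mid_e2V mid_e3V (by decide) (by decide) (by decide) (by decide) T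
    (J.mul_mem hg' hg) (by rw [ap_mul, hge, hg'e]) hs hu ?_ ?_
  · rw [ap_mul, ← md_ap hg'e, hgw, hg'x, hp1]
  · rw [ap_mul, ← md_ap hg'e, hg'x, hp2]

/-- The third class: singular parameter and a totally singular line. -/
theorem orbit_e {s₁ u₁ : G} (T : IsRep z Qf θ ρ y e2V e3V s₁ u₁) {s u : G} (hs : inWy z Qf y s)
    (hu : inW z Qf y u) (hw0 : wS ρ s ≠ 0) (hq : q (wS ρ s) = 0) (hb : bl (θ u) (wS ρ s) = 0)
    (hqu : q (θ u) = 0) (hm0 : md (θ u) ≠ 0) (hmw : md (θ u) ≠ wS ρ s) :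
    ∃ c, c * z = z * c ∧ c * y = y * c ∧ c * (s * u) * c⁻¹ = s₁ * u₁ := by
  have hM := (P.wS_spec hs).1
  have hbe := (P.W_iff hu.1).1 hu
  obtain ⟨g, hg, hge, hcase⟩ := P.half.exists_orbit hM hw0
  have hgw : md (ap g (wS ρ s)) = e2V := by
    rcases hcase with ⟨-, e⟩ | ⟨e, -⟩
    · rw [hq] at e; exact absurd e zero_ne_one
    · exact e
  have hgu : bl eV (ap g (md (θ u))) = 0 := bl_eV_ap hge (mid_md hbe).bl_eV
  have hge' : ap g⁻¹ eV = eV := by conv_lhs => rw [← hge]; rw [ap_inv_ap]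
  have hback : ∀ v, Mid v → md (ap g⁻¹ (md (ap g v))) = v := fun v hv => by
    rw [md_ap hge', ap_inv_ap, md_of_mid hv]
  rcases line_class (md (ap g (md (θ u)))) (mid_md hgu)
    (by rw [← hgw, bl_md_md hgu (bl_eV_ap hge hM.bl_eV), bl_ap, bl_md_left hM.bl_eV, hb])
    (by rw [q_md hgu, q_ap, q_md hbe, hqu]) with e | e | ⟨p, hp, hp1, hp2⟩
  · exfalso
    apply hm0
    rw [← hback _ (mid_md hbe), e, ap_zero, md_zero]
  · exfalso
    apply hmw
    rw [← hback _ (mid_md hbe), e, ← hgw, hback _ hM]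
  obtain ⟨g', hg', hg'e, hg'x⟩ := P.half.exists_stab hp
  refine P.conj_rep mid_e2V mid_e3V mid_f2V mid_f3V (by decide) (by decide) (by decide) (by decide) T
    (J.mul_mem hg' hg) (by rw [ap_mul, hge, hg'e]) hs hu ?_ ?_
  · rw [ap_mul, ← md_ap hg'e, hgw, hg'x, hp1]
  · rw [ap_mul, ← md_ap hg'e, hg'x, hp2]

variable {s₀ u₀ s₁ u₁ : G} (T0 : IsRep z Qf θ ρ y cV uV s₀ u₀) (T1 : IsRep z Qf θ ρ y e2V e3V s₁ u₁)
include T0 T1

/-- Involutions over a Siegel transformation at `eV`. -/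
theorem over_Te {i : G} {w : V} (hw : Mid w) (hw0 : w ≠ 0) (hiz : i * z = z * i) (hi2 : i * i = 1)
    (hρ : ρ i = Te w hw.bl_eV) : ∃ c, c * z = z * c ∧
      ((inWy z Qf y (c * i * c⁻¹) ∧ q (wS ρ (c * i * c⁻¹)) = 0 ∧ wS ρ (c * i * c⁻¹) ≠ 0) ∨
        c * i * c⁻¹ = s₁ * u₁ ∨ c * i * c⁻¹ = s₀ * u₀) := by
  obtain ⟨s, hs, hsw⟩ := P.exists_Wy hw
  obtain ⟨u, hu, rfl, hbu, hqu⟩ := P.decompose hw hw0 hiz hi2 hρ hs hsw
  rcases z2_cases (q w) with hq | hq <;> rw [hq] at hbu hqu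
  · have hfin : ∀ u', u' ∈ Qf z → md (θ u') = 0 → inWy z Qf y (s * u') ∧
        q (wS ρ (s * u')) = 0 ∧ wS ρ (s * u') ≠ 0 := by
      intro u' hu' h0
      obtain ⟨h1, h2⟩ := P.inWy_of_θ hu' h0
      rw [P.wS_mul hs h1, hsw, h2, add_zero]
      exact ⟨P.Wy_mul hs h1, hq, hw0⟩
    by_cases h0 : md (θ u) = 0
    · exact ⟨1, by simp, Or.inl (by simpa using hfin u hu.1 h0)⟩
    by_cases h1 : md (θ u) = w
    · obtain ⟨x, hx, hθx⟩ := P.θ_surj fV
      obtain ⟨u', hu', he, hθ⟩ := P.conj_su hw hs hsw hu.1 hx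
      refine ⟨x, P.toSetting.comm_z hx, Or.inl ?_⟩
      rw [he]
      refine hfin u' hu' ?_
      rw [hθ, hθx, md_add, h1, (sgf_eV_fix _ hw).2, vadd_self]
    · obtain ⟨c, hc, -, e⟩ := P.orbit_e T1 hs hu (by rw [hsw]; exact hw0) (by rw [hsw]; exact hq)
        (by rw [hsw]; exact hbu) hqu h0 (by rw [hsw]; exact h1)
      exact ⟨c, hc, Or.inr (Or.inl e)⟩
  · obtain ⟨c, hc, -, e⟩ := P.orbit_c T0 hs hu (by rw [hsw]; exact hq) (by rw [hsw]; exact hbu) hqu
    exact ⟨c, hc, Or.inr (Or.inr e)⟩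

end PairSetting

end CfsgLib.ConwayType
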