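import Cfsg.Agent.Lib.ConwayType.Form

/-!
The commutator pairing between the two halves at a pair `z`, `y`.
-/

set_option autoImplicit false
set_option linter.unusedSectionVars false

namespace CfsgLib.ConwayType

variable {G : Type*} [Group G] [Finite G]
variable {z : G} {Qf : G → Subgroup G} {θ : G → V} {ρ : G → O} {J : Subgroup O} {y h : G}

namespace PairSetting

variable (P : PairSetting z Qf θ ρ J y h)
include P

theorem comm_mem {s x : G} (hs : inWy z Qf y s) (hx : inW z Qf y x) :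
    s * x * s⁻¹ * x⁻¹ ∈ Qf z ∧ s * x * s⁻¹ * x⁻¹ ∈ Qf y := by
  refine ⟨(Qf z).mul_mem (P.toSetting.conj_mem_Q hs.2 hx.1) ((Qf z).inv_mem hx.1), ?_⟩
  rw [show s * x * s⁻¹ * x⁻¹ = s * (x * s⁻¹ * x⁻¹) by group]
  exact (Qf y).mul_mem hs.1 (P.goody.norm x hx.2 _ ((Qf y).inv_mem hs.1))

theorem θ_zp_mul (a b : ZMod 2) : θ (zp z a * zp y b) = b • eV := by
  rw [P.θ_mul _ (zp_mem P.toSetting.z_mem a) _ (zp_mem P.y_mem b)]
  rcases z2_cases a with rfl | rfl <;> rcases z2_cases b with rfl | rfl <;>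
    simp [P.toSetting.θ_one, P.toSetting.θ_z, P.θy]

theorem θ_comm {s x : G} (hs : inWy z Qf y s) (hx : inW z Qf y x) :
    θ (s * x * s⁻¹ * x⁻¹) = bl (θ x) (wS ρ s) • eV := by
  obtain ⟨hw, e⟩ := P.wS_spec hs
  rw [P.θ_mul _ (P.toSetting.conj_mem_Q hs.2 hx.1) _ ((Qf z).inv_mem hx.1),
    P.ρ_act s hs.2 x hx.1, P.toSetting.θ_inv hx.1, e, Te, ap_T, sgf_eq, bl_comm (θ x) eV,
    (P.W_iff hx.1).1 hx, zero_smul, mul_zero, add_zero, add_zero,
    add_comm (θ x) (bl (θ x) (wS ρ s) • eV), add_assoc, vadd_self, add_zero]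

/-- The commutator, up to the exponent of `z`. -/
theorem exists_exp {s x : G} (hs : inWy z Qf y s) (hx : inW z Qf y x) :
    ∃! a : ZMod 2, s * x * s⁻¹ * x⁻¹ = zp z a * zp y (bl (θ x) (wS ρ s)) := by
  obtain ⟨h1, h2⟩ := P.comm_mem hs hx
  obtain ⟨a, b, e⟩ := P.D_cases h1 h2
  have hb : b = bl (θ x) (wS ρ s) := by
    have := P.θ_comm hs hx
    rw [e, P.θ_zp_mul] at this
    have h3 := congrFun this (.inl 0)
    simpa [eV, vec] using h3
  subst hb
  refine ⟨a, e, fun a' e' => ?_⟩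
  have h4 := mul_right_cancel (e'.symm.trans e)
  rcases z2_cases a with rfl | rfl <;> rcases z2_cases a' with rfl | rfl
  · rfl
  · exact absurd h4 P.toSetting.z_ne
  · exact absurd h4.symm P.toSetting.z_ne
  · rfl

theorem inWy_of_mem_inter {d : G} (hd : d ∈ Qf z) (hdy : d ∈ Qf y) : inWy z Qf y d :=
  ⟨hdy, P.toSetting.comm_z hd⟩

theorem comm_mul_right {s x x' : G} (hs : inWy z Qf y s) (hx : inW z Qf y x) (hx' : inW z Qf y x') :
    s * (x * x') * s⁻¹ * (x * x')⁻¹ = (s * x * s⁻¹ * x⁻¹) * (s * x' * s⁻¹ * x'⁻¹) := by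
  obtain ⟨a, e, -⟩ := P.exists_exp hs hx'
  have hc : x * (s * x' * s⁻¹ * x'⁻¹) = s * x' * s⁻¹ * x'⁻¹ * x :=
    P.D_comm (a := x) e (P.inW_comm hx).1 (P.inW_comm hx).2
  calc s * (x * x') * s⁻¹ * (x * x')⁻¹
      = (s * x * s⁻¹) * ((s * x' * s⁻¹ * x'⁻¹) * x⁻¹) := by group
    _ = (s * x * s⁻¹) * (x⁻¹ * (x * (s * x' * s⁻¹ * x'⁻¹)) * x⁻¹) := by group
    _ = _ := by rw [hc]; group

theorem comm_mul_left {s s' x : G} (hs : inWy z Qf y s) (hs' : inWy z Qf y s') (hx : inW z Qf y x) :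
    s * s' * x * (s * s')⁻¹ * x⁻¹ = (s' * x * s'⁻¹ * x⁻¹) * (s * x * s⁻¹ * x⁻¹) := by
  obtain ⟨a, e, -⟩ := P.exists_exp hs' hx
  have hc : s * (s' * x * s'⁻¹ * x⁻¹) = s' * x * s'⁻¹ * x⁻¹ * s :=
    P.D_comm (a := s) e (P.inWy_comm hs).1 (P.inWy_comm hs).2
  calc s * s' * x * (s * s')⁻¹ * x⁻¹ = s * (s' * x * s'⁻¹ * x⁻¹) * (x * s⁻¹ * x⁻¹) := by group
    _ = _ := by rw [hc]; group

theorem comm_congr {s s' x x' : G} (hs : inWy z Qf y s) (hs' : inWy z Qf y s') (hx : inW z Qf y x)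
    (hx' : inW z Qf y x') (hw : wS ρ s = wS ρ s') (hv : md (θ x) = md (θ x')) :
    s * x * s⁻¹ * x⁻¹ = s' * x' * s'⁻¹ * x'⁻¹ := by
  have hd := P.Wy_mul hs (P.Wy_inv hs')
  have h0 : wS ρ (s * s'⁻¹) = 0 := by
    have h1 := P.wS_mul hd hs'
    rw [inv_mul_cancel_right, hw] at h1
    exact right_eq_add.1 h1 |>.symm ▸ rfl
  obtain ⟨a, b, ed⟩ := P.D_cases (P.mem_of_wS_zero hd h0) hd.1
  have h1 : s * x * s⁻¹ * x⁻¹ = s' * x * s'⁻¹ * x⁻¹ := by
    have h2 := P.comm_mul_left hd hs' hx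
    rw [inv_mul_cancel_right] at h2
    have hc : x * (s * s'⁻¹) = s * s'⁻¹ * x :=
      P.D_comm (a := x) ed (P.inW_comm hx).1 (P.inW_comm hx).2
    rw [h2, ← hc]
    group
  have hdx := P.W_mul hx (P.W_inv hx')
  have hθ : md (θ (x * x'⁻¹)) = 0 := by
    rw [P.θ_mul x hx.1 _ ((Qf z).inv_mem hx'.1), P.toSetting.θ_inv hx'.1, md_add, hv, vadd_self]
  have hc' : s' * (x * x'⁻¹) = x * x'⁻¹ * s' := by
    have hdec := md_decomp (θ (x * x'⁻¹))
    rw [hθ, zero_add] at hdec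
    set c := θ (x * x'⁻¹) (.inl 0)
    have he : θ (x * x'⁻¹) = θ (zp z 0 * zp y c) := by rw [P.θ_zp_mul]; exact hdec
    rcases P.toSetting.eq_or_of_θ hdx.1
      ((Qf z).mul_mem (zp_mem P.toSetting.z_mem _) (zp_mem P.y_mem _)) he with e | e
    · exact P.D_comm (a := s') e (P.inWy_comm hs').1 (P.inWy_comm hs').2
    · refine P.D_comm (a := s') (s := 1) (t := c) ?_ (P.inWy_comm hs').1 (P.inWy_comm hs').2
      rw [e, zp_zero, one_mul, zp_one]
  have h3 := P.comm_mul_right hs' hdx hx'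
  rw [inv_mul_cancel_right] at h3
  rw [h1, h3, hc']
  group

/-- The exponent of `z` in the commutator is the polar form. -/
theorem comm_eq {s x : G} (hs : inWy z Qf y s) (hx : inW z Qf y x) :
    s * x * s⁻¹ * x⁻¹ = zp z (bl (θ x) (wS ρ s)) * zp y (bl (θ x) (wS ρ s)) := by
  classical
  choose S hS hSw using fun (w : V) (hw : Mid w) => P.exists_Wy hw
  choose L hL hLθ using P.exists_W
  choose E hE using fun (w v : V) (hw : Mid w) (hv : Mid v) =>
    (P.exists_exp (hS w hw) (hL v hv)).exists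
  let dl : V → V → ZMod 2 := fun w v =>
    if hw : Mid w then if hv : Mid v then E w v hw hv else 0 else 0
  have hmid : ∀ {x}, inW z Qf y x → Mid (md (θ x)) := fun {x} hx => mid_md ((P.W_iff hx.1).1 hx)
  have hdl : ∀ s x, inWy z Qf y s → inW z Qf y x →
      s * x * s⁻¹ * x⁻¹ = zp z (dl (wS ρ s) (md (θ x))) * zp y (bl (θ x) (wS ρ s)) := by
    intro s x hs hx
    obtain ⟨hw, -⟩ := P.wS_spec hs
    simp only [dl, dif_pos hw, dif_pos (hmid hx)]
    have h1 := hE _ _ hw (hmid hx)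
    rw [P.comm_congr hs (hS _ hw) hx (hL _ (hmid hx)) (hSw _ hw).symm (by rw [hLθ, md_md])]
    rw [h1, hSw _ hw, hLθ, bl_md_left hw.bl_eV]
  have huniq : ∀ {s x : G}, inWy z Qf y s → inW z Qf y x → ∀ {a : ZMod 2},
      s * x * s⁻¹ * x⁻¹ = zp z a * zp y (bl (θ x) (wS ρ s)) → a = dl (wS ρ s) (md (θ x)) :=
    fun hs hx _ e => (P.exists_exp hs hx).unique e (hdl _ _ hs hx)
  have hright : ∀ w u v, Mid w → Mid u → Mid v → dl w (u + v) = dl w u + dl w v := by
    intro w u v hw hu hv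
    have hx := P.W_mul (hL u hu) (hL v hv)
    have hθ : θ (L u hu * L v hv) = u + v := by rw [P.θ_mul _ (hL u hu).1 _ (hL v hv).1, hLθ, hLθ]
    have e := huniq (hS w hw) hx (a := dl w u + dl w v) (by
      rw [P.comm_mul_right (hS w hw) (hL u hu) (hL v hv), hdl _ _ (hS w hw) (hL u hu),
        hdl _ _ (hS w hw) (hL v hv), hθ, hLθ, hLθ, hSw, md_of_mid hu, md_of_mid hv, bl_add_left,
        zp_add P.toSetting.z_sq, zp_add P.y_sq]
      exact (Commute.mul_mul_mul_comm (show Commute (zp y (bl u w)) (zp z (dl w v)) from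
        zp_comm (a := z) (P.toSetting.comm_z (zp_mem P.y_mem _)) _) _ _))
    rw [hθ, hSw, md_of_mid (hu.add hv)] at e
    exact e.symm
  have hleft : ∀ w w' v, Mid w → Mid w' → Mid v → dl (w + w') v = dl w v + dl w' v := by
    intro w w' v hw hw' hv
    have hs' := P.Wy_mul (hS w hw) (hS w' hw')
    have hwS : wS ρ (S w hw * S w' hw') = w + w' := by
      rw [P.wS_mul (hS w hw) (hS w' hw'), hSw, hSw]
    have e := huniq hs' (hL v hv) (a := dl w v + dl w' v) (by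
      rw [P.comm_mul_left (hS w hw) (hS w' hw') (hL v hv), hdl _ _ (hS w' hw') (hL v hv),
        hdl _ _ (hS w hw) (hL v hv), hwS, hSw, hSw, hLθ, md_of_mid hv, bl_add_right,
        add_comm (dl w v), add_comm (bl v w), zp_add P.toSetting.z_sq, zp_add P.y_sq]
      exact (Commute.mul_mul_mul_comm (show Commute (zp y (bl v w')) (zp z (dl w v)) from
        zp_comm (a := z) (P.toSetting.comm_z (zp_mem P.y_mem _)) _) _ _))
    rw [hwS, hLθ, md_of_mid hv] at e
    exact e.symm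
  have hinv : ∀ g ∈ J, ap g eV = eV → ∀ w v, Mid w → Mid v →
      dl (md (ap g w)) (md (ap g v)) = dl w v := by
    intro g hg hge w v hw hv
    obtain ⟨c, hcz, hcy, rfl⟩ := P.exists_lift hg hge
    obtain ⟨hs', hw'⟩ := P.wS_conj hcz hcy (hS w hw)
    rw [hSw] at hw'
    have hxQ := P.toSetting.conj_mem_Q hcz (hL v hv).1
    have hx' : inW z Qf y (c * L v hv * c⁻¹) :=
      ⟨hxQ, conj_comm rfl (conj_fix_iff.2 hcy) (hL v hv).2⟩
    have hθ : θ (c * L v hv * c⁻¹) = ap (ρ c) v := by rw [P.ρ_act c hcz _ (hL v hv).1, hLθ]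
    have e := huniq hs' hx' (a := dl w v) (by
      rw [show c * S w hw * c⁻¹ * (c * L v hv * c⁻¹) * (c * S w hw * c⁻¹)⁻¹ * (c * L v hv * c⁻¹)⁻¹ =
        c * (S w hw * L v hv * (S w hw)⁻¹ * (L v hv)⁻¹) * c⁻¹ by group, hdl _ _ (hS w hw) (hL v hv),
        hSw, hLθ, md_of_mid hv, hw', hθ]
      have hb : bl (ap (ρ c) v) (md (ap (ρ c) w)) = bl v w := by
        rw [bl_comm, bl_md_left (bl_eV_ap hge hv.bl_eV), bl_comm, bl_ap]
      rw [hb]
      exact conj_fix_iff.2 (P.D_comm (a := c) rfl hcz hcy))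
    rw [hw', hθ] at e
    exact e.symm
  have hsym : ∀ s x, inWy z Qf y s → inW z Qf y x →
      dl (wS ρ (h * x * h⁻¹)) (md (θ (h * s * h⁻¹))) = bl (θ x) (wS ρ s) := by
    intro s x hs hx
    have hs1 := P.W_to_Wy hx
    have hx1 := P.Wy_to_W hs
    refine (huniq hs1 hx1 (a := bl (θ x) (wS ρ s)) ?_).symm
    have e1 : h * x * h⁻¹ * (h * s * h⁻¹) * (h * x * h⁻¹)⁻¹ * (h * s * h⁻¹)⁻¹ =
        h * (s * x * s⁻¹ * x⁻¹)⁻¹ * h⁻¹ := by group
    obtain ⟨a, ha, -⟩ := P.exists_exp hs1 hx1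
    rw [ha] at e1
    rw [hdl s x hs hx] at e1
    have e2 : h * (zp z (dl (wS ρ s) (md (θ x))) * zp y (bl (θ x) (wS ρ s)))⁻¹ * h⁻¹ =
        zp z (bl (θ x) (wS ρ s)) * zp y (dl (wS ρ s) (md (θ x))) := by
      have hzy : ∀ a, zp y a * z = z * zp y a := fun a =>
        P.toSetting.comm_z (zp_mem P.y_mem a)
      rcases z2_cases (dl (wS ρ s) (md (θ x))) with a1 | a1 <;>
        rcases z2_cases (bl (θ x) (wS ρ s)) with b1 | b1 <;> rw [a1, b1]
      · simp
      · rw [zp_zero, zp_one, one_mul, zp_zero, mul_one, inv_eq_of_mul_eq_one_right P.y_sq]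
        exact P.hy
      · rw [zp_zero, zp_one, mul_one, zp_zero, zp_one, one_mul,
          inv_eq_of_mul_eq_one_right P.toSetting.z_sq]
        exact P.hz
      · rw [zp_one, zp_one, mul_inv_rev, inv_eq_of_mul_eq_one_right P.y_sq,
          inv_eq_of_mul_eq_one_right P.toSetting.z_sq,
          show h * (y * z) * h⁻¹ = (h * y * h⁻¹) * (h * z * h⁻¹) by group, P.hy, P.hz]
    rw [e2] at e1
    rw [show h * x * h⁻¹ * (h * s * h⁻¹) * (h * x * h⁻¹)⁻¹ * (h * s * h⁻¹)⁻¹ = _ from ha]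
    have e3 : θ (zp z a * zp y (bl (θ (h * s * h⁻¹)) (wS ρ (h * x * h⁻¹)))) =
        θ (zp z (bl (θ x) (wS ρ s)) * zp y (dl (wS ρ s) (md (θ x)))) := by rw [e1]
    rw [P.θ_zp_mul, P.θ_zp_mul] at e3
    have e4 := congrFun e3 (.inl 0)
    simp only [Pi.smul_apply, smul_eq_mul] at e4
    rw [show eV (.inl 0) = 1 from rfl, mul_one, mul_one] at e4
    rw [← e4] at e1
    exact e1
  -- the representing endomorphism
  let Bf : V → V := fun w => vec 0 (dl w f2V) (dl w f3V) (dl w f4V) 0 (dl w e2V) (dl w e3V) (dl w e4V)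
  have hBmid : ∀ w, Mid (Bf w) := fun w => ⟨rfl, rfl⟩
  have hBf : ∀ w, Mid w → ∀ v, Mid v → dl w v = bl (Bf w) v := fun w hw v hv =>
    mid_linear (fun u u' hu hu' => hright w u u' hw hu hu') hv
  have hequiv : ∀ g ∈ J, ap g eV = eV → ∀ w, Mid w → Bf (md (ap g w)) = md (ap g (Bf w)) := by
    intro g hg hge w hw
    have hgw : Mid (md (ap g w)) := mid_md (bl_eV_ap hge hw.bl_eV)
    refine vadd_eq_zero.1 (mid_nondeg _ ((hBmid _).add (mid_md (bl_eV_ap hge (hBmid w).bl_eV)))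
      fun u hu => ?_)
    have hge' : ap g⁻¹ eV = eV := by conv_lhs => rw [← hge]; rw [ap_inv_ap]
    have hv : Mid (md (ap g⁻¹ u)) := mid_md (bl_eV_ap hge' hu.bl_eV)
    have hgv : md (ap g (md (ap g⁻¹ u))) = u := by rw [md_ap hge, ap_ap_inv, md_of_mid hu]
    have e := hinv g hg hge w _ hw hv
    rw [hgv, hBf _ hgw u hu, hBf w hw _ hv] at e
    rw [bl_add_left, e, ← bl_ap g (Bf w) (md (ap g⁻¹ u))]
    conv_lhs => arg 2; arg 2; rw [← hgv]
    rw [bl_md_md (bl_eV_ap hge (hBmid w).bl_eV) (bl_eV_ap hge hv.bl_eV), CharTwo.add_self_eq_zero]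
  have hrep : ∀ k : Bool, Bf (bif k then e2V else cV) = 0 ∨
      Bf (bif k then e2V else cV) = (bif k then e2V else cV) := by
    intro k
    by_contra hne
    push Not at hne
    obtain ⟨p, hp, h1, h2⟩ := not_fixed _ (hBmid _) k hne.1 hne.2
    obtain ⟨g, hg, hge, hgx⟩ := P.half.exists_stab hp
    rw [← hgx] at h1 h2
    have hk : Mid (bif k then e2V else cV) := by
      cases k
      · exact mid_cV
      · exact mid_e2V
    have e := hequiv g hg hge _ hk
    rw [h1] at e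
    exact h2 e.symm
  have hB0' : Bf 0 = 0 := by
    have h00 : ∀ v, Mid v → dl 0 v = 0 := fun v hv => by
      have := hleft 0 0 v mid_zero mid_zero hv
      rw [add_zero, CharTwo.add_self_eq_zero] at this
      exact this
    exact mid_nondeg _ (hBmid 0) fun v hv => by rw [← hBf 0 mid_zero v hv, h00 v hv]
  have hB01 : ∀ w, Mid w → Bf w = 0 ∨ Bf w = w := by
    intro w hw
    by_cases hw0 : w = 0
    · exact Or.inl (by rw [hw0, hB0'])
    obtain ⟨g, hg, hge, hcase⟩ := P.half.exists_orbit hw hw0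
    have hge' : ap g⁻¹ eV = eV := by conv_lhs => rw [← hge]; rw [ap_inv_ap]
    have e := hequiv g hg hge w hw
    have key : ∀ k : Bool, md (ap g w) = (bif k then e2V else cV) → Bf w = 0 ∨ Bf w = w := by
      intro k hk
      rw [hk] at e
      have hback : md (ap g⁻¹ (md (ap g (Bf w)))) = Bf w := by
        rw [md_ap hge', ap_inv_ap, md_of_mid (hBmid w)]
      rcases hrep k with h0 | h0 <;> rw [h0] at e
      · left
        rw [← hback, ← e, ap_zero, md_zero]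
      · right
        rw [← hback, ← e, ← hk, md_ap hge', ap_inv_ap, md_of_mid hw]
    rcases hcase with ⟨h, -⟩ | ⟨h, -⟩
    · exact key false h
    · exact key true h
  have hBadd : ∀ w w', Mid w → Mid w' → Bf (w + w') = Bf w + Bf w' := by
    intro w w' hw hw'
    funext i
    rcases i with i | i <;> fin_cases i <;>
      simp [Bf, vec, hleft w w' _ hw hw' mid_e2V, hleft w w' _ hw hw' mid_f2V,
        hleft w w' _ hw hw' mid_e3V, hleft w w' _ hw hw' mid_f3V,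
        hleft w w' _ hw hw' mid_e4V, hleft w w' _ hw hw' mid_f4V]
  have hid : ∀ w, Mid w → Bf w = w := by
    -- some commutator has a nontrivial exponent
    have hx := hL cV mid_cV
    have hs := hS uV mid_uV
    have e := hsym _ _ hs hx
    rw [hLθ, hSw, bl_c_u] at e
    set w₀ := wS ρ (h * L cV mid_cV * h⁻¹)
    have hw₀ : Mid w₀ := (P.wS_spec (P.W_to_Wy hx)).1
    have hne : Bf w₀ ≠ 0 := by
      intro e0
      rw [hBf w₀ hw₀ _ (hmid (P.Wy_to_W hs)), e0, bl_zero_left] at e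
      exact zero_ne_one e
    have hw0 : Bf w₀ = w₀ := (hB01 w₀ hw₀).resolve_left hne
    intro w hw
    rcases hB01 w hw with e1 | e1
    · by_contra hne1
      have hwne : w ≠ 0 := fun e2 => hne1 (by rw [e1, e2])
      rcases hB01 _ (hw.add hw₀) with e2 | e2 <;> rw [hBadd w w₀ hw hw₀, e1, hw0, zero_add] at e2
      · exact hne (hw0.trans e2)
      · exact hwne (right_eq_add.1 e2)
    · exact e1
  obtain ⟨hw, -⟩ := P.wS_spec hs
  rw [hdl s x hs hx, hBf _ hw _ (hmid hx), hid _ hw, bl_comm, bl_md_left hw.bl_eV]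

end PairSetting

end CfsgLib.ConwayType
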