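import Cfsg.Agent.Lib.ConwayType.NotConj

/-!
The orbits of the two representatives under `C(z, y)`, and their distinctness.
-/

set_option autoImplicit false
set_option linter.unusedSectionVars false
set_option maxRecDepth 100000
set_option maxHeartbeats 1000000
set_option synthInstance.maxSize 1000

namespace CfsgLib.ConwayType

open CfsgLib.ExtraspecialLarge

variable {G : Type*} [Group G] [Finite G]
variable {z : G} {Qf : G → Subgroup G} {θ : G → V} {ρ : G → O} {J : Subgroup O} {y h : G}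

/-- Coordinates of middle vectors. -/
abbrev Idx6 : Type := ZMod 2 × ZMod 2 × ZMod 2 × ZMod 2 × ZMod 2 × ZMod 2

/-- Coordinates of vectors orthogonal to `eV`. -/
abbrev Idx7 : Type := ZMod 2 × Idx6

/-- The middle vector with given coordinates. -/
def midVec (p : Idx6) : V :=
  vec 0 p.1 p.2.1 p.2.2.1 0 p.2.2.2.1 p.2.2.2.2.1 p.2.2.2.2.2

/-- The vector orthogonal to `eV` with given coordinates. -/
def perpVec (p : Idx7) : V :=
  vec p.1 p.2.1 p.2.2.1 p.2.2.2.1 0 p.2.2.2.2.1 p.2.2.2.2.2.1 p.2.2.2.2.2.2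

/-- The coordinates of a vector. -/
def idx6 (v : V) : Idx6 := (v (.inl 1), v (.inl 2), v (.inl 3), v (.inr 1), v (.inr 2), v (.inr 3))

theorem idx6_midVec : ∀ v : V, Mid v → midVec (idx6 v) = v := by
  rw [forall_mid]; decide +kernel

theorem perpVec_idx : ∀ v : V, bl eV v = 0 → perpVec (v (.inl 0), idx6 v) = v := by
  rw [forall_vec]; decide +kernel

theorem idx6_left : ∀ p : Idx6, idx6 (midVec p) = p ∧ Mid (midVec p) := by decide +kernel

theorem idx7_left : ∀ p : Idx7,
    (perpVec p (.inl 0), idx6 (perpVec p)) = p ∧ bl eV (perpVec p) = 0 := by decide +kernel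

/-- The conditions on the parameters of the second class. -/
def CondC (w v : V) : Prop := q w = 1 ∧ bl v w = 1 ∧ q v = 1

/-- The conditions on the parameters of the third class. -/
def CondE (w v : V) : Prop :=
  q w = 0 ∧ w ≠ 0 ∧ bl v w = 0 ∧ q v = 0 ∧ md v ≠ 0 ∧ md v ≠ w

instance : DecidableRel CondC := fun _ _ => by unfold CondC; infer_instance
instance : DecidableRel CondE := fun _ _ => by unfold CondE; infer_instance

theorem countC :
    (Finset.univ.filter fun p : Idx6 × Idx7 => CondC (midVec p.1) (perpVec p.2)).card = 672 := by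
  decide +kernel

theorem countE :
    (Finset.univ.filter fun p : Idx6 × Idx7 => CondE (midVec p.1) (perpVec p.2)).card = 1260 := by
  decide +kernel

theorem e2V_ne_zero : e2V ≠ 0 := by decide
theorem e3V_ne_zero : e3V ≠ 0 := by decide
theorem e2V_ne_e3V : e2V ≠ e3V := by decide
theorem bl_e2_e3 : bl e2V e3V = 0 := by decide

namespace PairSetting

variable (P : PairSetting z Qf θ ρ J y h)
include P

theorem zp_z_inj' {a b : ZMod 2} (e : zp z a = zp z b) : a = b := by
  rcases z2_cases a with rfl | rfl <;> rcases z2_cases b with rfl | rfl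
  · rfl
  · exact absurd e.symm P.toSetting.z_ne
  · exact absurd e P.toSetting.z_ne
  · rfl

/-- The elements `s u` with parameters in a given relation. -/
theorem card_orbit_set (R : V → V → Prop) [DecidableRel R]
    (hR : ∀ w v, Mid w → bl eV v = 0 → (R w (eV + v) ↔ R w v)) :
    Nat.card {i : G // ∃ s u, inWy z Qf y s ∧ inW z Qf y u ∧ R (wS ρ s) (θ u) ∧ i = s * u} =
      2 * (Finset.univ.filter fun p : Idx6 × Idx7 => R (midVec p.1) (perpVec p.2)).card := by
  classical
  choose S hS hSw using fun w : {w : V // Mid w} => P.exists_Wy w.2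
  choose L hL hLθ using P.θ_surj
  have hmem : ∀ (k : ZMod 2) (v : V), zp z k * L v ∈ Qf z ∧ θ (zp z k * L v) = v := by
    intro k v
    refine ⟨(Qf z).mul_mem (zp_mem P.toSetting.z_mem k) (hL v), ?_⟩
    rcases z2_cases k with rfl | rfl
    · rw [zp_zero, one_mul, hLθ]
    · rw [zp_one, P.toSetting.θ_z_mul (hL v), hLθ]
  let φ : {p : Idx6 × Idx7 // R (midVec p.1) (perpVec p.2)} × ZMod 2 →
      {i : G // ∃ s u, inWy z Qf y s ∧ inW z Qf y u ∧ R (wS ρ s) (θ u) ∧ i = s * u} := fun p =>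
    ⟨S ⟨_, (idx6_left p.1.1.1).2⟩ * (zp z p.2 * L (perpVec p.1.1.2)),
      _, _, hS _, (P.W_iff (hmem _ _).1).2 (by rw [(hmem _ _).2]; exact (idx7_left _).2),
      by rw [hSw, (hmem _ _).2]; exact p.1.2, rfl⟩
  have hbij : Function.Bijective φ := by
    constructor
    · rintro ⟨⟨⟨a, b⟩, hab⟩, k⟩ ⟨⟨⟨a', b'⟩, hab'⟩, k'⟩ e
      have e0 := congrArg Subtype.val e
      simp only [φ] at e0
      have hρ : ρ (S ⟨_, (idx6_left a).2⟩) = ρ (S ⟨_, (idx6_left a').2⟩) := by
        have := congrArg ρ e0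
        rw [P.toSetting.ρ_mul (hS _).2 (P.toSetting.comm_z (hmem _ _).1),
          P.toSetting.ρ_mul (hS _).2 (P.toSetting.comm_z (hmem _ _).1),
          P.toSetting.ρ_of_mem (hmem _ _).1, P.toSetting.ρ_of_mem (hmem _ _).1, mul_one, mul_one] at this
        exact this
      have hw : midVec a = midVec a' := by
        have h1 := hSw ⟨_, (idx6_left a).2⟩
        have h2 := hSw ⟨_, (idx6_left a').2⟩
        simp only [wS] at h1 h2
        rw [← h1, hρ, h2]
      obtain rfl : a = a' := by rw [← (idx6_left a).1, hw, (idx6_left a').1]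
      have hx : zp z k * L (perpVec b) = zp z k' * L (perpVec b') := mul_left_cancel e0
      obtain rfl : b = b' := by
        have := congrArg θ hx
        rw [(hmem _ _).2, (hmem _ _).2] at this
        rw [← (idx7_left b).1, this, (idx7_left b').1]
      obtain rfl : k = k' := P.zp_z_inj' (mul_right_cancel hx)
      rfl
    · rintro ⟨i, s, u, hs, hu, hRsu, rfl⟩
      have hM := (P.wS_spec hs).1
      obtain ⟨hdQ, hdy, -⟩ := P.diff_mem (hS ⟨_, hM⟩) hs (hSw _)
      set d := (S ⟨_, hM⟩)⁻¹ * s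
      have hu' : inW z Qf y (d * u) := P.W_mul ⟨hdQ, P.goody.comm d hdy⟩ hu
      have hbe := (P.W_iff hu.1).1 hu
      have hRd : R (wS ρ s) (θ (d * u)) := by
        rw [P.θ_mul _ hdQ _ hu.1]
        rcases P.θ_inter hdQ hdy with e | e <;> rw [e]
        · rwa [zero_add]
        · exact (hR _ _ hM hbe).2 hRsu
      obtain ⟨k, hk⟩ : ∃ k, d * u = zp z k * L (θ (d * u)) := by
        rcases P.toSetting.eq_or_of_θ hu'.1 (hL _) (hLθ _).symm with e | e
        · exact ⟨0, by rw [zp_zero, one_mul]; exact e⟩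
        · exact ⟨1, by rw [zp_one]; exact e⟩
      have hp := perpVec_idx _ ((P.W_iff hu'.1).1 hu')
      refine ⟨⟨⟨(idx6 (wS ρ s), (θ (d * u) (.inl 0), idx6 (θ (d * u)))),
        by rw [idx6_midVec _ hM, hp]; exact hRd⟩, k⟩, Subtype.ext ?_⟩
      have hSe : ∀ (w : V) (hw : Mid w), w = wS ρ s → S ⟨w, hw⟩ = S ⟨_, hM⟩ := by
        intro w hw e; subst e; rfl
      simp only [φ]
      rw [hSe _ _ (idx6_midVec _ hM), hp, ← hk]
      simp only [d]
      group
  rw [← Nat.card_congr (Equiv.ofBijective φ hbij), Nat.card_prod, Nat.card_eq_fintype_card,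
    Fintype.card_subtype, Nat.card_zmod, mul_comm]

/-- Orbit and stabiliser for `C(z, y)` acting by conjugation. -/
theorem card_orbit_mul (t : G) :
    Nat.card {x : G // ∃ c, c * z = z * c ∧ c * y = y * c ∧ c * t * c⁻¹ = x} *
      Nat.card ↥(Subgroup.centralizer ({z, y, t} : Set G)) =
      Nat.card ↥(Subgroup.centralizer ({z, y} : Set G)) := by
  obtain ⟨K, hK⟩ : ∃ K, K = Subgroup.centralizer ({z, y} : Set G) := ⟨_, rfl⟩
  rw [← hK]
  have hmK : ∀ c, c ∈ K ↔ c * z = z * c ∧ c * y = y * c := by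
    intro c
    rw [hK, Subgroup.mem_centralizer_iff]
    constructor
    · intro H; exact ⟨(H z (by simp)).symm, (H _ (by simp)).symm⟩
    · rintro ⟨a, b⟩ _ (rfl | rfl)
      exacts [a.symm, b.symm]
  letI : MulAction K G := MulAction.compHom G (MulAut.conj.comp K.subtype)
  have hsm : ∀ (c : K) (x : G), c • x = (c : G) * x * (c : G)⁻¹ := fun _ _ => rfl
  have ho : Nat.card (MulAction.orbit K t) =
      Nat.card {x : G // ∃ c, c * z = z * c ∧ c * y = y * c ∧ c * t * c⁻¹ = x} := by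
    refine Nat.card_congr (Equiv.subtypeEquivRight fun x => ?_)
    rw [MulAction.mem_orbit_iff]
    constructor
    · rintro ⟨c, rfl⟩
      exact ⟨c, ((hmK _).1 c.2).1, ((hmK _).1 c.2).2, (hsm c t).symm⟩
    · rintro ⟨c, h1, h2, e⟩
      exact ⟨⟨c, (hmK c).2 ⟨h1, h2⟩⟩, by rw [hsm]; exact e⟩
  have hle : Subgroup.centralizer ({z, y, t} : Set G) ≤ K := hK ▸ Subgroup.centralizer_le (by
    rintro x (rfl | rfl)
    · simp
    · simp)
  have hs : Nat.card ↥(Subgroup.centralizer ({z, y, t} : Set G)) =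
      Nat.card (MulAction.stabilizer K t) := by
    rw [← Nat.card_congr (Subgroup.subgroupOfEquivOfLe hle).toEquiv]
    refine Nat.card_congr (Equiv.subtypeEquivRight fun c => ?_)
    rw [Subgroup.mem_subgroupOf, MulAction.mem_stabilizer_iff, hsm, Subgroup.mem_centralizer_iff,
      conj_fix_iff]
    constructor
    · intro H; exact (H t (by simp)).symm
    · rintro H _ (rfl | rfl | rfl)
      exacts [((hmK _).1 c.2).1.symm, ((hmK _).1 c.2).2.symm, H.symm]
  rw [← ho, hs, ← Nat.card_prod, Nat.card_congr (MulAction.orbitProdStabilizerEquivGroup K t)]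

theorem conj_params {c s u : G} (hcz : c * z = z * c) (hcy : c * y = y * c) (hs : inWy z Qf y s)
    (hu : inW z Qf y u) :
    inWy z Qf y (c * s * c⁻¹) ∧ inW z Qf y (c * u * c⁻¹) ∧ ap (ρ c) eV = eV ∧
      wS ρ (c * s * c⁻¹) = md (ap (ρ c) (wS ρ s)) ∧ θ (c * u * c⁻¹) = ap (ρ c) (θ u) := by
  obtain ⟨h1, h2⟩ := P.wS_conj hcz hcy hs
  refine ⟨h1, ⟨P.toSetting.conj_mem_Q hcz hu.1, ?_⟩, P.ρy hcz hcy, h2, P.ρ_act c hcz u hu.1⟩
  exact comm_mul (comm_mul hcy hu.2) (comm_inv hcy)

variable {s₀ u₀ s₁ u₁ : G} (T0 : IsRep z Qf θ ρ y cV uV s₀ u₀) (T1 : IsRep z Qf θ ρ y e2V e3V s₁ u₁)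

include T0 in
theorem card_orbit_c :
    Nat.card {x : G // ∃ c, c * z = z * c ∧ c * y = y * c ∧ c * (s₀ * u₀) * c⁻¹ = x} = 1344 := by
  have h := P.card_orbit_set CondC (fun w v hw hv => by
    unfold CondC
    rw [bl_add_left, hw.bl_eV, zero_add, q_add, q_eV, hv, zero_add, add_zero])
  rw [countC] at h
  refine (Eq.trans ?_ h).trans (by norm_num)
  refine Nat.card_congr (Equiv.subtypeEquivRight fun x => ⟨?_, ?_⟩)
  · rintro ⟨c, hcz, hcy, rfl⟩
    obtain ⟨h1, h2, he, hw, hθ⟩ := P.conj_params hcz hcy T0.hs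
      ((P.W_iff T0.hu).2 (by rw [T0.hθu]; exact mid_uV.bl_eV))
    have hce : bl eV (ap (ρ c) cV) = 0 := bl_eV_ap he mid_cV.bl_eV
    have hue : bl eV (ap (ρ c) uV) = 0 := bl_eV_ap he mid_uV.bl_eV
    refine ⟨_, _, h1, h2, ?_, by group⟩
    rw [hw, hθ, T0.hsw, T0.hθu]
    refine ⟨?_, ?_, ?_⟩
    · rw [q_md hce, q_ap, q_cV]
    · rw [bl_comm, bl_md_left hue, bl_ap, bl_c_u]
    · rw [q_ap, q_uV]
  · rintro ⟨s, u, hs, hu, ⟨hq, hb, hqu⟩, rfl⟩
    obtain ⟨c, hcz, hcy, e⟩ := P.orbit_c T0 hs hu hq hb hqu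
    refine ⟨c⁻¹, comm_inv hcz, comm_inv hcy, ?_⟩
    rw [← e]; group

include T1 in
theorem card_orbit_e :
    Nat.card {x : G // ∃ c, c * z = z * c ∧ c * y = y * c ∧ c * (s₁ * u₁) * c⁻¹ = x} = 2520 := by
  have h := P.card_orbit_set CondE (fun w v hw hv => by
    unfold CondE
    rw [bl_add_left, hw.bl_eV, zero_add, q_add, q_eV, hv, zero_add, add_zero, md_add, md_eV,
      zero_add])
  rw [countE] at h
  refine (Eq.trans ?_ h).trans (by norm_num)
  refine Nat.card_congr (Equiv.subtypeEquivRight fun x => ⟨?_, ?_⟩)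
  · rintro ⟨c, hcz, hcy, rfl⟩
    obtain ⟨h1, h2, he, hw, hθ⟩ := P.conj_params hcz hcy T1.hs
      ((P.W_iff T1.hu).2 (by rw [T1.hθu]; exact mid_e3V.bl_eV))
    have hce : bl eV (ap (ρ c) e2V) = 0 := bl_eV_ap he mid_e2V.bl_eV
    have hue : bl eV (ap (ρ c) e3V) = 0 := bl_eV_ap he mid_e3V.bl_eV
    have he' : ap (ρ c)⁻¹ eV = eV := by conv_lhs => rw [← he]; rw [ap_inv_ap]
    have hback : ∀ v, Mid v → md (ap (ρ c)⁻¹ (md (ap (ρ c) v))) = v := fun v hv => by
      rw [md_ap he', ap_inv_ap, md_of_mid hv]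
    refine ⟨_, _, h1, h2, ?_, by group⟩
    rw [hw, hθ, T1.hsw, T1.hθu]
    refine ⟨?_, ?_, ?_, ?_, ?_, ?_⟩
    · rw [q_md hce, q_ap, q_e2V]
    · intro e
      have h' := hback _ mid_e2V
      rw [e, ap_zero, md_zero] at h'
      exact absurd h'.symm e2V_ne_zero
    · rw [bl_comm, bl_md_left hue, bl_ap, bl_e2_e3]
    · rw [q_ap, q_e3V]
    · intro e
      have h' := hback _ mid_e3V
      rw [e, ap_zero, md_zero] at h'
      exact absurd h'.symm e3V_ne_zero
    · intro e
      have h' := hback _ mid_e3V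
      rw [e, hback _ mid_e2V] at h'
      exact absurd h' e2V_ne_e3V
  · rintro ⟨s, u, hs, hu, ⟨hq, hw0, hb, hqu, hm0, hmw⟩, rfl⟩
    obtain ⟨c, hcz, hcy, e⟩ := P.orbit_e T1 hs hu hw0 hq hb hqu hm0 hmw
    refine ⟨c⁻¹, comm_inv hcz, comm_inv hcy, ?_⟩
    rw [← e]; group

include T0 T1 in
/-- The two representatives are not conjugate. -/
theorem not_isConj_t0_t1 : ¬ IsConj (s₀ * u₀) (s₁ * u₁) := by
  intro hc
  obtain ⟨g, hg⟩ := isConj_iff.1 hc
  have hcard : Nat.card ↥(Subgroup.centralizer ({s₀ * u₀} : Set G)) =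
      Nat.card ↥(Subgroup.centralizer ({s₁ * u₁} : Set G)) := by
    refine Nat.card_congr ((MulAut.conj g).toEquiv.subtypeEquiv fun x => ?_)
    rw [Subgroup.mem_centralizer_singleton_iff, Subgroup.mem_centralizer_singleton_iff, ← hg]
    simp only [MulEquiv.toEquiv_eq_coe, EquivLike.coe_coe, MulAut.conj_apply]
    rw [show g * x * g⁻¹ * (g * (s₀ * u₀) * g⁻¹) = g * (x * (s₀ * u₀)) * g⁻¹ by group,
      show g * (s₀ * u₀) * g⁻¹ * (g * x * g⁻¹) = g * (s₀ * u₀ * x) * g⁻¹ by group]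
    exact (MulAut.conj g).injective.eq_iff.symm
  have h0 := P.card_orbit_mul (s₀ * u₀)
  have h1 := P.card_orbit_mul (s₁ * u₁)
  rw [P.card_orbit_c T0] at h0
  rw [P.card_orbit_e T1] at h1
  have hle : Subgroup.centralizer ({z, y, s₁ * u₁} : Set G) ≤
      Subgroup.centralizer ({s₁ * u₁} : Set G) := Subgroup.centralizer_le (by simp)
  have hd := (Nat.factorization_le_iff_dvd Nat.card_pos.ne' Nat.card_pos.ne').2
    (Subgroup.card_dvd_of_le hle) 2
  rw [← hcard, P.factorization_t0 T0, P.card_centralizer_t0 T0] at hd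
  have hne : ∀ H : Subgroup G, Nat.card H ≠ 0 := fun H => Nat.card_pos.ne'
  have e0 := congrArg (fun n => n.factorization 2) h0
  have e1 := congrArg (fun n => n.factorization 2) h1
  have f0 : (1344 : ℕ).factorization 2 = 6 := by
    rw [Nat.factorization_def _ Nat.prime_two,
      show (1344 : ℕ) = 2 ^ 6 * 21 by norm_num, padicValNat.mul (by norm_num) (by norm_num),
      padicValNat.prime_pow, padicValNat.eq_zero_of_not_dvd (by norm_num), add_zero]
  have f1 : (2520 : ℕ).factorization 2 = 3 := by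
    rw [Nat.factorization_def _ Nat.prime_two,
      show (2520 : ℕ) = 2 ^ 3 * 315 by norm_num, padicValNat.mul (by norm_num) (by norm_num),
      padicValNat.prime_pow, padicValNat.eq_zero_of_not_dvd (by norm_num), add_zero]
  rw [Nat.factorization_mul (by norm_num) (hne _), Finsupp.add_apply,
    Nat.Prime.factorization_self Nat.prime_two] at hd
  simp only [Nat.factorization_mul (show (1344 : ℕ) ≠ 0 by norm_num) (hne _),
    Finsupp.add_apply, f0] at e0
  simp only [Nat.factorization_mul (show (2520 : ℕ) ≠ 0 by norm_num) (hne _),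
    Finsupp.add_apply, f1] at e1
  omega

end PairSetting

end CfsgLib.ConwayType
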