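import Cfsg.Agent.Lib.ConwayType.Pair

/-!
The squaring map and the commutator pairing between the two halves at a pair `z`, `y`.
-/

set_option autoImplicit false
set_option linter.unusedSectionVars false

namespace CfsgLib.ConwayType

open CfsgLib.ExtraspecialLarge

variable {G : Type*} [Group G] [Finite G]
variable {z : G} {Qf : G → Subgroup G} {θ : G → V} {ρ : G → O} {J : Subgroup O} {y h : G}

theorem mid_decomp {v : V} (hv : Mid v) : v = v (.inl 1) • e2V + v (.inl 2) • e3V + v (.inl 3) • e4V +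
    v (.inr 1) • f2V + v (.inr 2) • f3V + v (.inr 3) • f4V := by
  conv_lhs => rw [vec_decomp v, hv.1, hv.2, zero_smul, zero_smul]
  abel

theorem mid_linear {L : V → ZMod 2} (hL : ∀ u v, Mid u → Mid v → L (u + v) = L u + L v) {v : V}
    (hv : Mid v) :
    L v = bl (vec 0 (L f2V) (L f3V) (L f4V) 0 (L e2V) (L e3V) (L e4V)) v := by
  have h0 : L 0 = 0 := by
    have := hL 0 0 mid_zero mid_zero
    rw [add_zero, CharTwo.add_self_eq_zero] at this
    exact this
  have hs : ∀ (c : ZMod 2) (u : V), Mid u → Mid (c • u) ∧ L (c • u) = c * L u := by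
    intro c u hu
    rcases z2_cases c with rfl | rfl
    · rw [zero_smul, zero_mul]; exact ⟨mid_zero, h0⟩
    · rw [one_smul, one_mul]; exact ⟨hu, rfl⟩
  conv_lhs => rw [mid_decomp hv]
  obtain ⟨m1, e1⟩ := hs (v (.inl 1)) e2V mid_e2V
  obtain ⟨m2, e2⟩ := hs (v (.inl 2)) e3V mid_e3V
  obtain ⟨m3, e3⟩ := hs (v (.inl 3)) e4V mid_e4V
  obtain ⟨m4, e4⟩ := hs (v (.inr 1)) f2V mid_f2V
  obtain ⟨m5, e5⟩ := hs (v (.inr 2)) f3V mid_f3V
  obtain ⟨m6, e6⟩ := hs (v (.inr 3)) f4V mid_f4V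
  rw [hL _ _ ((((m1.add m2).add m3).add m4).add m5) m6, hL _ _ (((m1.add m2).add m3).add m4) m5,
    hL _ _ ((m1.add m2).add m3) m4, hL _ _ (m1.add m2) m3, hL _ _ m1 m2, e1, e2, e3, e4, e5, e6]
  simp [bl, vec]
  ring

theorem mid_nondeg_check : ∀ a : V, Mid a →
    (∀ v ∈ [e2V, f2V, e3V, f3V, e4V, f4V], bl a v = 0) → a = 0 := by
  rw [forall_mid]; decide +kernel

theorem mid_nondeg (a : V) (ha : Mid a) (h : ∀ v, Mid v → bl a v = 0) : a = 0 := by
  refine mid_nondeg_check a ha fun v hv => h v ?_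
  simp only [List.mem_cons, List.not_mem_nil, or_false] at hv
  rcases hv with rfl | rfl | rfl | rfl | rfl | rfl
  exacts [mid_e2V, mid_f2V, mid_e3V, mid_f3V, mid_e4V, mid_f4V]

namespace PairSetting

variable (P : PairSetting z Qf θ ρ J y h)
include P

theorem h_z : h * y * h⁻¹ = z ∧ h * z * h⁻¹ = y := ⟨P.hy, P.hz⟩

theorem D_cases {d : G} (hd : d ∈ Qf z) (hdy : d ∈ Qf y) :
    ∃ a b : ZMod 2, d = zp z a * zp y b := by
  rcases P.θ_inter hd hdy with e | e
  · rcases (P.θ_ker d hd).1 e with rfl | rfl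
    · exact ⟨0, 0, by simp⟩
    · exact ⟨1, 0, by simp⟩
  · rcases P.toSetting.eq_or_of_θ hd P.y_mem (by rw [e, P.θy]) with e' | e'
    · exact ⟨0, 1, by simp [e']⟩
    · exact ⟨1, 1, by simp [e']⟩

theorem D_comm {d a : G} {s t : ZMod 2} (hd : d = zp z s * zp y t)
    (ha : a * z = z * a) (hb : a * y = y * a) : a * d = d * a := by
  subst hd
  exact ((Commute.mul_right (show Commute a (zp z s) from zp_comm ha s)
    (show Commute a (zp y t) from zp_comm hb t))).eq

theorem inW_comm {x : G} (hx : inW z Qf y x) : x * z = z * x ∧ x * y = y * x :=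
  ⟨P.toSetting.comm_z hx.1, hx.2⟩

theorem inWy_comm {s : G} (hs : inWy z Qf y s) : s * z = z * s ∧ s * y = y * s :=
  ⟨hs.2, P.goody.comm s hs.1⟩

theorem W_mul {x x' : G} (hx : inW z Qf y x) (hx' : inW z Qf y x') : inW z Qf y (x * x') :=
  ⟨(Qf z).mul_mem hx.1 hx'.1, comm_mul hx.2 hx'.2⟩

theorem W_inv {x : G} (hx : inW z Qf y x) : inW z Qf y x⁻¹ :=
  ⟨(Qf z).inv_mem hx.1, comm_inv hx.2⟩

theorem wS_h_of_θ {x : G} (hx : inW z Qf y x) (h0 : md (θ x) = 0) :
    wS ρ (h * x * h⁻¹) = 0 := by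
  have hd : θ x = θ 1 ∨ θ x = θ y := by
    have := md_decomp (θ x)
    rw [h0, zero_add] at this
    rcases z2_cases (θ x (.inl 0)) with e | e <;> rw [e] at this
    · left; rw [P.toSetting.θ_one]; simpa using this
    · right; rw [P.θy]; simpa using this
  apply P.wS_of_mem
  have hzQ : ∀ a ∈ Qf z, a ∈ Qf y → h * a * h⁻¹ ∈ Qf z := fun a _ ha => P.conj_Qy ha
  rcases hd with e | e <;>
    rcases P.toSetting.eq_or_of_θ hx.1 (by first | exact one_mem _ | exact P.y_mem) e with e' | e' <;>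
      rw [e']
  · simp
  · rw [mul_one, P.hz]; exact P.y_mem
  · rw [P.hy]; exact P.toSetting.z_mem
  · exact hzQ _ ((Qf z).mul_mem P.toSetting.z_mem P.y_mem) ((Qf y).mul_mem P.z_memy P.goody.mem)

theorem wS_h_congr {x x' : G} (hx : inW z Qf y x) (hx' : inW z Qf y x')
    (he : md (θ x) = md (θ x')) : wS ρ (h * x * h⁻¹) = wS ρ (h * x' * h⁻¹) := by
  have hd := P.W_mul hx (P.W_inv hx')
  have h0 : md (θ (x * x'⁻¹)) = 0 := by
    rw [P.θ_mul x hx.1 _ ((Qf z).inv_mem hx'.1), P.toSetting.θ_inv hx'.1, md_add, he, vadd_self]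
  have h1 := P.wS_mul (P.W_to_Wy hd) (P.W_to_Wy hx')
  rw [P.wS_h_of_θ hd h0, zero_add,
    show h * (x * x'⁻¹) * h⁻¹ * (h * x' * h⁻¹) = h * x * h⁻¹ by group] at h1
  exact h1

theorem exists_W (v : V) (hv : Mid v) : ∃ x, inW z Qf y x ∧ θ x = v := by
  obtain ⟨x, hx, rfl⟩ := P.θ_surj v
  exact ⟨x, (P.W_iff hx).2 hv.bl_eV, rfl⟩

/-- The induced linear bijection between the two parameter spaces. -/
theorem exists_A : ∃ A B : V → V, (∀ v, Mid v → Mid (A v) ∧ Mid (B v) ∧ A (B v) = v ∧ B (A v) = v) ∧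
    (∀ u v, Mid u → Mid v → A (u + v) = A u + A v ∧ B (u + v) = B u + B v) ∧
    ∀ x, inW z Qf y x → wS ρ (h * x * h⁻¹) = A (md (θ x)) := by
  classical
  choose L hL hLθ using P.exists_W
  let A : V → V := fun v => if hv : Mid v then wS ρ (h * L v hv * h⁻¹) else 0
  have hA : ∀ x, inW z Qf y x → wS ρ (h * x * h⁻¹) = A (md (θ x)) := by
    intro x hx
    have hm : Mid (md (θ x)) := mid_md ((P.W_iff hx.1).1 hx)
    simp only [A, dif_pos hm]
    exact P.wS_h_congr hx (hL _ hm) (by rw [hLθ, md_md])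
  have hAm : ∀ v, Mid v → Mid (A v) := by
    intro v hv
    simp only [A, dif_pos hv]
    exact (P.wS_spec (P.W_to_Wy (hL v hv))).1
  have hadd : ∀ u v, Mid u → Mid v → A (u + v) = A u + A v := by
    intro u v hu hv
    have e1 := hA _ (P.W_mul (hL u hu) (hL v hv))
    rw [P.θ_mul _ (hL u hu).1 _ (hL v hv).1, hLθ, hLθ, md_of_mid (hu.add hv),
      show h * (L u hu * L v hv) * h⁻¹ = h * L u hu * h⁻¹ * (h * L v hv * h⁻¹) by group,
      P.wS_mul (P.W_to_Wy (hL u hu)) (P.W_to_Wy (hL v hv))] at e1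
    rw [← e1]
    simp only [A, dif_pos hu, dif_pos hv]
  have hker : ∀ v, Mid v → A v = 0 → v = 0 := by
    intro v hv h0
    simp only [A, dif_pos hv] at h0
    have hmem := P.mem_of_wS_zero (P.W_to_Wy (hL v hv)) h0
    obtain ⟨a, b, hd⟩ := P.D_cases hmem (P.conj_Qz (hL v hv).1)
    have hx : L v hv = zp y a * zp z b := by
      rw [show L v hv = h⁻¹ * (h * L v hv * h⁻¹) * h by group, hd,
        show h⁻¹ * (zp z a * zp y b) * h = (h⁻¹ * zp z a * h) * (h⁻¹ * zp y b * h) by group]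
      congr 1
      · rcases z2_cases a with rfl | rfl
        · simp
        · exact P.hy'
      · rcases z2_cases b with rfl | rfl
        · simp
        · exact P.hz'
    have hθ : θ (L v hv) = v := hLθ v hv
    rw [hx, P.θ_mul _ (zp_mem P.y_mem a) _ (zp_mem P.toSetting.z_mem b)] at hθ
    have h1 : md v = 0 := by
      rw [← hθ, md_add]
      rcases z2_cases a with rfl | rfl <;> rcases z2_cases b with rfl | rfl <;>
        simp [P.toSetting.θ_one, P.toSetting.θ_z, P.θy, md_eV, md_zero]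
    rwa [md_of_mid hv] at h1
  have hinj : ∀ u v, Mid u → Mid v → A u = A v → u = v := by
    intro u v hu hv e
    refine vadd_eq_zero.1 (hker _ (hu.add hv) ?_)
    rw [hadd u v hu hv, e, vadd_self]
  let A' : {v : V // Mid v} → {v : V // Mid v} := fun v => ⟨A v.1, hAm v.1 v.2⟩
  have hA' : Function.Surjective A' := Finite.surjective_of_injective fun u v e =>
    Subtype.ext (hinj _ _ u.2 v.2 (congrArg Subtype.val e))
  choose B' hB' using hA'
  let B : V → V := fun v => if hv : Mid v then (B' ⟨v, hv⟩).1 else 0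
  have hB : ∀ v, Mid v → Mid (B v) ∧ A (B v) = v := by
    intro v hv
    simp only [B, dif_pos hv]
    exact ⟨(B' _).2, congrArg Subtype.val (hB' ⟨v, hv⟩)⟩
  refine ⟨A, B, fun v hv => ⟨hAm v hv, (hB v hv).1, (hB v hv).2, ?_⟩, fun u v hu hv => ⟨hadd u v hu hv, ?_⟩, hA⟩
  · exact hinj _ _ (hB _ (hAm v hv)).1 hv (hB _ (hAm v hv)).2
  · refine hinj _ _ (hB _ (hu.add hv)).1 ((hB u hu).1.add (hB v hv).1) ?_
    rw [(hB _ (hu.add hv)).2, hadd _ _ (hB u hu).1 (hB v hv).1, (hB u hu).2, (hB v hv).2]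

theorem exists_Wy {w : V} (hw : Mid w) : ∃ s, inWy z Qf y s ∧ wS ρ s = w := by
  obtain ⟨A, B, hAB, -, hA⟩ := P.exists_A
  obtain ⟨x, hx, hθ⟩ := P.exists_W _ (hAB w hw).2.1
  exact ⟨_, P.W_to_Wy hx, by rw [hA x hx, hθ, md_of_mid (hAB w hw).2.1, (hAB w hw).2.2.1]⟩

theorem sq_h {x : G} (hx : inW z Qf y x) :
    h * x * h⁻¹ * (h * x * h⁻¹) = zp y (q (θ x)) := by
  rw [show h * x * h⁻¹ * (h * x * h⁻¹) = h * (x * x) * h⁻¹ by group, P.toSetting.sq_eq hx.1]
  rcases z2_cases (q (θ x)) with e | e <;> rw [e]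
  · simp
  · exact P.hz

theorem zp_y_inj {a b : ZMod 2} (e : zp y a = zp y b) : a = b := by
  rcases z2_cases a with rfl | rfl <;> rcases z2_cases b with rfl | rfl
  · rfl
  · exact absurd e.symm P.goody.ne_one
  · exact absurd e P.goody.ne_one
  · rfl

/-- The squaring map of the second half is the quadratic form. -/
theorem sq_wS {s : G} (hs : inWy z Qf y s) : s * s = zp y (q (wS ρ s)) := by
  obtain ⟨A, B, hAB, hadd, hA⟩ := P.exists_A
  have hsq : ∀ s, inWy z Qf y s → s * s = zp y (q (B (wS ρ s))) := by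
    intro s hs
    have hx := P.Wy_to_W' hs
    have hb := (P.W_iff hx.1).1 hx
    have e := P.sq_h hx
    rw [show h * (h⁻¹ * s * h) * h⁻¹ = s by group] at e
    rw [e]
    congr 1
    have hA' := hA _ hx
    rw [show h * (h⁻¹ * s * h) * h⁻¹ = s by group] at hA'
    rw [hA', (hAB _ (mid_md hb)).2.2.2, q_md hb]
  -- invariance under the stabiliser
  have hinv : ∀ g ∈ J, ap g eV = eV → ∀ w, Mid w → q (B (md (ap g w))) = q (B w) := by
    intro g hg hge w hw
    obtain ⟨c, hcz, hcy, rfl⟩ := P.exists_lift hg hge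
    obtain ⟨s, hs, rfl⟩ := P.exists_Wy hw
    obtain ⟨hs', hw'⟩ := P.wS_conj hcz hcy hs
    refine P.zp_y_inj ?_
    rw [← hw', ← hsq _ hs', ← hsq _ hs, show c * s * c⁻¹ * (c * s * c⁻¹) = c * (s * s) * c⁻¹ by group,
      hsq _ hs]
    exact conj_fix_iff.2 (zp_comm hcy _)
  have hB0 : B 0 = 0 := by
    have := (hadd 0 0 mid_zero mid_zero).2
    rw [add_zero, vadd_self] at this
    exact this
  have hval : ∀ w, Mid w → w ≠ 0 → q (B w) = if q w = 1 then q (B cV) else q (B e2V) := by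
    intro w hw hw0
    obtain ⟨g, hg, hge, hcase⟩ := P.half.exists_orbit hw hw0
    rw [← hinv g hg hge w hw]
    rcases hcase with ⟨e, e'⟩ | ⟨e, e'⟩ <;> rw [e, e'] <;> simp
  have hM := fun {u : V} (hu : Mid u) => (hAB u hu).2.1
  have hs0 : q (B e2V) = 0 := by
    -- the form `q ∘ B` is quadratic: on `e2V`, `e3V`, `f2V` and their sums
    have hd : q (B (e2V + e3V + f2V)) + q (B (e2V + e3V)) + q (B (e2V + f2V)) + q (B (e3V + f2V)) +
        q (B e2V) + q (B e3V) + q (B f2V) = 0 := by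
      rw [(hadd _ _ (mid_e2V.add mid_e3V) mid_f2V).2, (hadd _ _ mid_e2V mid_e3V).2,
        (hadd _ _ mid_e2V mid_f2V).2, (hadd _ _ mid_e3V mid_f2V).2]
      simp only [q_add, bl_add_left]
      have h2 : ∀ a : ZMod 2, a + a = 0 := fun a => CharTwo.add_self_eq_zero a
      linear_combination h2 (q (B e2V)) + h2 (q (B e2V)) + h2 (q (B e3V)) + h2 (q (B e3V)) +
        h2 (q (B f2V)) + h2 (q (B f2V)) + h2 (bl (B e2V) (B e3V)) + h2 (bl (B e2V) (B f2V)) +
        h2 (bl (B e3V) (B f2V))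
    rw [hval (e2V + e3V + f2V) ((mid_e2V.add mid_e3V).add mid_f2V) (by decide),
      hval (e2V + e3V) (mid_e2V.add mid_e3V) (by decide),
      hval (e2V + f2V) (mid_e2V.add mid_f2V) (by decide),
      hval (e3V + f2V) (mid_e3V.add mid_f2V) (by decide),
      hval e3V mid_e3V (by decide), hval f2V mid_f2V (by decide),
      if_pos (by decide), if_neg (by decide), if_pos (by decide), if_neg (by decide),
      if_neg (by decide), if_neg (by decide)] at hd
    linear_combination hd - CharTwo.add_self_eq_zero (q (B cV)) - 2 * (CharTwo.add_self_eq_zero (q (B e2V)))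
  have hn : q (B cV) = 1 := by
    refine (z2_cases _).resolve_left fun h0 => ?_
    have hAz := (hAB cV mid_cV).1
    have hne : A cV ≠ 0 := by
      intro e
      have := (hAB cV mid_cV).2.2.2
      rw [e, hB0] at this
      exact absurd this.symm (by decide)
    have := hval _ hAz hne
    rw [(hAB cV mid_cV).2.2.2, hs0, h0, ite_self, q_cV] at this
    exact one_ne_zero this
  rw [hsq s hs]
  congr 1
  by_cases h0 : wS ρ s = 0
  · rw [h0, hB0]
  · rw [hval _ (P.wS_spec hs).1 h0, hn, hs0]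
    rcases z2_cases (q (wS ρ s)) with e | e <;> rw [e] <;> simp

end PairSetting

end CfsgLib.ConwayType
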