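import Cfsg.Agent.Lib.ConwayType.Classes

/-!
The representatives of the second and third class are not conjugate to `z`, and a Sylow 2-subgroup
of the centraliser of `z` and the second representative is one of that representative.
-/

set_option autoImplicit false
set_option linter.unusedSectionVars false
set_option maxRecDepth 100000
set_option synthInstance.maxSize 1000
set_option maxHeartbeats 1000000

namespace CfsgLib.ConwayType

open CfsgLib.ExtraspecialLarge

variable {G : Type*} [Group G] [Finite G]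
variable {z : G} {Qf : G → Subgroup G} {θ : G → V} {ρ : G → O} {J : Subgroup O} {y h : G}

/-- Generators of the perpendicular space of `eV`, `cV`, `uV`. -/
def cuPerp : List V := [eV, e4V, f4V, cV + e3V, cV + f3V]

/-- Generators of the perpendicular space of `eV`, `e2V`, `e3V`. -/
def linePerp : List V := [eV, e2V, e3V, e4V, f4V]

theorem cuPerp_spec : ∀ v ∈ cuPerp, bl eV v = 0 ∧ bl v cV = 0 ∧ bl v uV = 0 := by
  intro v hv
  simp only [cuPerp, List.mem_cons, List.not_mem_nil, or_false] at hv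
  rcases hv with rfl | rfl | rfl | rfl | rfl <;> decide

theorem linePerp_spec : ∀ v ∈ linePerp, bl eV v = 0 ∧ bl v e2V = 0 ∧ bl v e3V = 0 := by
  intro v hv
  simp only [linePerp, List.mem_cons, List.not_mem_nil, or_false] at hv
  rcases hv with rfl | rfl | rfl | rfl | rfl <;> decide

theorem bl_cV_eV : bl cV eV = 0 := by decide
theorem bl_uV_eV : bl uV eV = 0 := by decide
theorem bl_uV_cV : bl uV cV = 1 := by decide
theorem eV_ne_zero : ¬ eV = 0 := by decide

theorem cu_q : ∀ n l : ZMod 2, n • cV + l • uV = 0 ∨ q (n • cV + l • uV) = 1 := by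
  decide +kernel

theorem cu_image : ∀ v : V, bl eV v = 0 → bl v e4V = 0 → bl v f4V = 0 → bl v (cV + e3V) = 0 →
    bl v (cV + f3V) = 0 → bl v cV = 1 → q v = 1 → v = uV + bl v uV • cV + v (.inl 0) • eV := by
  rw [forall_vec]; decide +kernel

theorem cu_delta : ∀ d : V, bl eV d = 0 → bl d e4V = 0 → bl d f4V = 0 → bl d (cV + e3V) = 0 →
    bl d (cV + f3V) = 0 → bl d cV = 0 → bl d uV = 0 → d = 0 ∨ d = eV := by
  rw [forall_vec]; decide +kernel

theorem cu_radical : ∀ v : V, bl eV v = 0 → bl v cV = 0 → bl v uV = 0 → bl v e4V = 0 → bl v f4V = 0 →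
    bl v (cV + e3V) = 0 → bl v (cV + f3V) = 0 → v = 0 ∨ v = eV := by
  rw [forall_vec]; decide +kernel

theorem line_image_f : ∀ v : V, bl v eV = 1 → bl v e2V = 0 → bl v e3V = 0 → bl v e4V = 0 →
    bl v f4V = 0 → q v = 0 → v = fV + bl v f2V • e2V + bl v f3V • e3V := by
  rw [forall_vec]; decide +kernel

theorem line_image_f2 : ∀ v : V, bl v eV = 0 → bl v e2V = 1 → bl v e3V = 0 → bl v e4V = 0 →
    bl v f4V = 0 → q v = 0 → v = f2V + bl v fV • eV + bl v f3V • e3V := by
  rw [forall_vec]; decide +kernel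

theorem line_image_f3 : ∀ v : V, bl v eV = 0 → bl v e2V = 0 → bl v e3V = 1 → bl v e4V = 0 →
    bl v f4V = 0 → q v = 0 → v = f3V + bl v fV • eV + bl v f2V • e2V := by
  rw [forall_vec]; decide +kernel

/-- Isometries fixing `cuPerp` and the class of `cV` are determined by three coordinates. -/
theorem cu_rigid {g g' : O} (hg : ∀ v ∈ cuPerp, ap g v = v) (hg' : ∀ v ∈ cuPerp, ap g' v = v)
    (hc : md (ap g cV) = cV) (hc' : md (ap g' cV) = cV)
    (e1 : ap g cV (.inl 0) = ap g' cV (.inl 0)) (e2 : ap g uV (.inl 0) = ap g' uV (.inl 0))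
    (e3 : bl (ap g uV) uV = bl (ap g' uV) uV) : g = g' := by
  have fe := hg eV (by simp [cuPerp])
  have f4 := hg e4V (by simp [cuPerp])
  have f5 := hg f4V (by simp [cuPerp])
  have f6 := hg (cV + e3V) (by simp [cuPerp])
  have f7 := hg (cV + f3V) (by simp [cuPerp])
  have fe' := hg' eV (by simp [cuPerp])
  have f4' := hg' e4V (by simp [cuPerp])
  have f5' := hg' f4V (by simp [cuPerp])
  have f6' := hg' (cV + e3V) (by simp [cuPerp])
  have f7' := hg' (cV + f3V) (by simp [cuPerp])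
  have hb : ∀ (k : O) (x v : V), ap k v = v → bl (ap k x) v = bl x v := fun k x v e => by
    conv_lhs => rw [← e]
    rw [bl_ap]
  have hcV : ap g cV = ap g' cV := by rw [md_decomp (ap g cV), md_decomp (ap g' cV), hc, hc', e1]
  have hu : ∀ k : O, (∀ v ∈ cuPerp, ap k v = v) → md (ap k cV) = cV →
      ap k uV = uV + bl (ap k uV) uV • cV + ap k uV (.inl 0) • eV := by
    intro k hk hkc
    have hke : bl eV (ap k uV) = 0 := bl_eV_ap (hk eV (by simp [cuPerp])) mid_uV.bl_eV
    refine cu_image _ hke ?_ ?_ ?_ ?_ ?_ (by rw [q_ap, q_uV])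
    · rw [hb k _ _ (hk e4V (by simp [cuPerp]))]; decide
    · rw [hb k _ _ (hk f4V (by simp [cuPerp]))]; decide
    · rw [hb k _ _ (hk (cV + e3V) (by simp [cuPerp]))]; decide
    · rw [hb k _ _ (hk (cV + f3V) (by simp [cuPerp]))]; decide
    · rw [← hkc, bl_comm, bl_md_left hke, bl_ap, bl_c_u]
  have huV : ap g uV = ap g' uV := by rw [hu g hg hc, hu g' hg' hc', e2, e3]
  have hfV : ap g fV = ap g' fV := by
    have hd : ∀ x, (ap g x = ap g' x) → bl (ap g fV + ap g' fV) (ap g x) = 0 := fun x e => by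
      rw [bl_add_left, bl_ap, e, bl_ap, CharTwo.add_self_eq_zero]
    have de : bl eV (ap g fV + ap g' fV) = 0 := by
      rw [bl_comm]; have := hd eV (fe.trans fe'.symm); rwa [fe] at this
    have h1 : ∀ v w, ap g v = ap g' v → md (ap g v) = w → bl (ap g fV + ap g' fV) w = 0 := fun v w e e' => by
      rw [← e', bl_comm, bl_md_left de, bl_comm, hd v e]
    rcases cu_delta _ de (by have := hd e4V (f4.trans f4'.symm); rwa [f4] at this)
      (by have := hd f4V (f5.trans f5'.symm); rwa [f5] at this)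
      (by have := hd (cV + e3V) (f6.trans f6'.symm); rwa [f6] at this)
      (by have := hd (cV + f3V) (f7.trans f7'.symm); rwa [f7] at this)
      (h1 cV cV hcV hc) (by
        have e := hd uV huV
        rw [hu g hg hc, bl_add_right, bl_add_right, bl_smul_right, bl_smul_right, h1 cV cV hcV hc,
          bl_comm _ eV, de, mul_zero, mul_zero, add_zero, add_zero] at e
        exact e) with e | e
    · exact vadd_eq_zero.1 e
    · exfalso
      have hq : q (ap g fV) = q (ap g' fV + eV) := by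
        rw [← e, show ap g' fV + (ap g fV + ap g' fV) = ap g fV + (ap g' fV + ap g' fV) by abel, vadd_self,
          add_zero]
      have hbe : bl (ap g' fV) eV = 1 := by rw [hb g' _ _ fe', bl_comm, bl_e_f]
      rw [q_ap, q_add, q_ap, q_eV, hbe, add_zero, left_eq_add] at hq
      exact one_ne_zero hq
  have hsplit : ∀ w : V, w = cV + (cV + w) := fun w => by rw [← add_assoc, vadd_self, zero_add]
  have h3 : ap g e3V = ap g' e3V :=
    calc ap g e3V = ap g cV + ap g (cV + e3V) := by rw [← ap_add, ← hsplit]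
      _ = ap g' cV + ap g' (cV + e3V) := by rw [hcV, f6, f6']
      _ = ap g' e3V := by rw [← ap_add, ← hsplit]
  have h3' : ap g f3V = ap g' f3V :=
    calc ap g f3V = ap g cV + ap g (cV + f3V) := by rw [← ap_add, ← hsplit]
      _ = ap g' cV + ap g' (cV + f3V) := by rw [hcV, f7, f7']
      _ = ap g' f3V := by rw [← ap_add, ← hsplit]
  have h2 : ap g e2V = ap g' e2V := by
    have : e2V = uV + e3V + f3V := by decide
    rw [this, ap_add, ap_add, ap_add, ap_add, huV, h3, h3']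
  have h2' : ap g f2V = ap g' f2V := by
    have : f2V = cV + e2V := by decide
    rw [this, ap_add, ap_add, hcV, h2]
  refine O_ext_basis fun x hx => ?_
  simp only [basisList, List.mem_cons, List.not_mem_nil, or_false] at hx
  rcases hx with rfl | rfl | rfl | rfl | rfl | rfl | rfl | rfl
  exacts [fe.trans fe'.symm, hfV, h2, h2', h3, h3', f4.trans f4'.symm, f5.trans f5'.symm]

/-- Isometries fixing `linePerp` are determined by three coordinates. -/
theorem line_rigid {g g' : O} (hg : ∀ v ∈ linePerp, ap g v = v) (hg' : ∀ v ∈ linePerp, ap g' v = v)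
    (e1 : bl (ap g fV) f2V = bl (ap g' fV) f2V) (e2 : bl (ap g fV) f3V = bl (ap g' fV) f3V)
    (e3 : bl (ap g f2V) f3V = bl (ap g' f2V) f3V) : g = g' := by
  have key : ∀ k : O, (∀ v ∈ linePerp, ap k v = v) →
      ap k fV = fV + bl (ap k fV) f2V • e2V + bl (ap k fV) f3V • e3V ∧
      ap k f2V = f2V + bl (ap k fV) f2V • eV + bl (ap k f2V) f3V • e3V ∧
      ap k f3V = f3V + bl (ap k fV) f3V • eV + bl (ap k f2V) f3V • e2V := by
    intro k hk
    have hb : ∀ (x v : V), v ∈ linePerp → bl (ap k x) v = bl x v := fun x v hv => by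
      conv_lhs => rw [← hk v hv]
      rw [bl_ap]
    have m : eV ∈ linePerp ∧ e2V ∈ linePerp ∧ e3V ∈ linePerp ∧ e4V ∈ linePerp ∧ f4V ∈ linePerp := by
      simp [linePerp]
    obtain ⟨m1, m2, m3, m4, m5⟩ := m
    have a1 := line_image_f (ap k fV) (by rw [hb _ _ m1]; decide) (by rw [hb _ _ m2]; decide)
      (by rw [hb _ _ m3]; decide) (by rw [hb _ _ m4]; decide) (by rw [hb _ _ m5]; decide) (by rw [q_ap]; decide)
    have a2 := line_image_f2 (ap k f2V) (by rw [hb _ _ m1]; decide) (by rw [hb _ _ m2]; decide)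
      (by rw [hb _ _ m3]; decide) (by rw [hb _ _ m4]; decide) (by rw [hb _ _ m5]; decide) (by rw [q_ap]; decide)
    have a3 := line_image_f3 (ap k f3V) (by rw [hb _ _ m1]; decide) (by rw [hb _ _ m2]; decide)
      (by rw [hb _ _ m3]; decide) (by rw [hb _ _ m4]; decide) (by rw [hb _ _ m5]; decide) (by rw [q_ap]; decide)
    have b2 : bl (ap k f2V) fV = bl (ap k fV) f2V := by
      have h0 := bl_ap k f2V fV
      rw [a1, bl_add_right, bl_add_right, bl_smul_right, bl_smul_right, hb _ _ m2, hb _ _ m3,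
        show bl f2V e2V = 1 by decide, show bl f2V e3V = 0 by decide, show bl f2V fV = 0 by decide,
        mul_one, mul_zero, add_zero] at h0
      exact CharTwo.add_eq_zero.1 h0
    have b3 : bl (ap k f3V) fV = bl (ap k fV) f3V := by
      have h0 := bl_ap k f3V fV
      rw [a1, bl_add_right, bl_add_right, bl_smul_right, bl_smul_right, hb _ _ m2, hb _ _ m3,
        show bl f3V e2V = 0 by decide, show bl f3V e3V = 1 by decide, show bl f3V fV = 0 by decide,
        mul_one, mul_zero, add_zero] at h0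
      exact CharTwo.add_eq_zero.1 h0
    have b4 : bl (ap k f3V) f2V = bl (ap k f2V) f3V := by
      have h0 := bl_ap k f3V f2V
      rw [a2, bl_add_right, bl_add_right, bl_smul_right, bl_smul_right, hb _ _ m1, hb _ _ m3,
        show bl f3V eV = 0 by decide, show bl f3V e3V = 1 by decide, show bl f3V f2V = 0 by decide,
        mul_one, mul_zero, add_zero] at h0
      exact CharTwo.add_eq_zero.1 h0
    rw [b2] at a2
    rw [b3, b4] at a3
    exact ⟨a1, a2, a3⟩
  obtain ⟨a1, a2, a3⟩ := key g hg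
  obtain ⟨a1', a2', a3'⟩ := key g' hg'
  have hfix : ∀ v ∈ linePerp, ap g v = ap g' v := fun v hv => (hg v hv).trans (hg' v hv).symm
  refine O_ext_basis fun x hx => ?_
  simp only [basisList, List.mem_cons, List.not_mem_nil, or_false] at hx
  rcases hx with rfl | rfl | rfl | rfl | rfl | rfl | rfl | rfl
  · exact hfix _ (by simp [linePerp])
  · rw [a1, a1', e1, e2]
  · exact hfix _ (by simp [linePerp])
  · rw [a2, a2', e1, e3]
  · exact hfix _ (by simp [linePerp])
  · rw [a3, a3', e2, e3]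
  · exact hfix _ (by simp [linePerp])
  · exact hfix _ (by simp [linePerp])

namespace Setting

variable (S : Setting z Qf θ ρ J)
include S

theorem card_Q : Nat.card ↥(Qf z) = 512 := by
  let f : ↥(Qf z) →* Multiplicative V := MonoidHom.mk' (fun x => Multiplicative.ofAdd (θ x))
    fun a b => by simp [S.θ_mul a a.2 b b.2, ofAdd_add]
  have hr : Function.Surjective f := by
    intro v
    obtain ⟨x, hx, e⟩ := S.θ_surj v.toAdd
    exact ⟨⟨x, hx⟩, by simp [f, e]⟩
  have hk : Nat.card f.ker = 2 := by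
    have hset : ((f.ker.map (Qf z).subtype : Subgroup G) : Set G) = {1, z} := by
      ext x
      constructor
      · rintro ⟨a, ha, rfl⟩
        have h0 : θ (a : G) = 0 := by simpa [f] using ha
        exact (S.θ_ker _ a.2).1 h0
      · intro hx
        have hxQ : x ∈ Qf z := by
          rcases hx with rfl | rfl
          exacts [one_mem _, S.z_mem]
        exact ⟨⟨x, hxQ⟩, by simpa [f] using (S.θ_ker x hxQ).2 hx, rfl⟩
    rw [Nat.card_congr (Subgroup.equivMapOfInjective f.ker _ (Qf z).subtype_injective).toEquiv,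
      ← SetLike.coe_sort_coe, Nat.card_coe_set_eq, hset, Set.ncard_pair S.z_ne.symm]
  rw [← f.ker.card_mul_index, hk, Subgroup.index_ker, MonoidHom.range_eq_top.2 hr, Subgroup.card_top]
  simp

/-- An involution of the centraliser centralises at least sixteen elements of `Qf z`. -/
theorem sixteen_le {i : G} (hiz : i * z = z * i) (hi2 : i * i = 1) :
    16 ≤ Nat.card {x : G // x ∈ Qf z ∧ x * i = i * x} := by
  classical
  let φ : ↥(Qf z) →* Multiplicative V :=
    MonoidHom.mk' (fun x => Multiplicative.ofAdd (θ (i * x * i⁻¹) + θ x)) fun a b => by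
      rw [← ofAdd_add]
      congr 1
      rw [Subgroup.coe_mul, show i * ((a : G) * b) * i⁻¹ = i * a * i⁻¹ * (i * b * i⁻¹) by group,
        S.θ_mul _ (S.conj_mem_Q hiz a.2) _ (S.conj_mem_Q hiz b.2), S.θ_mul _ a.2 _ b.2]
      abel
  have hinv : ρ i * ρ i = 1 := by rw [← S.ρ_mul hiz hiz, hi2, S.ρ_one]
  have hmem : ∀ v ∈ φ.range, ∃ a : φ.ker, θ ((a : ↥(Qf z)) : G) = v.toAdd := by
    rintro _ ⟨x, rfl⟩
    obtain ⟨a, ha, e⟩ := S.θ_surj (θ (i * x * i⁻¹) + θ (x : G))
    refine ⟨⟨⟨a, ha⟩, ?_⟩, by simp [φ, e]⟩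
    simp only [MonoidHom.mem_ker, φ, MonoidHom.mk'_apply, ofAdd_eq_one]
    rw [S.ρ_act i hiz a ha, e, S.ρ_act i hiz x x.2, ap_add, ← ap_mul, hinv, ap_one, add_comm (θ (x : G)),
      vadd_self]
  choose a ha using hmem
  have hle : Nat.card φ.range ≤ Nat.card φ.ker :=
    Nat.card_le_card_of_injective (fun v => a v.1 v.2) fun v w e => Subtype.ext (Multiplicative.toAdd.injective
      (by rw [← ha v.1 v.2, ← ha w.1 w.2]; simp only at e; rw [e]))
  have hprod : Nat.card φ.ker * Nat.card φ.range = 512 := by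
    rw [← Subgroup.index_ker, Subgroup.card_mul_index, S.card_Q]
  have hk23 : 23 ≤ Nat.card φ.ker := by
    by_contra hc
    push Not at hc
    nlinarith
  have hk : 32 ≤ Nat.card φ.ker := by
    have hd : Nat.card φ.ker ∣ 2 ^ 9 := ⟨_, hprod.symm⟩
    obtain ⟨n, hn, e⟩ := (Nat.dvd_prime_pow Nat.prime_two).1 hd
    rw [e] at hk23 ⊢
    interval_cases n <;> omega
  have hcom : ∀ x : φ.ker, i * ((x : ↥(Qf z)) : G) * i⁻¹ * ((x : ↥(Qf z)) : G)⁻¹ ∈ ({1, z} : Set G) := by
    intro x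
    have hx := x.2
    simp only [MonoidHom.mem_ker, φ, MonoidHom.mk'_apply, ofAdd_eq_one] at hx
    refine (S.θ_ker _ ((Qf z).mul_mem (S.conj_mem_Q hiz x.1.2) ((Qf z).inv_mem x.1.2))).1 ?_
    rw [S.θ_mul _ (S.conj_mem_Q hiz x.1.2) _ ((Qf z).inv_mem x.1.2), S.θ_inv x.1.2, hx]
  let ψ : φ.ker →* G := MonoidHom.mk' (fun x => i * ((x : ↥(Qf z)) : G) * i⁻¹ * ((x : ↥(Qf z)) : G)⁻¹)
    fun a b => by
      have hc : ((a : ↥(Qf z)) : G)⁻¹ * (i * ((b : ↥(Qf z)) : G) * i⁻¹ * ((b : ↥(Qf z)) : G)⁻¹) =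
          i * ((b : ↥(Qf z)) : G) * i⁻¹ * ((b : ↥(Qf z)) : G)⁻¹ * ((a : ↥(Qf z)) : G)⁻¹ := by
        rcases hcom b with e | e <;> rw [e]
        · simp
        · exact comm_inv (S.comm_z a.1.2)
      simp only [Subgroup.coe_mul]
      calc i * (((a : ↥(Qf z)) : G) * b) * i⁻¹ * (((a : ↥(Qf z)) : G) * b)⁻¹
          = i * ((a : ↥(Qf z)) : G) * i⁻¹ *
            (i * ((b : ↥(Qf z)) : G) * i⁻¹ * ((b : ↥(Qf z)) : G)⁻¹ * ((a : ↥(Qf z)) : G)⁻¹) := by group
        _ = _ := by rw [← hc]; group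
  have hr : Nat.card ψ.range ≤ 2 := by
    rw [← SetLike.coe_sort_coe, Nat.card_coe_set_eq]
    refine le_trans (Set.ncard_le_ncard ?_ (Set.toFinite ({1, z} : Set G))) ?_
    · rintro _ ⟨x, rfl⟩
      exact hcom x
    · exact le_trans (Set.ncard_insert_le _ _) (by simp)
  have hψ : Nat.card ψ.ker * Nat.card ψ.range = Nat.card φ.ker := by
    rw [← Subgroup.index_ker, Subgroup.card_mul_index]
  have h16 : 16 ≤ Nat.card ψ.ker := by nlinarith
  refine h16.trans (Nat.card_le_card_of_injective (fun x => ⟨((x : φ.ker) : ↥(Qf z)), (x : φ.ker).1.2, ?_⟩)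
    fun x x' e => Subtype.ext (Subtype.ext (Subtype.ext (congrArg Subtype.val e :))))
  have hx := x.2
  simp only [MonoidHom.mem_ker, ψ, MonoidHom.mk'_apply, mul_inv_eq_one] at hx
  exact (mul_inv_eq_iff_eq_mul.1 hx).symm

end Setting

namespace PairSetting

variable (P : PairSetting z Qf θ ρ J y h)
include P

/-- An element of the second half centralises every element of `Qf z` with fixed coordinates. -/
theorem Wy_centralises {t x : G} (ht : inWy z Qf y t) (hw : wS ρ t ≠ 0) (hx : x ∈ Qf z)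
    (hfix : ap (ρ t) (θ x) = θ x) : x * t = t * x := by
  obtain ⟨hM, e⟩ := P.wS_spec ht
  rw [e, Te, ap_T, sgf_eq, add_assoc, add_eq_left] at hfix
  have h1 : bl (θ x) eV = 0 := by
    refine (z2_cases _).resolve_right fun a => hw ?_
    have h2 := congrArg md hfix
    rw [a, one_smul, md_add, md_smul, md_eV, smul_zero, add_zero, md_zero, md_of_mid hM] at h2
    exact h2
  have hW : inW z Qf y x := (P.W_iff hx).2 (by rw [bl_comm]; exact h1)
  rw [h1, zero_smul, zero_add, mul_zero, add_zero] at hfix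
  have h2 : bl (θ x) (wS ρ t) = 0 := by
    refine (z2_cases _).resolve_right fun a => ?_
    rw [a, one_smul] at hfix
    exact absurd hfix (by decide)
  have hc := P.comm_eq ht hW
  rw [h2, zp_zero, zp_zero, one_mul, mul_inv_eq_one] at hc
  exact (mul_inv_eq_iff_eq_mul.1 hc).symm

end PairSetting

/-- The data of a representative used below. -/
structure RepData (z : G) (Qf : G → Subgroup G) (θ : G → V) (ρ : G → O) (y : G) (w m : V) (s u : G) :
    Prop extends IsRep z Qf θ ρ y w m s u where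
  mw : Mid w
  mm : Mid m
  w0 : w ≠ 0
  hbw : bl m w = q w
  hqm : q m = q w
  wit : ∃ x : V, Mid x ∧ bl x w = 0 ∧ bl x m = 1

namespace PairSetting

variable (P : PairSetting z Qf θ ρ J y h) {w m : V} {s u : G} (T : RepData z Qf θ ρ y w m s u)
include P T

theorem rep_inW : inW z Qf y u := (P.W_iff T.hu).2 (by rw [T.hθu]; exact T.mm.bl_eV)

theorem rep_comm : (s * u) * z = z * (s * u) ∧ (s * u) * y = y * (s * u) :=
  ⟨comm_mul T.hs.2 (P.toSetting.comm_z T.hu),
    comm_mul (P.inWy_comm T.hs).2 (P.rep_inW T).2⟩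

theorem rep_ρ : ρ (s * u) = Te w T.mw.bl_eV := by
  obtain ⟨hw, e⟩ := P.wS_spec T.hs
  rw [P.toSetting.ρ_mul T.hs.2 (P.toSetting.comm_z T.hu), P.toSetting.ρ_of_mem T.hu, mul_one, e]
  exact Te_congr T.hsw _ _

theorem rep_ρ_ne : ρ (s * u) ≠ 1 := by
  intro e
  rw [P.rep_ρ T, ← Te_zero, Te_eq_iff, md_of_mid T.mw, md_zero] at e
  exact T.w0 e

theorem rep_involution : (s * u) * (s * u) = 1 ∧ s * u ≠ 1 := by
  constructor
  · have hW := P.rep_inW T
    have hc := P.comm_eq T.hs hW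
    rw [T.hsw, T.hθu, T.hbw] at hc
    have hsq := P.sq_wS T.hs
    rw [T.hsw] at hsq
    have hu2 := P.toSetting.sq_eq T.hu
    rw [T.hθu, T.hqm] at hu2
    calc s * u * (s * u) = (s * u * s⁻¹ * u⁻¹) * (u * (s * s) * u) := by group
      _ = zp z (q w) * zp y (q w) * (zp y (q w) * zp z (q w)) := by
        rw [hc, hsq, zp_comm hW.2, mul_assoc (zp y (q w)) u u, hu2]
      _ = 1 := by
        rw [mul_assoc (zp z (q w)), ← mul_assoc (zp y (q w)), ← zp_add P.y_sq, CharTwo.add_self_eq_zero,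
          zp_zero, one_mul, ← zp_add P.toSetting.z_sq, CharTwo.add_self_eq_zero, zp_zero]
  · intro e
    exact P.rep_ρ_ne T (by rw [e, P.toSetting.ρ_one])

theorem rep_centralises {x : G} (hx : x ∈ Qf z) (h0 : bl eV (θ x) = 0) (h1 : bl (θ x) w = 0)
    (h2 : bl (θ x) m = 0) : x * (s * u) = s * u * x := by
  have hcm := P.comm_eq T.hs ((P.W_iff hx).2 h0)
  rw [T.hsw, h1, zp_zero, zp_zero, one_mul, mul_inv_eq_one] at hcm
  have hxs : x * s = s * x := (mul_inv_eq_iff_eq_mul.1 hcm).symm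
  have hxu : x * u = u * x := P.toSetting.comm_of_bl hx T.hu (by rw [T.hθu]; exact h2)
  rw [← mul_assoc, hxs, mul_assoc, hxu, ← mul_assoc]

/-- The representative lies in no group of a conjugate of `z` contained in `Qf z`. -/
theorem rep_notMem {x c : G} (hc : c * z = z * c) (hcx : c * x * c⁻¹ = y) : s * u ∉ Qf x := by
  intro ht
  obtain ⟨v, hv, hv1, hv2⟩ := T.wit
  obtain ⟨x0, hx0, hθ0⟩ := P.θ_surj v
  have htz := (P.rep_comm T).1
  have ht' : inWy z Qf y (c * (s * u) * c⁻¹) := by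
    refine ⟨?_, comm_mul (comm_mul hc htz) (comm_inv hc)⟩
    have := P.core.conj_mem c x ht
    rwa [hcx] at this
  have hρ' := P.toSetting.ρ_conj hc htz
  have hw' : wS ρ (c * (s * u) * c⁻¹) ≠ 0 := by
    intro e0
    refine P.rep_ρ_ne T ?_
    have hQ := P.toSetting.ρ_of_mem (P.mem_of_wS_zero ht' e0)
    rw [hρ'] at hQ
    calc ρ (s * u) = (ρ c)⁻¹ * (ρ c * ρ (s * u) * (ρ c)⁻¹) * ρ c := by group
      _ = 1 := by rw [hQ]; group
  have hfix : ap (ρ (s * u)) v = v := by
    rw [P.rep_ρ T, Te, ap_T, sgf_eq, bl_comm v eV, hv.bl_eV, hv1, zero_smul, mul_zero, add_zero, add_zero,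
      zero_smul, add_zero]
  have hcent := P.Wy_centralises ht' hw' (P.toSetting.conj_mem_Q hc hx0) (by
    rw [hρ', P.ρ_act c hc x0 hx0, hθ0, ap_mul, ap_mul, ap_inv_ap, hfix])
  have hxt : x0 * (s * u) = s * u * x0 :=
    conj_comm (g := c⁻¹) (by group) (by group) hcent
  have hW : inW z Qf y x0 := (P.W_iff hx0).2 (by rw [hθ0]; exact hv.bl_eV)
  have hcm := P.comm_eq T.hs hW
  rw [T.hsw, hθ0, hv1, zp_zero, zp_zero, one_mul, mul_inv_eq_one] at hcm
  have hxs : x0 * s = s * x0 := (mul_inv_eq_iff_eq_mul.1 hcm).symm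
  have hxu : x0 * u = u * x0 := by
    rw [← mul_assoc, hxs, mul_assoc, mul_assoc] at hxt
    exact mul_left_cancel hxt
  have := P.toSetting.bl_of_comm hx0 T.hu hxu
  rw [hθ0, T.hθu, hv2] at this
  exact one_ne_zero this

/-- The common part of `Qf z` with the group of the representative, when that is conjugate to `z`. -/
theorem inter_trivial {g : G} (hg : g * z * g⁻¹ = s * u) {x : G} (hx : x ∈ Qf z) (hxt : x ∈ Qf (s * u)) :
    x = 1 := by
  have hgood : Good (Qf (s * u)) (s * u) := P.core.good_of_conj ⟨g, hg⟩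
  have hsymm : ∀ v k : G, k * z * k⁻¹ = v → v ∈ Qf (s * u) → s * u ∈ Qf v := by
    intro v k hk hv
    have h1 : g⁻¹ * v * g⁻¹⁻¹ ∈ Qf z := by
      have := P.core.conj_mem g⁻¹ _ hv
      rwa [← hg, show g⁻¹ * (g * z * g⁻¹) * g⁻¹⁻¹ = z by group] at this
    have h2 := P.core.symm (g := g⁻¹ * k) (by rwa [show g⁻¹ * k * z * (g⁻¹ * k)⁻¹ =
      g⁻¹ * (k * z * k⁻¹) * g⁻¹⁻¹ by group, hk])
    have h3 := P.core.conj_mem g _ h2
    rwa [hg, show g * (g⁻¹ * k * z * (g⁻¹ * k)⁻¹) * g⁻¹ = k * z * k⁻¹ by group, hk] at h3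
  have hzt : z ∉ Qf (s * u) := fun hm =>
    P.rep_ρ_ne T (P.toSetting.ρ_of_mem (hsymm z 1 (by group) hm))
  by_contra hne
  have hsq : x * x = 1 := by
    rcases P.toSetting.good.sq x hx with e | e
    · exact e
    · exact absurd (e ▸ (Qf (s * u)).mul_mem hxt hxt) hzt
  obtain ⟨c, hc, hcx | hcx⟩ := P.Q_cases hx hsq hne
  · have hxz : x = z := by
      have h1 : c⁻¹ * (c * x * c⁻¹) * c = c⁻¹ * z * c := by rw [hcx]
      rw [mul_assoc c⁻¹ z c, ← hc] at h1
      simpa [mul_assoc] using h1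
    exact hzt (hxz ▸ hxt)
  · refine P.rep_notMem T hc hcx (hsymm x (c⁻¹ * h) ?_ hxt)
    rw [show c⁻¹ * h * z * (c⁻¹ * h)⁻¹ = c⁻¹ * (h * z * h⁻¹) * c by group, P.hz, ← hcx]
    group

/-- If the representative is conjugate to `z`, sixteen isometries fix the centralised coordinates. -/
theorem not_isConj_rep (L : List V) (hL : ∀ v ∈ L, bl eV v = 0 ∧ bl v w = 0 ∧ bl v m = 0)
    (bits : O → ZMod 2 × ZMod 2 × ZMod 2)
    (hrig : ∀ g g' : O, (∀ v ∈ L, ap g v = v) → (∀ v ∈ L, ap g' v = v) →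
      md (ap g w) = w → md (ap g' w) = w → bits g = bits g' → g = g') :
    ¬ IsConj z (s * u) := by
  intro hconj
  obtain ⟨g, hg⟩ := isConj_iff.1 hconj
  obtain ⟨htz, hty⟩ := P.rep_comm T
  have hgood : Good (Qf (s * u)) (s * u) := P.core.good_of_conj ⟨g, hg⟩
  have ht2 := (P.rep_involution T).1
  obtain ⟨i, hi⟩ : ∃ i, i = g⁻¹ * z * g := ⟨_, rfl⟩
  have hiz : i * z = z * i :=
    conj_comm (g := g⁻¹) (a := z) (b := s * u) (by rw [hi, inv_inv]) (by rw [← hg]; group) htz.symm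
  have hi2 : i * i = 1 := by
    rw [hi, show g⁻¹ * z * g * (g⁻¹ * z * g) = g⁻¹ * (z * z) * g by group, P.toSetting.z_sq]; group
  have h16 := P.toSetting.sixteen_le hiz hi2
  -- the elements centralising `z` in the group of the representative
  have hP0 : ∀ p, p ∈ Qf (s * u) → p * z = z * p → (∀ v ∈ L, ap (ρ p) v = v) ∧ md (ap (ρ p) w) = w := by
    intro p hp hpz
    have hpt : p * (s * u) = s * u * p := hgood.comm p hp
    constructor
    · intro v hv
      obtain ⟨h0, h1, h2⟩ := hL v hv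
      obtain ⟨x, hx, rfl⟩ := P.θ_surj v
      have hxt := P.rep_centralises T hx h0 h1 h2
      have e : p * x * p⁻¹ * x⁻¹ = 1 := P.inter_trivial T hg
        ((Qf z).mul_mem (P.toSetting.conj_mem_Q hpz hx) ((Qf z).inv_mem hx)) (by
          rw [show p * x * p⁻¹ * x⁻¹ = p * (x * p⁻¹ * x⁻¹) by group]
          exact (Qf (s * u)).mul_mem hp (hgood.norm x hxt _ ((Qf (s * u)).inv_mem hp)))
      rw [← P.ρ_act p hpz x hx, mul_inv_eq_one.1 e]
    · have hcomm : ρ p * ρ (s * u) * (ρ p)⁻¹ = ρ (s * u) := by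
        rw [← P.toSetting.ρ_conj hpz htz, conj_fix_iff.2 hpt]
      have hpe : ap (ρ p) eV = eV := by
        have hyC : bl eV eV = 0 := bl_self eV
        have e : p * y * p⁻¹ * y⁻¹ = 1 := P.inter_trivial T hg
          ((Qf z).mul_mem (P.toSetting.conj_mem_Q hpz P.y_mem) ((Qf z).inv_mem P.y_mem)) (by
            rw [show p * y * p⁻¹ * y⁻¹ = p * (y * p⁻¹ * y⁻¹) by group]
            exact (Qf (s * u)).mul_mem hp (hgood.norm y hty.symm _ ((Qf (s * u)).inv_mem hp)))
        exact P.ρy hpz (mul_inv_eq_iff_eq_mul.1 (mul_inv_eq_one.1 e))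
      rw [P.rep_ρ T, conj_Te hpe] at hcomm
      have := (Te_eq_iff _ _).1 hcomm
      rwa [md_md, md_of_mid T.mw] at this
  let F : {x : G // x ∈ Qf z ∧ x * i = i * x} → ZMod 2 × ZMod 2 × ZMod 2 := fun x => bits (ρ (g * x.1 * g⁻¹))
  have hF : ∀ x : {x : G // x ∈ Qf z ∧ x * i = i * x}, g * x.1 * g⁻¹ ∈ Qf (s * u) ∧
      g * x.1 * g⁻¹ * z = z * (g * x.1 * g⁻¹) := fun x => ⟨by
    have := P.core.conj_mem g z x.2.1
    rwa [hg] at this, conj_comm (g := g) rfl (by rw [hi]; group) x.2.2⟩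
  have hinj : Function.Injective F := by
    intro x x' e
    obtain ⟨a1, a2⟩ := hF x
    obtain ⟨b1, b2⟩ := hF x'
    obtain ⟨c1, c2⟩ := hP0 _ a1 a2
    obtain ⟨d1, d2⟩ := hP0 _ b1 b2
    have eρ := hrig _ _ c1 d1 c2 d2 e
    have hm : g * x.1 * g⁻¹ * (g * x'.1 * g⁻¹)⁻¹ ∈ Qf z := by
      refine (P.ρ_ker _ (comm_mul a2 (comm_inv b2))).1 ?_
      rw [P.toSetting.ρ_mul a2 (comm_inv b2), P.toSetting.ρ_inv b2, eρ, mul_inv_cancel]
    have h1 := mul_inv_eq_one.1 (P.inter_trivial T hg hm ((Qf (s * u)).mul_mem a1 ((Qf (s * u)).inv_mem b1)))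
    exact Subtype.ext (mul_left_cancel (mul_right_cancel h1))
  have := Nat.card_le_card_of_injective F hinj
  simp at this
  omega

end PairSetting

namespace PairSetting

variable (P : PairSetting z Qf θ ρ J y h) {s₀ u₀ s₁ u₁ : G}
variable (T0 : IsRep z Qf θ ρ y cV uV s₀ u₀) (T1 : IsRep z Qf θ ρ y e2V e3V s₁ u₁)
include P

theorem data0 (T0 : IsRep z Qf θ ρ y cV uV s₀ u₀) : RepData z Qf θ ρ y cV uV s₀ u₀ :=
  { toIsRep := T0, mw := mid_cV, mm := mid_uV, w0 := by decide, hbw := by decide, hqm := by decide,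
    wit := ⟨e3V, mid_e3V, by decide, by decide⟩ }

theorem data1 (T1 : IsRep z Qf θ ρ y e2V e3V s₁ u₁) : RepData z Qf θ ρ y e2V e3V s₁ u₁ :=
  { toIsRep := T1, mw := mid_e2V, mm := mid_e3V, w0 := by decide, hbw := by decide, hqm := by decide,
    wit := ⟨f3V, mid_f3V, by decide, by decide⟩ }

include T0 in
/-- The second representative is not conjugate to `z`. -/
theorem not_isConj_t0 : ¬ IsConj z (s₀ * u₀) :=
  P.not_isConj_rep (P.data0 T0) cuPerp cuPerp_spec
    (fun g => (ap g cV (.inl 0), ap g uV (.inl 0), bl (ap g uV) uV)) fun _ _ h h' hc hc' e => by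
      simp only [Prod.mk.injEq] at e
      exact cu_rigid h h' hc hc' e.1 e.2.1 e.2.2

include T1 in
/-- The third representative is not conjugate to `z`. -/
theorem not_isConj_t1 : ¬ IsConj z (s₁ * u₁) :=
  P.not_isConj_rep (P.data1 T1) linePerp linePerp_spec
    (fun g => (bl (ap g fV) f2V, bl (ap g fV) f3V, bl (ap g f2V) f3V)) fun _ _ h h' _ _ e => by
      simp only [Prod.mk.injEq] at e
      exact line_rigid h h' e.1 e.2.1 e.2.2

include T0

/-- An element of `C(z, t0)` fixes or flips `y`. -/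
theorem cases_y {c : G} (hcz : c * z = z * c) (hct : c * (s₀ * u₀) = s₀ * u₀ * c) :
    c * y * c⁻¹ = y ∨ c * y * c⁻¹ = z * y := by
  have T := P.data0 T0
  obtain ⟨-, hty⟩ := P.rep_comm T
  have hy' := P.toSetting.conj_mem_Q hcz P.y_mem
  have hrad : ∀ x, x ∈ Qf z → bl eV (θ x) = 0 → bl (θ x) cV = 0 → bl (θ x) uV = 0 →
      bl (θ (c * y * c⁻¹)) (θ x) = 0 := by
    intro x hx h0 h1 h2
    have hc' := comm_inv hcz
    have hx' : c⁻¹ * x * c ∈ Qf z := by
      have := P.toSetting.conj_mem_Q hc' hx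
      rwa [inv_inv] at this
    have hcomm : c⁻¹ * x * c * (s₀ * u₀) = s₀ * u₀ * (c⁻¹ * x * c) :=
      conj_comm (g := c⁻¹) (by rw [inv_inv]) (by rw [inv_inv, mul_assoc, ← hct, inv_mul_cancel_left])
        (P.rep_centralises T hx h0 h1 h2)
    have hfix : ap (ρ (s₀ * u₀)) (θ (c⁻¹ * x * c)) = θ (c⁻¹ * x * c) := by
      rw [← P.ρ_act _ (P.rep_comm T).1 _ hx', conj_fix_iff.2 hcomm.symm]
    rw [P.rep_ρ T, Te, ap_T, sgf_eq, add_assoc, add_eq_left] at hfix
    have h3 : bl eV (θ (c⁻¹ * x * c)) = 0 := by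
      rw [bl_comm]
      refine (z2_cases _).resolve_right fun a => ?_
      have h4 := congrArg md hfix
      rw [a, one_smul, md_add, md_smul, md_eV, smul_zero, add_zero, md_zero, md_of_mid mid_cV] at h4
      exact absurd h4 (by decide)
    have e : θ x = ap (ρ c) (θ (c⁻¹ * x * c)) := by
      rw [← P.ρ_act c hcz _ hx']; congr 1; group
    rw [e, P.ρ_act c hcz y P.y_mem, bl_ap, P.θy, h3]
  have hC : ∀ v ∈ cuPerp, bl (θ (c * y * c⁻¹)) v = 0 := by
    intro v hv
    obtain ⟨h0, h1, h2⟩ := cuPerp_spec v hv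
    obtain ⟨x, hx, rfl⟩ := P.θ_surj v
    exact hrad x hx h0 h1 h2
  have hcy' : c * y * c⁻¹ * (s₀ * u₀) = s₀ * u₀ * (c * y * c⁻¹) :=
    conj_comm (g := c) rfl (conj_fix_iff.2 hct) hty.symm
  have hW : inW z Qf y (c * y * c⁻¹) := (P.W_iff hy').2 (by rw [bl_comm]; exact hC eV (by simp [cuPerp]))
  have hs₀ : c * y * c⁻¹ * (s₀ * u₀) = s₀ * u₀ * (c * y * c⁻¹) := hcy'
  have hfix : ap (ρ (s₀ * u₀)) (θ (c * y * c⁻¹)) = θ (c * y * c⁻¹) := by
    rw [← P.ρ_act _ (P.rep_comm T).1 _ hy', conj_fix_iff.2 hs₀.symm]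
  rw [P.rep_ρ T, Te, ap_T, sgf_eq, bl_comm _ eV, (P.W_iff hy').1 hW, zero_smul, mul_zero, add_zero,
    add_zero, add_eq_left] at hfix
  have h1 : bl (θ (c * y * c⁻¹)) cV = 0 := by
    refine (z2_cases _).resolve_right fun a => ?_
    rw [a, one_smul] at hfix
    exact absurd hfix (by decide)
  have h2 : bl (θ (c * y * c⁻¹)) uV = 0 := by
    have hc := P.comm_eq T0.hs hW
    rw [T0.hsw, h1, zp_zero, zp_zero, one_mul, mul_inv_eq_one] at hc
    have hxs : c * y * c⁻¹ * s₀ = s₀ * (c * y * c⁻¹) := (mul_inv_eq_iff_eq_mul.1 hc).symm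
    have hxu : c * y * c⁻¹ * u₀ = u₀ * (c * y * c⁻¹) := by
      exact mul_left_cancel (a := s₀)
        (by rw [← mul_assoc, ← hxs, mul_assoc, hs₀, mul_assoc])
    have := P.toSetting.bl_of_comm hy' T0.hu hxu
    rwa [T0.hθu] at this
  rcases cu_radical _ ((P.W_iff hy').1 hW) h1 h2 (hC _ (by simp [cuPerp])) (hC _ (by simp [cuPerp]))
    (hC _ (by simp [cuPerp])) (hC _ (by simp [cuPerp])) with e | e
  · exfalso
    rw [P.ρ_act c hcz y P.y_mem, P.θy] at e
    have e' : ap (ρ c) eV = ap (ρ c) 0 := by rw [e, ap_zero]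
    exact absurd (ap_inj _ e') (by decide)
  · exact P.toSetting.eq_or_of_θ hy' P.y_mem (by rw [e, P.θy])

/-- Some element of `C(z, t0)` flips `y`. -/
theorem exists_flip_t0 : ∃ c, c * z = z * c ∧ c * (s₀ * u₀) = s₀ * u₀ * c ∧ c * y * c⁻¹ = z * y := by
  have T := P.data0 T0
  obtain ⟨r, hr, hθr⟩ := P.θ_surj fV
  have hry : r * y * r⁻¹ = z * y := by
    rw [P.toSetting.conj_eq hr P.y_mem, hθr, P.θy, bl_comm, bl_e_f, zp_one]
  obtain ⟨u', hu', he, hθ⟩ := P.conj_su mid_cV T0.hs T0.hsw T0.hu hr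
  have hrz := P.toSetting.comm_z hr
  have hsg : sgf eV cV fV + fV = cV + eV := by decide +kernel
  rw [hθr, T0.hθu, hsg] at hθ
  obtain ⟨c, hcz, hcy, hc⟩ := P.orbit_c T0 T0.hs
    (show inW z Qf y u' from (P.W_iff hu').2 (by rw [hθ]; decide +kernel))
    (by rw [T0.hsw]; decide) (by rw [T0.hsw, hθ]; decide +kernel) (by rw [hθ]; decide +kernel)
  refine ⟨c * r, comm_mul hcz hrz, conj_fix_iff.1 ?_, ?_⟩
  · rw [show c * r * (s₀ * u₀) * (c * r)⁻¹ = c * (r * (s₀ * u₀) * r⁻¹) * c⁻¹ by group, he, hc]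
  · rw [show c * r * y * (c * r)⁻¹ = c * (r * y * r⁻¹) * c⁻¹ by group, hry,
      show c * (z * y) * c⁻¹ = (c * z * c⁻¹) * (c * y * c⁻¹) by group, conj_fix_iff.2 hcz,
      conj_fix_iff.2 hcy]

/-- `C(z, y, t0)` has index two in `C(z, t0)`. -/
theorem card_centralizer_t0 : Nat.card ↥(Subgroup.centralizer ({z, s₀ * u₀} : Set G)) =
    2 * Nat.card ↥(Subgroup.centralizer ({z, y, s₀ * u₀} : Set G)) := by
  obtain ⟨c₀, hc₀z, hc₀t, hc₀y⟩ := P.exists_flip_t0 T0
  have hmem : ∀ c, c ∈ Subgroup.centralizer ({z, s₀ * u₀} : Set G) ↔ c * z = z * c ∧ c * (s₀ * u₀) = s₀ * u₀ * c := by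
    intro c
    rw [Subgroup.mem_centralizer_iff]
    constructor
    · intro H; exact ⟨(H z (by simp)).symm, (H _ (by simp)).symm⟩
    · rintro ⟨a, b⟩ _ (rfl | rfl)
      exacts [a.symm, b.symm]
  have hmem' : ∀ c, c ∈ Subgroup.centralizer ({z, y, s₀ * u₀} : Set G) ↔
      c ∈ Subgroup.centralizer ({z, s₀ * u₀} : Set G) ∧ c * y = y * c := by
    intro c
    rw [hmem, Subgroup.mem_centralizer_iff]
    constructor
    · intro H; exact ⟨⟨(H z (by simp)).symm, (H _ (by simp)).symm⟩, (H y (by simp)).symm⟩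
    · rintro ⟨⟨a, b⟩, d⟩ _ (rfl | rfl | rfl)
      exacts [a.symm, d.symm, b.symm]
  have hle : Subgroup.centralizer ({z, y, s₀ * u₀} : Set G) ≤ Subgroup.centralizer ({z, s₀ * u₀} : Set G) :=
    fun c hc => ((hmem' c).1 hc).1
  have hidx : ((Subgroup.centralizer ({z, y, s₀ * u₀} : Set G)).subgroupOf
      (Subgroup.centralizer ({z, s₀ * u₀} : Set G))).index = 2 := by
    have hzy : z * y ≠ y := fun e => P.toSetting.z_ne (mul_eq_right.1 e)
    refine Subgroup.index_eq_two_iff.2 ⟨⟨c₀, (hmem c₀).2 ⟨hc₀z, hc₀t⟩⟩, fun b => ?_⟩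
    obtain ⟨hbz, hbt⟩ := (hmem b).1 b.2
    have hb : ∀ x : ↥(Subgroup.centralizer ({z, s₀ * u₀} : Set G)), x ∈ (Subgroup.centralizer ({z, y, s₀ * u₀} : Set G)).subgroupOf
        (Subgroup.centralizer ({z, s₀ * u₀} : Set G)) ↔ (x : G) * y * (x : G)⁻¹ = y := by
      intro x
      rw [Subgroup.mem_subgroupOf, hmem', conj_fix_iff]
      exact ⟨fun H => H.2, fun H => ⟨x.2, H⟩⟩
    rw [hb, hb, Subgroup.coe_mul]
    have e : (b : G) * c₀ * y * ((b : G) * c₀)⁻¹ = (b : G) * z * (b : G)⁻¹ * ((b : G) * y * (b : G)⁻¹) := by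
      rw [show (b : G) * c₀ * y * ((b : G) * c₀)⁻¹ = (b : G) * (c₀ * y * c₀⁻¹) * (b : G)⁻¹ by group, hc₀y]
      group
    rw [e, conj_fix_iff.2 hbz]
    rcases P.cases_y T0 hbz hbt with a | a <;> rw [a]
    · exact Or.inr ⟨rfl, hzy⟩
    · exact Or.inl ⟨by rw [← mul_assoc, P.toSetting.z_sq, one_mul], hzy⟩
  have := Subgroup.card_mul_index ((Subgroup.centralizer ({z, y, s₀ * u₀} : Set G)).subgroupOf
    (Subgroup.centralizer ({z, s₀ * u₀} : Set G)))
  rw [hidx, Nat.card_congr (Subgroup.subgroupOfEquivOfLe hle).toEquiv] at this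
  omega

/-- A Sylow 2-subgroup of `C(z, t0)` is one of `C(t0)`. -/
theorem factorization_t0 : (Nat.card ↥(Subgroup.centralizer ({s₀ * u₀} : Set G))).factorization 2 =
    (Nat.card ↥(Subgroup.centralizer ({z, s₀ * u₀} : Set G))).factorization 2 := by
  haveI : Fact (Nat.Prime 2) := ⟨Nat.prime_two⟩
  have T := P.data0 T0
  obtain ⟨htz, hty⟩ := P.rep_comm T
  obtain ⟨C, hC⟩ : ∃ C, C = Subgroup.centralizer ({z, s₀ * u₀} : Set G) := ⟨_, rfl⟩
  obtain ⟨Ct, hCt⟩ : ∃ Ct, Ct = Subgroup.centralizer ({s₀ * u₀} : Set G) := ⟨_, rfl⟩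
  rw [← hC, ← hCt]
  have hmC : ∀ c, c ∈ C ↔ c * z = z * c ∧ c * (s₀ * u₀) = s₀ * u₀ * c := by
    intro c
    rw [hC, Subgroup.mem_centralizer_iff]
    constructor
    · intro H; exact ⟨(H z (by simp)).symm, (H _ (by simp)).symm⟩
    · rintro ⟨a, b⟩ _ (rfl | rfl)
      exacts [a.symm, b.symm]
  let S : Sylow 2 ↥C := default
  obtain ⟨TS, hTS⟩ : ∃ TS, TS = (S : Subgroup ↥C).map C.subtype := ⟨_, rfl⟩
  have hTC : TS ≤ C := hTS ▸ Subgroup.map_subtype_le _
  have hT2 : IsPGroup 2 TS := hTS ▸ S.2.map _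
  have hcardT : Nat.card TS = 2 ^ (Nat.card ↥C).factorization 2 := by
    rw [hTS, ← Nat.card_congr (Subgroup.equivMapOfInjective _ _ C.subtype_injective).toEquiv,
      Sylow.card_eq_multiplicity]
  have hmax : ∀ H : Subgroup G, IsPGroup 2 H → H ≤ C → TS ≤ H → H = TS := by
    intro H hH hHC hle
    have e : H.subgroupOf C = (S : Subgroup ↥C) := by
      refine S.3 (hH.comap_of_injective _ C.subtype_injective) ?_
      intro a ha
      exact hle (hTS ▸ Subgroup.mem_map_of_mem _ ha)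
    rw [hTS, ← e, Subgroup.subgroupOf_map_subtype, inf_eq_left.2 hHC]
  -- the centralised part of `Qf z` lies in every Sylow subgroup
  have hQT : ∀ x ∈ Qf z, x * (s₀ * u₀) = s₀ * u₀ * x → x ∈ TS := by
    let A : Subgroup ↥C := (Qf z).comap C.subtype
    have hQ2 : IsPGroup 2 ↥(Qf z) := P.core.extra.1.1
    have hA : IsPGroup 2 A := hQ2.comap_of_injective _ C.subtype_injective
    have hAn : A.Normal := ⟨fun a ha c => P.toSetting.conj_mem_Q ((hmC c).1 c.2).1 ha⟩
    have hsup : IsPGroup 2 ↥(A ⊔ (S : Subgroup ↥C)) := hA.to_sup_of_normal_left S.2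
    have hAle : A ≤ (S : Subgroup ↥C) := le_sup_left.trans (S.3 hsup le_sup_right).le
    intro x hx hxt
    have hxC : x ∈ C := (hmC x).2 ⟨P.toSetting.comm_z hx, hxt⟩
    exact hTS ▸ ⟨⟨x, hxC⟩, hAle hx, rfl⟩
  -- `z` is the only conjugate of `z` centralising the Sylow subgroup
  have huniq : ∀ k : G, k * (s₀ * u₀) = s₀ * u₀ * k → (∀ a ∈ TS, k * z * k⁻¹ * a = a * (k * z * k⁻¹)) →
      k * z * k⁻¹ = z := by
    intro k hk hcent
    obtain ⟨z', hz'⟩ : ∃ z', z' = k * z * k⁻¹ := ⟨_, rfl⟩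
    rw [← hz'] at hcent ⊢
    have hz'2 : z' * z' = 1 := by
      rw [hz', show k * z * k⁻¹ * (k * z * k⁻¹) = k * (z * z) * k⁻¹ by group, P.toSetting.z_sq]; group
    have hz't : z' * (s₀ * u₀) = s₀ * u₀ * z' :=
      conj_comm (g := k) (a := z) hz'.symm (conj_fix_iff.2 hk) htz.symm
    have hzT : z ∈ TS := hQT z P.toSetting.z_mem htz.symm
    have hz'z : z' * z = z * z' := hcent z hzT
    have hfix : ∀ x ∈ Qf z, bl eV (θ x) = 0 → bl (θ x) cV = 0 → bl (θ x) uV = 0 → z' * x = x * z' :=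
      fun x hx h0 h1 h2 => hcent x (hQT x hx (P.rep_centralises T hx h0 h1 h2))
    by_contra hne
    by_cases hQ : z' ∈ Qf z
    · have hb : ∀ v ∈ cuPerp, bl (θ z') v = 0 := by
        intro v hv
        obtain ⟨h0, h1, h2⟩ := cuPerp_spec v hv
        obtain ⟨x, hx, rfl⟩ := P.θ_surj v
        exact P.toSetting.bl_of_comm hQ hx (hfix x hx h0 h1 h2)
      have he : bl eV (θ z') = 0 := by rw [bl_comm]; exact hb eV (by simp [cuPerp])
      have hW : inW z Qf y z' := (P.W_iff hQ).2 he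
      have hfix' : ap (ρ (s₀ * u₀)) (θ z') = θ z' := by
        rw [← P.ρ_act _ htz _ hQ, conj_fix_iff.2 hz't.symm]
      rw [P.rep_ρ T, Te, ap_T, sgf_eq, bl_comm _ eV, he, zero_smul, mul_zero, add_zero, add_zero,
        add_eq_left] at hfix'
      have h1 : bl (θ z') cV = 0 := by
        refine (z2_cases _).resolve_right fun a => ?_
        rw [a, one_smul] at hfix'
        exact absurd hfix' eV_ne_zero
      have h2 : bl (θ z') uV = 0 := by
        have hc := P.comm_eq T0.hs hW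
        rw [T0.hsw, h1, zp_zero, zp_zero, one_mul, mul_inv_eq_one] at hc
        have hxu : z' * u₀ = u₀ * z' := by
          have e := hz't
          rw [← mul_assoc, ← mul_inv_eq_iff_eq_mul.1 hc, mul_assoc, mul_assoc] at e
          exact mul_left_cancel e
        have := P.toSetting.bl_of_comm hQ T0.hu hxu
        rwa [T0.hθu] at this
      have hone : z' ≠ 1 := fun e => P.toSetting.z_ne (conj_eq_one_iff.1 (hz'.symm.trans e))
      rcases cu_radical _ he h1 h2 (hb _ (by simp [cuPerp])) (hb _ (by simp [cuPerp]))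
        (hb _ (by simp [cuPerp])) (hb _ (by simp [cuPerp])) with e | e
      · rcases (P.θ_ker z' hQ).1 e with e' | e'
        exacts [hone e', hne e']
      -- then the Sylow subgroup would centralise `y`
      have hTy : ∀ a ∈ TS, a * y = y * a := by
        intro a ha
        have haz : a * z = z * a := ((hmC a).1 (hTC ha)).1
        rcases P.toSetting.eq_or_of_θ hQ P.y_mem (by rw [e, P.θy]) with e' | e'
        · have := hcent a ha
          rw [e'] at this
          exact this.symm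
        · have h3 := hcent a ha
          rw [e', mul_assoc, ← mul_assoc a z y, haz, mul_assoc] at h3
          exact (mul_left_cancel h3).symm
      obtain ⟨K, hK⟩ : ∃ K, K = Subgroup.centralizer ({z, y, s₀ * u₀} : Set G) := ⟨_, rfl⟩
      have hTK : TS ≤ K := fun a ha => by
        rw [hK, Subgroup.mem_centralizer_iff]
        rintro _ (rfl | rfl | rfl)
        exacts [((hmC a).1 (hTC ha)).1.symm, (hTy a ha).symm, ((hmC a).1 (hTC ha)).2.symm]
      have hcard := P.card_centralizer_t0 T0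
      rw [← hC, ← hK] at hcard
      have hd := Subgroup.card_dvd_of_le hTK
      rw [hcardT, hcard, Nat.factorization_mul (by norm_num) Nat.card_pos.ne', Finsupp.add_apply,
        Nat.Prime.factorization_self Nat.prime_two] at hd
      have := (Nat.prime_two.pow_dvd_iff_le_factorization Nat.card_pos.ne').1 hd
      omega
    · -- outside `Qf z` it would lie over a nonsingular Siegel map
      have hL : ∀ v ∈ cuPerp, ap (ρ z') v = v := by
        intro v hv
        obtain ⟨h0, h1, h2⟩ := cuPerp_spec v hv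
        obtain ⟨x, hx, rfl⟩ := P.θ_surj v
        rw [← P.ρ_act z' hz'z x hx, conj_fix_iff.2 (hfix x hx h0 h1 h2)]
      have he : ap (ρ z') eV = eV := hL eV (by simp [cuPerp])
      have hc : md (ap (ρ z') cV) = cV := by
        have h1 : ρ z' * ρ (s₀ * u₀) * (ρ z')⁻¹ = ρ (s₀ * u₀) := by
          rw [← P.toSetting.ρ_conj hz'z htz, conj_fix_iff.2 hz't]
        rw [P.rep_ρ T, conj_Te he] at h1
        have := (Te_eq_iff _ _).1 h1
        rwa [md_md, md_of_mid mid_cV] at this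
      obtain ⟨v, hv, hq, hρv⟩ : ∃ (v : V) (hv : Mid v), (v = 0 ∨ q v = 1) ∧ ρ z' = Te v hv.bl_eV := by
        obtain ⟨l, hl⟩ : ∃ l, l = ap (ρ z') cV (.inl 0) := ⟨_, rfl⟩
        obtain ⟨n, hn⟩ : ∃ n, n = ap (ρ z') uV (.inl 0) := ⟨_, rfl⟩
        have hvM : Mid (n • cV + l • uV) :=
          ⟨by simp [cV, uV, vec], by simp [cV, uV, vec]⟩
        have hTe : ∀ v ∈ cuPerp, ap (Te _ hvM.bl_eV) v = v := fun v hv => by
          obtain ⟨h0, h1, h2⟩ := cuPerp_spec v hv
          rw [Te, ap_T, sgf_eq, bl_comm v eV, h0, bl_add_right, bl_smul_right, bl_smul_right, h1, h2]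
          simp
        have hce : bl cV eV = 0 := bl_cV_eV
        have hue : bl uV eV = 0 := bl_uV_eV
        have hTec : ap (Te _ hvM.bl_eV) cV = cV + l • eV := by
          rw [Te, ap_T, sgf_eq, hce, bl_add_right, bl_smul_right, bl_smul_right, bl_self, bl_c_u]
          simp
        have hTeu : ap (Te _ hvM.bl_eV) uV = uV + n • eV := by
          rw [Te, ap_T, sgf_eq, hue, bl_add_right, bl_smul_right, bl_smul_right, bl_self,
            bl_uV_cV]
          simp
        have hTemd : md (ap (Te _ hvM.bl_eV) cV) = cV := by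
          rw [hTec, md_add, md_smul, md_eV, smul_zero, add_zero, md_of_mid mid_cV]
        have hq : n • cV + l • uV = 0 ∨ q (n • cV + l • uV) = 1 := by
          exact cu_q n l
        rcases z2_cases (bl (ap (ρ z') uV) uV) with a | a
        · refine ⟨_, hvM, hq, cu_rigid hL hTe hc hTemd ?_ ?_ ?_⟩
          · rw [← hl, hTec]; simp [cV, eV, vec]
          · rw [← hn, hTeu]; simp [uV, eV, vec]
          · rw [a, hTeu, bl_add_left, bl_self, bl_smul_left, mid_uV.bl_eV, mul_zero, add_zero]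
        · exfalso
          have hRc : ∀ x, ap (R cV q_cV) x = x + bl x cV • cV := fun x => by rw [ap_R, rf_eq]
          have heq : ρ z' = R cV q_cV * Te _ hvM.bl_eV := by
            refine cu_rigid hL ?_ hc ?_ ?_ ?_ ?_
            · intro v hv
              rw [ap_mul, hTe v hv, hRc, (cuPerp_spec v hv).2.1, zero_smul, add_zero]
            · rw [ap_mul, hTec, hRc, bl_add_left, bl_self, bl_smul_left, bl_comm eV cV, hce, mul_zero,
                add_zero, zero_smul, add_zero, md_add, md_smul, md_eV, smul_zero, add_zero, md_of_mid mid_cV]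
            · rw [ap_mul, hTec, hRc, bl_add_left, bl_self, bl_smul_left, bl_comm eV cV, hce, mul_zero,
                add_zero, zero_smul, add_zero, ← hl]
              simp [cV, eV, vec]
            · rw [ap_mul, hTeu, hRc, bl_add_left, bl_smul_left, bl_comm eV cV, hce, mul_zero, add_zero,
                bl_uV_cV, one_smul, ← hn]
              simp [uV, cV, eV, vec]
            · rw [a, ap_mul, hTeu, hRc, bl_add_left uV, bl_smul_left, bl_comm eV cV, hce, mul_zero, add_zero,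
                bl_uV_cV, one_smul, bl_add_left, bl_add_left, bl_smul_left, bl_self,
                mid_uV.bl_eV, bl_c_u]
              simp
          have h1 := P.half.mul_mem_iff (a := R cV q_cV) (b := Te _ hvM.bl_eV)
          rw [← heq] at h1
          exact P.half.R_not_mem q_cV ((h1.1 (P.ρ_mem z' hz'z)).2 (P.half.Te_mem _))
      rcases hq with rfl | hq
      · refine hQ ((P.ρ_ker z' hz'z).1 ?_)
        rw [hρv, Te_congr rfl _ (bl_zero_right eV), Te_zero]
      have hv0 : v ≠ 0 := fun e => by rw [e, q_zero] at hq; exact zero_ne_one hq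
      obtain ⟨s, hs, hsw⟩ := P.exists_Wy hv
      obtain ⟨u, hu, e, hbu, hqu⟩ := P.decompose hv hv0 hz'z hz'2 hρv hs hsw
      rw [hq] at hbu hqu
      obtain ⟨c, -, -, hc'⟩ := P.orbit_c T0 hs hu (by rw [hsw, hq]) (by rw [hsw, hbu]) hqu
      refine P.not_isConj_t0 T0 ?_
      refine (isConj_iff.2 ⟨k, hz'.symm⟩).trans (isConj_iff.2 ⟨c, ?_⟩)
      rw [e, hc']
  have hTCt : TS ≤ Ct := fun a ha => by
    rw [hCt, Subgroup.mem_centralizer_singleton_iff]
    exact ((hmC a).1 (hTC ha)).2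
  have hTU : IsPGroup 2 (TS.subgroupOf Ct) := hT2.comap_of_injective _ Ct.subtype_injective
  obtain ⟨U, hU⟩ := hTU.exists_le_sylow
  suffices hUT : (U : Subgroup ↥Ct) ≤ TS.subgroupOf Ct by
    have h1 := Sylow.card_eq_multiplicity U
    rw [le_antisymm hUT hU, Nat.card_congr (Subgroup.subgroupOfEquivOfLe hTCt).toEquiv, hcardT] at h1
    exact Nat.pow_right_injective le_rfl h1.symm
  by_contra hlt
  obtain ⟨U', hU'⟩ : ∃ U' : Subgroup G, U' = (U : Subgroup ↥Ct).map Ct.subtype := ⟨_, rfl⟩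
  have hTU' : TS ≤ U' := fun a ha => hU' ▸ ⟨⟨a, hTCt ha⟩, hU ha, rfl⟩
  have hU'2 : IsPGroup 2 U' := hU' ▸ U.2.map _
  have hne : TS.subgroupOf U' ≠ ⊤ := by
    rw [Ne, Subgroup.subgroupOf_eq_top]
    intro hle
    exact hlt fun a ha => hle (hU' ▸ Subgroup.mem_map_of_mem _ ha)
  haveI : Finite ↥U' := inferInstance
  haveI := hU'2.isNilpotent
  obtain ⟨n, hn, hnT⟩ := SetLike.exists_of_lt
    (Group.normalizerCondition_of_isNilpotent (G := ↥U') (TS.subgroupOf U') (lt_top_iff_ne_top.2 hne))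
  have hnC : (n : G) * (s₀ * u₀) = s₀ * u₀ * n := by
    obtain ⟨a, -, ha⟩ := Subgroup.mem_map.1 (le_of_eq hU' n.2)
    rw [← ha]
    exact Subgroup.mem_centralizer_singleton_iff.1 (hCt ▸ a.2)
  have hnz : (n : G) * z * (n : G)⁻¹ = z := by
    refine huniq n hnC fun a ha => ?_
    have h1 := (Subgroup.mem_normalizer_iff''.1 hn ⟨a, hTU' ha⟩).1 ha
    have h2 : (n : G)⁻¹ * a * n ∈ TS := h1
    exact conj_comm (g := (n : G)) (a := z) (b := (n : G)⁻¹ * a * n) rfl (by group)
      ((hmC _).1 (hTC h2)).1.symm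
  refine hnT ?_
  have hsup : Subgroup.zpowers n ⊔ TS.subgroupOf U' ≤ ⊤ := le_top
  have e := hmax ((Subgroup.zpowers n ⊔ TS.subgroupOf U').map U'.subtype)
    ((hU'2.to_subgroup _).map _) ?_ ?_
  · show (n : G) ∈ TS
    rw [← e]
    exact Subgroup.mem_map_of_mem _ (Subgroup.mem_sup_left (Subgroup.mem_zpowers n))
  · rw [Subgroup.map_sup, sup_le_iff]
    refine ⟨?_, fun a ha => ?_⟩
    · rw [MonoidHom.map_zpowers, Subgroup.zpowers_le]
      exact (hmC _).2 ⟨conj_fix_iff.1 hnz, hnC⟩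
    · obtain ⟨b, hb, rfl⟩ := ha
      exact hTC hb
  · intro a ha
    exact ⟨⟨a, hTU' ha⟩, Subgroup.mem_sup_right ha, rfl⟩

end PairSetting

end CfsgLib.ConwayType
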