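import Cfsg.Agent.Lib.ConwayType.InvolutionsModel
import Mathlib.GroupTheory.Sylow

/-!
Involutions of the subgroup of index two of the orthogonal group of plus type in dimension eight
over the field with two elements: each is conjugate to a Siegel transformation at `eV` or to the
product of one with a fixed root element orthogonal to it.
-/

set_option autoImplicit false
set_option maxRecDepth 100000
set_option synthInstance.maxSize 1000
set_option maxHeartbeats 1000000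

namespace CfsgLib.ConwayType

open CfsgLib.ClassicalForms

/-- The first factor of the Sylow 2-subgroup acting on the middle. -/
noncomputable def K2 (x : Fin 4 → ZMod 2) : O := T e2V (sixV x) (by decide) (sixV_spec x).1

/-- The second factor. -/
noncomputable def K3 (y : Fin 2 → ZMod 2) : O := T e3V (twoV y) (by decide) (twoV_spec y).1

theorem ap_K2 (x : Fin 4 → ZMod 2) (u : V) : ap (K2 x) u = sgf e2V (sixV x) u := ap_T _ _ _ _ _

theorem ap_K3 (y : Fin 2 → ZMod 2) (u : V) : ap (K3 y) u = sgf e3V (twoV y) u := ap_T _ _ _ _ _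

theorem ap_K23_eV (x : Fin 4 → ZMod 2) (y : Fin 2 → ZMod 2) : ap (K2 x * K3 y) eV = eV := by
  rw [ap_mul, ap_K3, ap_K2, (twoV_spec y).2.2 eV (by simp), (sixV_spec x).2.2 eV (by simp)]

theorem ap_K23_fV (x : Fin 4 → ZMod 2) (y : Fin 2 → ZMod 2) : ap (K2 x * K3 y) fV = fV := by
  rw [ap_mul, ap_K3, ap_K2, (twoV_spec y).2.2 fV (by simp), (sixV_spec x).2.2 fV (by simp)]

theorem K2_mul (x x' : Fin 4 → ZMod 2) : K2 x * K2 x' = K2 (x + x') := by
  rw [K2, K2, T_mul]; exact T_congr (rfl) (sixV_add x x') _ _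

theorem K3_mul (y y' : Fin 2 → ZMod 2) : K3 y * K3 y' = K3 (y + y') := by
  rw [K3, K3, T_mul]; exact T_congr (rfl) (twoV_add y y') _ _

theorem K2_zero : K2 0 = 1 := by
  have h : sixV 0 = 0 := by decide
  rw [K2, T_congr rfl h]; exact T_zero _

theorem K3_zero : K3 0 = 1 := by
  have h : twoV 0 = 0 := by decide
  rw [K3, T_congr rfl h]; exact T_zero _

/-- The index set of the Sylow 2-subgroup. -/
abbrev PIdx : Type := {w : V // Mid w} × ((Fin 4 → ZMod 2) × (Fin 2 → ZMod 2))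

/-- The elements of the Sylow 2-subgroup. -/
noncomputable def phi (p : PIdx) : O := Te p.1.1 p.1.2.bl_eV * (K2 p.2.1 * K3 p.2.2)

theorem phi_mul (p p' : PIdx) : ∃ p'' : PIdx, phi p * phi p' = phi p'' := by
  obtain ⟨⟨w, hw⟩, x, y⟩ := p
  obtain ⟨⟨w', hw'⟩, x', y'⟩ := p'
  have hk := ap_K23_eV x y
  have hm : Mid (md (ap (K2 x * K3 y) w')) := mid_md (bl_eV_ap hk hw'.bl_eV)
  obtain ⟨x'', hx''⟩ := sgf_three_six y x'
  have hc : K3 y * K2 x' * (K3 y)⁻¹ = K2 x'' := by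
    rw [K2, conj_T, K2]
    refine T_congr ?_ ?_ _ _
    · rw [ap_K3, (twoV_spec y).2.2 e2V (by simp)]
    · rw [ap_K3, hx'']
  refine ⟨(⟨w + md (ap (K2 x * K3 y) w'), hw.add hm⟩, x + x'', y + y'), ?_⟩
  calc phi (⟨w, hw⟩, x, y) * phi (⟨w', hw'⟩, x', y')
      = Te w hw.bl_eV * ((K2 x * K3 y) * Te w' hw'.bl_eV * (K2 x * K3 y)⁻¹) *
          (K2 x * (K3 y * K2 x' * (K3 y)⁻¹) * (K3 y * K3 y')) := by simp only [phi]; group
    _ = _ := by rw [conj_Te hk hw'.bl_eV, hc, K2_mul, K3_mul, Te_mul hw.bl_eV hm.bl_eV]; rfl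

theorem phi_one : phi (⟨0, mid_zero⟩, 0, 0) = 1 := by
  simp only [phi, K2_zero, K3_zero, mul_one]
  exact Te_zero

theorem ap_phi (p : PIdx) (u : V) :
    ap (phi p) u = sgf eV p.1.1 (sgf e2V (sixV p.2.1) (sgf e3V (twoV p.2.2) u)) := by
  simp only [phi, ap_mul, ap_K2, ap_K3, Te, ap_T]

theorem phi_injective : Function.Injective phi := by
  rintro ⟨⟨w, hw⟩, x, y⟩ ⟨⟨w', hw'⟩, x', y'⟩ h
  have hf := congrArg (fun g => md (ap g fV + fV)) h
  simp only [phi] at hf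
  rw [ap_mul, ap_K23_fV, Te_param, ap_mul, ap_K23_fV, Te_param, md_of_mid hw, md_of_mid hw'] at hf
  subst hf
  have hk : K2 x * K3 y = K2 x' * K3 y' := mul_left_cancel h
  have h2 := congrArg (fun g => ap g f2V) hk
  simp only [ap_mul, ap_K3, ap_K2, (twoV_spec y).2.2 f2V (by simp),
    (twoV_spec y').2.2 f2V (by simp)] at h2
  obtain rfl := sixV_param _ _ h2
  have h3 := congrArg (fun g => ap g f3V) (mul_left_cancel hk)
  simp only [ap_K3] at h3
  obtain rfl := twoV_param _ _ h3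
  rfl

theorem card_PIdx : Nat.card PIdx = 4096 := by
  have e : Nat.card {w : V // Mid w} = 64 := by
    rw [← Nat.card_congr (Equiv.ofBijective
      (fun x : Fin 6 → ZMod 2 => (⟨vec 0 (x 0) (x 1) (x 2) 0 (x 3) (x 4) (x 5), rfl, rfl⟩ :
        {w : V // Mid w})) ⟨?_, ?_⟩)]
    · simp
    · intro x x' hxx
      have := congrArg Subtype.val hxx
      funext i
      fin_cases i
      · exact congrFun this (.inl 1)
      · exact congrFun this (.inl 2)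
      · exact congrFun this (.inl 3)
      · exact congrFun this (.inr 1)
      · exact congrFun this (.inr 2)
      · exact congrFun this (.inr 3)
    · rintro ⟨v, hv⟩
      refine ⟨![v (.inl 1), v (.inl 2), v (.inl 3), v (.inr 1), v (.inr 2), v (.inr 3)],
        Subtype.ext ?_⟩
      show _ = v
      conv_rhs => rw [eq_vec v, hv.1, hv.2]
      rfl
  rw [Nat.card_prod, e, Nat.card_prod]
  simp

/-- The Sylow 2-subgroup. -/
noncomputable def PSub : Subgroup O where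
  carrier := Set.range phi
  mul_mem' := by
    rintro _ _ ⟨p, rfl⟩ ⟨p', rfl⟩
    obtain ⟨r, hr⟩ := phi_mul p p'
    exact ⟨r, hr.symm⟩
  one_mem' := ⟨_, phi_one⟩
  inv_mem' := by
    rintro _ ⟨⟨⟨w, hw⟩, x, y⟩, rfl⟩
    obtain ⟨r, hr⟩ := phi_mul (⟨0, mid_zero⟩, 0, y) (⟨0, mid_zero⟩, x, 0)
    obtain ⟨r', hr'⟩ := phi_mul r (⟨w, hw⟩, 0, 0)
    refine ⟨r', ?_⟩
    rw [← hr', ← hr]
    have h3 : (K3 y)⁻¹ = K3 y := inv_eq_of_mul_eq_one_right (T_mul_self _ _)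
    have h2 : (K2 x)⁻¹ = K2 x := inv_eq_of_mul_eq_one_right (T_mul_self _ _)
    have h1 : (Te w hw.bl_eV)⁻¹ = Te w hw.bl_eV := inv_eq_of_mul_eq_one_right (T_mul_self _ _)
    have h0 : Te 0 mid_zero.bl_eV = 1 := Te_zero
    simp only [phi, K2_zero, K3_zero, h0, one_mul, mul_one, mul_inv_rev, h1, h2, h3, mul_assoc]

theorem card_PSub : Nat.card PSub = 4096 := by
  rw [← card_PIdx]
  exact Nat.card_range_of_injective phi_injective

namespace Half

variable {J : Subgroup O} (hJ : Half J)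
include hJ

theorem PSub_le : PSub ≤ J := by
  rintro _ ⟨p, rfl⟩
  exact J.mul_mem (hJ.Te_mem _)
    (J.mul_mem (hJ.T_mem _ (by decide) _) (hJ.T_mem _ (by decide) _))

omit hJ in
/-- Two Siegel maps with parameters congruent modulo `eV` differ by an element at `eV`. -/
theorem T_md_left {v v' : V} (hv : q v = 0) (hvv : bl v v' = 0) (hev : bl eV v = 0)
    (hev' : bl eV v' = 0) :
    ∃ (c : V) (hc : bl eV c = 0), T v v' hv hvv =
      Te c hc * T (md v) (md v') (by rw [q_md hev, hv]) (by rw [bl_md_md hev hev', hvv]) := by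
  have hfix : ∀ {a b : V} (ha : q a = 0) (hab : bl a b = 0), bl eV a = 0 → bl eV b = 0 →
      ap (T a b ha hab) eV = eV := by
    intro a b ha hab h1 h2
    rw [ap_T, sgf_eq, h1, h2, zero_smul, mul_zero, add_zero, add_zero, zero_smul, add_zero]
  set g := T v v' hv hvv
  set g' := T (md v) (md v') (by rw [q_md hev, hv]) (by rw [bl_md_md hev hev', hvv]) with hg'
  have hge : ap g eV = eV := hfix _ _ hev hev'
  have hge' : ap g' eV = eV := hfix _ _ (by rw [bl_md, hev]) (by rw [bl_md, hev'])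
  have hbar : ∀ u, Mid u → md (ap g u) = md (ap g' u) := by
    intro u hu
    have b1 : bl u (md v) = bl u v := by rw [bl_comm u, bl_md_left hu.bl_eV, bl_comm]
    have b2 : bl u (md v') = bl u v' := by rw [bl_comm u, bl_md_left hu.bl_eV, bl_comm]
    rw [ap_T, ap_T, sgf_eq, sgf_eq, b1, b2, q_md hev']
    simp only [md_add, md_smul, md_md]
  obtain ⟨c, hc, -, he, -⟩ := eq_Te (g := g * g'⁻¹) (by
      rw [ap_mul, show g'⁻¹ = g' from inv_eq_of_mul_eq_one_right (T_mul_self _ _), hge', hge])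
    fun u hu => by
      have hinv : g'⁻¹ = g' := inv_eq_of_mul_eq_one_right (T_mul_self _ _)
      have hm : Mid (md (ap g' u)) := mid_md (bl_eV_ap hge' hu.bl_eV)
      rw [ap_mul, hinv, ← md_ap hge, hbar _ hm, md_ap hge', ← ap_mul, T_mul_self, ap_one,
        md_of_mid hu]
  exact ⟨c, hc, by rw [← he, inv_mul_cancel_right]⟩

omit hJ in
/-- A conjugate of a Siegel map with prescribed parameters modulo `eV`. -/
theorem conj_T_md {g : O} {v v' a b : V} (hv : q v = 0) (hvv : bl v v' = 0)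
    (hev : bl eV (ap g v) = 0) (hev' : bl eV (ap g v') = 0) (ha : md (ap g v) = a)
    (hb : md (ap g v') = b) (hqa : q a = 0) (hab : bl a b = 0) :
    ∃ (c : V) (hc : bl eV c = 0), g * T v v' hv hvv * g⁻¹ = Te c hc * T a b hqa hab := by
  subst ha hb
  obtain ⟨c, hc, e⟩ := T_md_left (v := ap g v) (v' := ap g v') (by rw [q_ap, hv])
    (by rw [bl_ap, hvv]) hev hev'
  exact ⟨c, hc, by rw [conj_T, e]⟩

/-- A commuting product at `eV` with a root element orthogonal to it. -/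
theorem root_conj {v v' w : V} (hv : q v = 0) (hv' : q v' = 0) (hvv : bl v v' = 0)
    (hev : bl eV v = 0) (hev' : bl eV v' = 0) (hw : bl eV w = 0) :
    ∃ g ∈ J, (∃ (c : V) (hc : bl eV c = 0),
        g * (Te w hw * T v v' hv hvv) * g⁻¹ = Te c hc) ∨
      ∃ (c : V) (hc : bl eV c = 0), g * (Te w hw * T v v' hv hvv) * g⁻¹ =
        Te c hc * T e2V e3V q_e2V (by decide) := by
  obtain ⟨c, hc, he⟩ := T_md_left hv hvv hev hev'
  set v₀ := md v
  set v₀' := md v'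
  have hv₀ : Mid v₀ := mid_md hev
  have hv₀' : Mid v₀' := mid_md hev'
  have hq₀' : q v₀' = 0 := by rw [q_md hev', hv']
  have hb : bl v₀ v₀' = 0 := by rw [bl_md_md hev hev', hvv]
  have hq₀ : q v₀ = 0 := by rw [q_md hev, hv]
  rw [he, ← mul_assoc, Te_mul]
  by_cases h0 : v₀ = 0
  · refine ⟨1, J.one_mem, Or.inl ⟨w + c, by rw [bl_add_right, hw, hc, add_zero], ?_⟩⟩
    have : T v₀ v₀' hq₀ hb = 1 := by
      refine O_ext_basis fun u hu => ?_
      rw [ap_T, h0, sgf_eq, bl_zero_right, zero_smul, smul_zero, add_zero, add_zero, ap_one]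
    rw [this, mul_one, one_mul, inv_one, mul_one]
  obtain ⟨p, hp, hpe⟩ := orbit_sing v₀ hv₀ h0 hq₀
  obtain ⟨g, hg, hge, hgx⟩ := hJ.exists_stab hp
  have hgi : ap g⁻¹ eV = eV := by conv_lhs => rw [← hge]; rw [ap_inv_ap]
  set x := md (ap g⁻¹ v₀') with hx
  have hxe : bl eV (ap g⁻¹ v₀') = 0 := bl_eV_ap hgi hv₀'.bl_eV
  have hve : bl eV (ap g⁻¹ v₀) = 0 := bl_eV_ap hgi hv₀.bl_eV
  have hmv : md (ap g⁻¹ v₀) = e2V := by
    rw [← hpe, ← hgx, md_ap hgi, ap_inv_ap, md_of_mid mid_e2V]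
  have hxq : q x = 0 := by rw [hx, q_md hxe, q_ap, hq₀']
  have hxb : bl x e2V = 0 := by rw [← hmv, hx, bl_md_md hxe hve, bl_ap, bl_comm, hb]
  have hxb' : bl e2V x = 0 := by rw [bl_comm]; exact hxb
  obtain ⟨d, hd, hTd⟩ := conj_T_md (g := g⁻¹) hq₀ hb hve hxe hmv hx.symm q_e2V hxb'
  have hwc : bl eV (w + c) = 0 := by rw [bl_add_right, hw, hc, add_zero]
  have hstep : ∀ {k : O}, k ∈ J → ap k eV = eV → ∃ (a : V) (ha : bl eV a = 0),
      k * (Te (w + c) hwc * T v₀ v₀' hq₀ hb) * k⁻¹ = Te a ha * (k * T v₀ v₀' hq₀ hb * k⁻¹) := by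
    intro k _ hke
    exact ⟨_, _, by rw [← conj_Te hke hwc]; group⟩
  obtain ⟨a, ha, e1⟩ := hstep (J.inv_mem hg) hgi
  rw [hTd, ← mul_assoc (Te a ha), Te_mul] at e1
  by_cases hx0 : x = 0 ∨ x = e2V
  · refine ⟨g⁻¹, J.inv_mem hg, Or.inl ⟨a + d, by rw [bl_add_right, ha, hd, add_zero], ?_⟩⟩
    rw [e1]
    have : T e2V x q_e2V hxb' = 1 := by
      refine O_ext_basis fun u hu => ?_
      rw [ap_T, ap_one]
      rcases hx0 with e | e <;> rw [e]
      · rw [sgf_eq, bl_zero_right, q_zero, zero_mul, add_zero, smul_zero, zero_smul, add_zero,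
          add_zero]
      · exact sgf_self _ q_e2V u hu
    rw [this, mul_one]
  push Not at hx0
  obtain ⟨p', hp', hp2, hpx⟩ := (((line_class x (mid_md hxe) hxb hxq).resolve_left hx0.1).resolve_left hx0.2)
  obtain ⟨g', hg'', hge2, hgx'⟩ := hJ.exists_stab hp'
  rw [← hgx'] at hp2 hpx
  have hb2 : bl eV (ap g' e2V) = 0 := bl_eV_ap hge2 mid_e2V.bl_eV
  have hbx : bl eV (ap g' x) = 0 := bl_eV_ap hge2 (mid_md hxe).bl_eV
  have had : bl eV (a + d) = 0 := by rw [bl_add_right, ha, hd, add_zero]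
  obtain ⟨d', hd', e2⟩ := conj_T_md (g := g') (v := e2V) (v' := x) q_e2V hxb' hb2 hbx hp2 hpx q_e2V
    (show bl e2V e3V = 0 by decide)
  refine ⟨g' * g⁻¹, J.mul_mem hg'' (J.inv_mem hg), Or.inr ⟨md (ap g' (a + d)) + d', ?_, ?_⟩⟩
  · rw [bl_add_right, bl_md, bl_eV_ap hge2 had, hd', add_zero]
  · rw [show g' * g⁻¹ * (Te (w + c) hwc * T v₀ v₀' hq₀ hb) * (g' * g⁻¹)⁻¹ =
      g' * (g⁻¹ * (Te (w + c) hwc * T v₀ v₀' hq₀ hb) * g⁻¹⁻¹) * g'⁻¹ by group, e1,
      show g' * (Te (a + d) had * T e2V x q_e2V hxb') * g'⁻¹ =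
        (g' * Te (a + d) had * g'⁻¹) *
        (g' * T e2V x q_e2V hxb' * g'⁻¹) by group, conj_Te hge2 had, e2, ← mul_assoc, Te_mul]

/-- Every involution of a subgroup of index two is conjugate in it to a Siegel transformation at
`eV` or to the product of one with the standard root element orthogonal to it. -/
theorem exists_conj_normal {j : O} (hj : j ∈ J) (h2 : j * j = 1) (h1 : j ≠ 1) :
    ∃ g ∈ J, (∃ (w : V) (hw : Mid w), w ≠ 0 ∧ g * j * g⁻¹ = Te w hw.bl_eV) ∨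
      ∃ (w : V) (hw : Mid w), bl w e2V = 0 ∧ bl w e3V = 0 ∧
        g * j * g⁻¹ = Te w hw.bl_eV * T e2V e3V q_e2V (by decide) := by
  haveI : Fact (Nat.Prime 2) := ⟨Nat.prime_two⟩
  haveI : Finite O := Nat.finite_of_card_ne_zero (by rw [card_O]; omega)
  have hcJ : Nat.card J = 174182400 := by
    have h : 2 * Nat.card J = 348364800 := hJ
    omega
  have hcP : Nat.card (PSub.subgroupOf J) = 2 ^ (Nat.card J).factorization 2 := by
    rw [Nat.card_congr (Subgroup.subgroupOfEquivOfLe (PSub_le hJ)).toEquiv, card_PSub, hcJ]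
    have h6 : (174182400 : ℕ).factorization 2 = 12 := by
      rw [Nat.factorization_def _ Nat.prime_two,
        show (174182400 : ℕ) = 2 ^ 12 * 42525 by norm_num,
        padicValNat.mul (by norm_num) (by norm_num),
        padicValNat.prime_pow, padicValNat.eq_zero_of_not_dvd (by norm_num), add_zero]
    rw [h6]
    norm_num
  let P : Sylow 2 J := Sylow.ofCard _ hcP
  have hjp : IsPGroup 2 (Subgroup.zpowers (⟨j, hj⟩ : J)) := by
    refine IsPGroup.of_card (n := 1) ?_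
    rw [Nat.card_zpowers, pow_one, orderOf_eq_prime_iff]
    exact ⟨Subtype.ext (by simpa [pow_two] using h2), fun e => h1 (congrArg Subtype.val e)⟩
  obtain ⟨P', hP'⟩ := hjp.exists_le_sylow
  obtain ⟨g, hg⟩ := MulAction.exists_smul_eq J P P'
  have hmem : (⟨j, hj⟩ : J) ∈ (g • P : Sylow 2 J) := hg ▸ hP' (Subgroup.mem_zpowers _)
  rw [← SetLike.mem_coe, Sylow.coe_smul, Set.mem_smul_set_iff_inv_smul_mem] at hmem
  have hmem' : g⁻¹ * (⟨j, hj⟩ : J) * g ∈ PSub.subgroupOf J := by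
    have := hmem
    simp [P, MulAut.smul_def] at this
    exact this
  obtain ⟨⟨⟨w, hw⟩, x, y⟩, hp⟩ : (g : O)⁻¹ * j * g ∈ PSub := hmem'
  have hsq : phi (⟨w, hw⟩, x, y) * phi (⟨w, hw⟩, x, y) = 1 := by
    rw [hp, show (g : O)⁻¹ * j * g * ((g : O)⁻¹ * j * g) = (g : O)⁻¹ * (j * j) * g by group, h2]
    group
  set k := K2 x * K3 y with hk
  have hke := ap_K23_eV x y
  -- the part acting on the middle is an involution, and a single Siegel map
  have hk2 : k * k = 1 := by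
    have e : phi (⟨w, hw⟩, x, y) * phi (⟨w, hw⟩, x, y) =
        Te w hw.bl_eV * (k * Te w hw.bl_eV * k⁻¹) * (k * k) := by simp only [phi, hk]; group
    rw [conj_Te hke hw.bl_eV, Te_mul, hsq] at e
    have hm : Mid (md (ap k w)) := mid_md (bl_eV_ap hke hw.bl_eV)
    have e' : k * k = Te (w + md (ap k w)) (hw.add hm).bl_eV := by
      rw [← inv_eq_of_mul_eq_one_right (e.symm.trans rfl)]
      exact inv_eq_of_mul_eq_one_right (T_mul_self _ _)
    have hf := congrArg (fun t => md (ap t fV + fV)) e'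
    beta_reduce at hf
    rw [show ap (k * k) fV = fV by rw [ap_mul, hk, ap_K23_fV, ap_K23_fV], vadd_self, md_zero,
      Te_param, md_of_mid (hw.add hm)] at hf
    rw [e', Te_congr hf.symm _ (bl_zero_right eV), Te_zero]
  obtain ⟨r, -, r1, r2, r3, r4, r5, r6⟩ := involution_mid x y fun u _ => by
    rw [← ap_K3, ← ap_K2, ← ap_K3, ← ap_K2, ← ap_mul, ← ap_mul, ← ap_mul, ← hk,
      show K2 x * K3 y * K2 x * K3 y = k * k by rw [hk]; group, hk2, ap_one]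
  have hkT : k = T r.1 r.2 r1 r2 :=
    O_ext_basis fun u hu => by rw [hk, ap_mul, ap_K3, ap_K2, r6 u hu, ap_T]
  obtain ⟨p, hp', hpe⟩ := orbit_sing r.1 r3 r4 r1
  obtain ⟨g1, hg1, hge, hgx⟩ := hJ.exists_stab hp'
  have hgi : ap g1⁻¹ eV = eV := by conv_lhs => rw [← hge]; rw [ap_inv_ap]
  have hv1 : bl eV (ap g1⁻¹ r.1) = 0 := bl_eV_ap hgi r3.bl_eV
  have hv2 : bl eV (ap g1⁻¹ r.2) = 0 := bl_eV_ap hgi r5.bl_eV
  have hmv : md (ap g1⁻¹ r.1) = e2V := by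
    rw [← hpe, ← hgx, md_ap hgi, ap_inv_ap, md_of_mid mid_e2V]
  set x₁ := md (ap g1⁻¹ r.2) with hx₁
  have hxb : bl e2V x₁ = 0 := by rw [← hmv, bl_md_md hv1 hv2, bl_ap, r2]
  obtain ⟨d, hd, e1⟩ := conj_T_md (g := g1⁻¹) r1 r2 hv1 hv2 hmv hx₁.symm q_e2V hxb
  have hw1 : bl eV (md (ap g1⁻¹ w)) = 0 := by rw [bl_md]; exact bl_eV_ap hgi hw.bl_eV
  set w₁ := md (md (ap g1⁻¹ w) + d) with hw₁
  have hwd : bl eV (md (ap g1⁻¹ w) + d) = 0 := by rw [bl_add_right, hw1, hd, add_zero]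
  have hw₁M : Mid w₁ := mid_md hwd
  have ej : g1⁻¹ * ((g : O)⁻¹ * j * g) * g1⁻¹⁻¹ = Te w₁ hw₁M.bl_eV * K2 (md2 x₁) := by
    have hK : T e2V x₁ q_e2V hxb = K2 (md2 x₁) := O_ext_basis fun u hu => by
      rw [ap_T, ap_K2]
      exact sgf_md2 x₁ (mid_md hv2) hxb u hu
    have hphi : (g : O)⁻¹ * j * g = Te w hw.bl_eV * T r.1 r.2 r1 r2 := by
      rw [← hkT, ← hp]; rfl
    calc g1⁻¹ * ((g : O)⁻¹ * j * g) * g1⁻¹⁻¹
        = (g1⁻¹ * Te w hw.bl_eV * g1⁻¹⁻¹) * (g1⁻¹ * T r.1 r.2 r1 r2 * g1⁻¹⁻¹) := by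
          rw [hphi]; group
      _ = Te (md (ap g1⁻¹ w)) hw1 * (Te d hd * K2 (md2 x₁)) := by
          rw [conj_Te hgi hw.bl_eV, e1, hK]
      _ = _ := by rw [← mul_assoc, Te_mul, Te_md hwd]
  have hsq' : (Te w₁ hw₁M.bl_eV * K2 (md2 x₁)) * (Te w₁ hw₁M.bl_eV * K2 (md2 x₁)) = 1 := by
    rw [← ej, show g1⁻¹ * ((g : O)⁻¹ * j * g) * g1⁻¹⁻¹ * (g1⁻¹ * ((g : O)⁻¹ * j * g) * g1⁻¹⁻¹) =
      g1⁻¹ * (g : O)⁻¹ * (j * j) * g * g1 by group, h2]
    group
  obtain ⟨s, -, s1, s2, s3, s4, s5, s6, s7, s8, s9⟩ := pair_normal w₁ hw₁M (md2 x₁) fun u _ => by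
    have := congrArg (fun t => ap t u) hsq'
    simpa only [ap_mul, Te, ap_T, ap_K2, ap_one] using this
  have es : Te w₁ hw₁M.bl_eV * K2 (md2 x₁) = T s.1.1 s.1.2 s1 s3 * T s.2.1 s.2.2 s4 s6 :=
    O_ext_basis fun u hu => by simp only [ap_mul, Te, ap_T, ap_K2]; exact s9 u hu
  obtain ⟨t, ht, hte⟩ := hJ.exists_transport s1 s2
  have hte' : ap t⁻¹ s.1.1 = eV := by rw [← hte, ap_inv_ap]
  have hw2 : bl eV (ap t⁻¹ s.1.2) = 0 := by rw [← hte', bl_ap, s3]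
  have hu1 : bl eV (ap t⁻¹ s.2.1) = 0 := by rw [← hte', bl_ap, bl_comm, s7]
  have hu2 : bl eV (ap t⁻¹ s.2.2) = 0 := by rw [← hte', bl_ap, bl_comm, s8]
  obtain ⟨t', ht', hres⟩ := hJ.root_conj (v := ap t⁻¹ s.2.1) (v' := ap t⁻¹ s.2.2) (w := ap t⁻¹ s.1.2)
    (by rw [q_ap, s4]) (by rw [q_ap, s5]) (by rw [bl_ap, s6]) hu1 hu2 hw2
  set G' := t' * t⁻¹ * g1⁻¹ * (g : O)⁻¹ with hG'
  have eG : G' * j * G'⁻¹ = t' * (Te (ap t⁻¹ s.1.2) hw2 *
      T (ap t⁻¹ s.2.1) (ap t⁻¹ s.2.2) (by rw [q_ap, s4]) (by rw [bl_ap, s6])) * t'⁻¹ := by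
    have e : Te (ap t⁻¹ s.1.2) hw2 =
        T (ap t⁻¹ s.1.1) (ap t⁻¹ s.1.2) (by rw [q_ap, s1]) (by rw [bl_ap, s3]) :=
      T_congr hte'.symm rfl _ _
    rw [e, ← conj_T t⁻¹ s1 s3, ← conj_T t⁻¹ s4 s6, hG',
      show t' * t⁻¹ * g1⁻¹ * (g : O)⁻¹ * j * (t' * t⁻¹ * g1⁻¹ * (g : O)⁻¹)⁻¹ =
        t' * (t⁻¹ * (g1⁻¹ * ((g : O)⁻¹ * j * g) * g1⁻¹⁻¹) * t⁻¹⁻¹) * t'⁻¹ by group, ej, es]
    group
  have hG : G' ∈ J :=
    J.mul_mem (J.mul_mem (J.mul_mem ht' (J.inv_mem ht)) (J.inv_mem hg1)) (J.inv_mem g.2)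
  have hne : G' * j * G'⁻¹ ≠ 1 := by simpa using h1
  have hinv : G' * j * G'⁻¹ * (G' * j * G'⁻¹) = 1 := by
    rw [show G' * j * G'⁻¹ * (G' * j * G'⁻¹) = G' * (j * j) * G'⁻¹ by group, h2]; group
  refine ⟨G', hG, ?_⟩
  rcases hres with ⟨c, hc, e⟩ | ⟨c, hc, e⟩ <;> rw [← eG] at e <;> rw [Te_md hc] at e
  · refine Or.inl ⟨md c, mid_md hc, fun h0 => hne ?_, e⟩
    rw [e, Te_congr h0 _ (bl_zero_right eV), Te_zero]
  · obtain ⟨b1, b2⟩ := root_normal (md c) (mid_md hc) fun u _ => by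
      have := congrArg (fun t => ap t u) hinv
      rw [e] at this
      simpa only [ap_mul, Te, ap_T, ap_one] using this
    exact Or.inr ⟨md c, mid_md hc, b1, b2, e⟩

end Half

theorem Half.exists_rep {J : Subgroup O} (hJ : Half J) {j : O} (hj : j ∈ J) (h2 : j * j = 1)
    (h1 : j ≠ 1) : ∃ g ∈ J, (∃ (w : V) (hw : Mid w), w ≠ 0 ∧ g * j * g⁻¹ = Te w hw.bl_eV) ∨
      (∃ w b : V, (w = e2V ∨ w = f2V ∨ w = cV) ∧ (b = e4V ∨ b = f4V) ∧
        ∀ x, ap (g * j * g⁻¹) x = sgf eV w (sgf e3V b x)) := by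
  obtain ⟨g, hg, h | ⟨w, hw, hw2, hw3, e⟩⟩ := hJ.exists_conj_normal hj h2 h1
  · exact ⟨g, hg, Or.inl h⟩
  -- move the line of the root element
  obtain ⟨p₁, hp₁, hp₁e⟩ := orbit_sing e3V mid_e3V (by decide) q_e3V
  obtain ⟨g₁, hg₁, hge₁, hgx₁⟩ := hJ.exists_stab hp₁
  rw [← hgx₁] at hp₁e
  have hgi₁ : ap g₁⁻¹ eV = eV := by conv_lhs => rw [← hge₁]; rw [ap_inv_ap]
  set x := md (ap g₁⁻¹ e4V) with hx
  have hxe : bl eV (ap g₁⁻¹ e4V) = 0 := bl_eV_ap hgi₁ mid_e4V.bl_eV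
  have hi3 : md (ap g₁⁻¹ e3V) = e2V := by
    rw [← hp₁e, md_ap hgi₁, ap_inv_ap, md_of_mid mid_e2V]
  have hb3 : bl eV (ap g₁⁻¹ e3V) = 0 := bl_eV_ap hgi₁ mid_e3V.bl_eV
  have hxb : bl x e2V = 0 := by rw [← hi3, hx, bl_md_md hxe hb3, bl_ap]; decide
  have hxq : q x = 0 := by rw [hx, q_md hxe, q_ap]; decide
  have hback : md (ap g₁ x) = e4V := by rw [hx, md_ap hge₁, ap_ap_inv, md_of_mid mid_e4V]
  obtain ⟨p₂, hp₂, hp₂a, hp₂b⟩ : ∃ p ∈ stabPairs, md (pf p e2V) = e2V ∧ md (pf p x) = e3V := by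
    rcases line_class x (mid_md hxe) hxb hxq with h0 | h0 | h0
    · rw [h0, ap_zero, md_zero] at hback; exact absurd hback (by decide)
    · rw [h0, hp₁e] at hback; exact absurd hback (by decide)
    · exact h0
  obtain ⟨g₂, hg₂, hge₂, hgx₂⟩ := hJ.exists_stab hp₂
  rw [← hgx₂] at hp₂a hp₂b
  have hgi₂ : ap g₂⁻¹ eV = eV := by conv_lhs => rw [← hge₂]; rw [ap_inv_ap]
  set k := g₁ * g₂⁻¹ with hk
  have hke : ap k eV = eV := by rw [hk, ap_mul, hgi₂, hge₁]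
  have hk2 : md (ap k e2V) = e3V := by
    have h' : md (ap g₂⁻¹ e2V) = e2V := by
      conv_lhs => rw [← hp₂a, md_ap hgi₂, ap_inv_ap]
      exact md_of_mid mid_e2V
    rw [hk, ap_mul, ← md_ap hge₁, h', hp₁e]
  have hk3 : md (ap k e3V) = e4V := by
    have h' : md (ap g₂⁻¹ e3V) = x := by
      rw [← hp₂b, md_ap hgi₂, ap_inv_ap, md_of_mid (mid_md hxe)]
    rw [hk, ap_mul, ← md_ap hge₁, h', hback]
  have hb2 : bl eV (ap k e2V) = 0 := bl_eV_ap hke mid_e2V.bl_eV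
  have hb3' : bl eV (ap k e3V) = 0 := bl_eV_ap hke mid_e3V.bl_eV
  have hqe3 : bl e3V e4V = 0 := by decide
  obtain ⟨c, hc, e1⟩ := Half.conj_T_md (g := k) (v := e2V) (v' := e3V) q_e2V (by decide)
    hb2 hb3' hk2 hk3 q_e3V hqe3
  have hG : k * g ∈ J := J.mul_mem (J.mul_mem hg₁ (J.inv_mem hg₂)) hg
  have hwk : bl eV (md (ap k w) + c) = 0 := by
    rw [bl_add_right, bl_md, bl_eV_ap hke hw.bl_eV, hc, add_zero]
  set v := md (md (ap k w) + c)
  have hv : Mid v := mid_md hwk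
  have eG : k * g * j * (k * g)⁻¹ = Te v hv.bl_eV * T e3V e4V q_e3V hqe3 := by
    rw [show k * g * j * (k * g)⁻¹ = k * (g * j * g⁻¹) * k⁻¹ by group, e,
      show k * (Te w hw.bl_eV * T e2V e3V q_e2V (by decide)) * k⁻¹ =
        (k * Te w hw.bl_eV * k⁻¹) * (k * T e2V e3V q_e2V (by decide) * k⁻¹) by group, conj_Te hke hw.bl_eV, e1,
      ← mul_assoc, Te_mul, Te_md hwk]
  have hfix : ap (T e3V e4V q_e3V hqe3) eV = eV := by rw [ap_T]; decide
  obtain ⟨hv3, hv4⟩ : bl v e3V = 0 ∧ bl v e4V = 0 := by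
    have hsq : k * g * j * (k * g)⁻¹ * (k * g * j * (k * g)⁻¹) = 1 := by
      rw [show k * g * j * (k * g)⁻¹ * (k * g * j * (k * g)⁻¹) = k * g * (j * j) * (k * g)⁻¹ by
        group, h2]
      group
    rw [eG, show Te v hv.bl_eV * T e3V e4V q_e3V hqe3 * (Te v hv.bl_eV * T e3V e4V q_e3V hqe3) =
      Te v hv.bl_eV * (T e3V e4V q_e3V hqe3 * Te v hv.bl_eV * (T e3V e4V q_e3V hqe3)⁻¹) *
        (T e3V e4V q_e3V hqe3 * T e3V e4V q_e3V hqe3) by group, T_mul_self, mul_one,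
      conj_Te hfix, Te_mul, ← Te_zero, Te_eq_iff, md_zero, md_add, md_md, ap_T, sgf_eq,
      show q e4V = 0 by decide, zero_mul, add_zero] at hsq
    simp only [md_add, md_smul, md_md, md_of_mid mid_e3V, md_of_mid mid_e4V] at hsq
    have hvv : md (ap k w) + md c = v := by simp only [v, md_add, md_md]
    rw [hvv, md_of_mid hv, ← add_assoc, ← add_assoc, vadd_self, zero_add] at hsq
    have p4 := congrFun hsq (.inl 3)
    have p3 := congrFun hsq (.inl 2)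
    simp [e3V, e4V, vec] at p3 p4
    exact ⟨p4, p3⟩
  obtain ⟨hr, u, -, hu, hru, hx'⟩ := rep_split v hv hv3 hv4
  have hr0 : bl eV (repPart v) = 0 := by
    rcases hr with h | h | h | h <;> rw [h] <;> decide
  have e2 : Te u hu * (k * g * j * (k * g)⁻¹) * (Te u hu)⁻¹ =
      Te (repPart v) hr0 * T e3V e4V q_e3V hqe3 := by
    have hinv : (Te u hu)⁻¹ = Te u hu := inv_eq_of_mul_eq_one_right (T_mul_self _ _)
    have e3 : Te v hv.bl_eV * T e3V e4V q_e3V hqe3 =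
        Te (repPart v) hr0 * (Te u hu * (T e3V e4V q_e3V hqe3 * Te u hu)) :=
      O_ext_basis fun x hx => by simp only [ap_mul, Te, ap_T]; exact hx' x hx
    have hcu : Te u hu * Te (repPart v) hr0 = Te (repPart v) hr0 * Te u hu := by
      rw [Te_mul, Te_mul]; exact Te_congr (add_comm _ _) _ _
    rw [eG, e3, hinv, ← mul_assoc, hcu]
    calc Te (repPart v) hr0 * Te u hu * (Te u hu * (T e3V e4V q_e3V hqe3 * Te u hu)) * Te u hu
        = Te (repPart v) hr0 * (Te u hu * Te u hu) * T e3V e4V q_e3V hqe3 * (Te u hu * Te u hu) := by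
          group
      _ = _ := by rw [show Te u hu * Te u hu = 1 from T_mul_self _ _, mul_one, mul_one]
  have hG' : Te u hu * (k * g) ∈ J := J.mul_mem (hJ.Te_mem hu) hG
  rcases hr with h0 | hr
  · obtain ⟨t, ht, hte⟩ := hJ.exists_transport q_e3V (by decide)
    have hti : ap t⁻¹ e3V = eV := by rw [← hte, ap_inv_ap]
    have h4 : bl eV (ap t⁻¹ e4V) = 0 := by rw [← hti, bl_ap, hqe3]
    have e4 : t⁻¹ * (Te u hu * (k * g)) * j * (t⁻¹ * (Te u hu * (k * g)))⁻¹ =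
        Te (md (ap t⁻¹ e4V)) (by rw [bl_md, h4]) := by
      have h5 : Te (repPart v) hr0 = 1 := by rw [Te_congr h0 _ (bl_zero_right eV), Te_zero]
      rw [h5, one_mul] at e2
      rw [show t⁻¹ * (Te u hu * (k * g)) * j * (t⁻¹ * (Te u hu * (k * g)))⁻¹ =
        t⁻¹ * (Te u hu * (k * g * j * (k * g)⁻¹) * (Te u hu)⁻¹) * t⁻¹⁻¹ by group, e2, conj_T,
        ← Te_md h4, Te]
      exact T_congr hti rfl _ _
    refine ⟨_, J.mul_mem (J.inv_mem ht) hG', Or.inl ⟨_, mid_md h4, fun h0' => h1 ?_, e4⟩⟩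
    rw [Te_congr h0' _ (bl_zero_right eV), Te_zero, conj_eq_one_iff] at e4
    exact e4
  · refine ⟨_, hG', Or.inr ⟨repPart v, e4V, hr, Or.inl rfl, fun x => ?_⟩⟩
    rw [show Te u hu * (k * g) * j * (Te u hu * (k * g))⁻¹ =
      Te u hu * (k * g * j * (k * g)⁻¹) * (Te u hu)⁻¹ by group, e2, ap_mul, Te, ap_T, ap_T]

end CfsgLib.ConwayType
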