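import Cfsg.Agent.Lib.ConwayType.Space

/-!
Finite facts about Siegel maps used to bring involutions of the orthogonal group into normal form.
-/

set_option autoImplicit false
set_option maxRecDepth 100000
set_option synthInstance.maxSize 1000
set_option maxHeartbeats 1000000

namespace CfsgLib.ConwayType

attribute [local instance 10000] List.decidableBAll List.decidableBEx

open CfsgLib.ClassicalForms

/-! ### Coordinates for a Sylow 2-subgroup -/

/-- A vector orthogonal to the first two hyperbolic pairs. -/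
def sixV (x : Fin 4 → ZMod 2) : V := vec 0 0 (x 0) (x 1) 0 0 (x 2) (x 3)

/-- A vector orthogonal to the first three hyperbolic pairs. -/
def twoV (y : Fin 2 → ZMod 2) : V := vec 0 0 0 (y 0) 0 0 0 (y 1)

theorem sixV_spec : ∀ x, bl e2V (sixV x) = 0 ∧ Mid (sixV x) ∧
    (∀ u ∈ [eV, fV], sgf e2V (sixV x) u = u) := by decide +kernel

theorem twoV_spec : ∀ y, bl e3V (twoV y) = 0 ∧ Mid (twoV y) ∧
    (∀ u ∈ [eV, fV, e2V, f2V], sgf e3V (twoV y) u = u) := by decide +kernel

theorem sixV_param : ∀ x x', (sgf e2V (sixV x) f2V = sgf e2V (sixV x') f2V) → x = x' := by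
  decide +kernel

theorem twoV_param : ∀ y y', (sgf e3V (twoV y) f3V = sgf e3V (twoV y') f3V) → y = y' := by
  decide +kernel

theorem sgf_three_six : ∀ y x, ∃ x', sgf e3V (twoV y) (sixV x) = sixV x' := by decide +kernel

theorem sixV_add : ∀ x x', sixV x + sixV x' = sixV (x + x') := by decide +kernel

theorem twoV_add : ∀ y y', twoV y + twoV y' = twoV (y + y') := by decide +kernel

/-- Candidates for rewriting a product of two Siegel maps fixing `eV` and `fV` as one. -/
def midCands (x y : V) : List (V × V) :=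
  [(e2V, x), (e3V, y), (e3V, e2V + y), (e2V + e3V, x + e3V), (e2V + e3V, x)]

theorem involution_mid : ∀ x y,
    (∀ u ∈ basisList, sgf e2V (sixV x) (sgf e3V (twoV y)
        (sgf e2V (sixV x) (sgf e3V (twoV y) u))) = u) →
    ∃ p ∈ midCands (sixV x) (twoV y), q p.1 = 0 ∧ bl p.1 p.2 = 0 ∧ Mid p.1 ∧ p.1 ≠ 0 ∧ Mid p.2 ∧
      ∀ u ∈ basisList, sgf e2V (sixV x) (sgf e3V (twoV y) u) = sgf p.1 p.2 u := by
  decide +kernel

/-- The part of a vector orthogonal to `e2V` away from `e2V`. -/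
def md2 (v : V) : Fin 4 → ZMod 2 :=
  ![v (.inl 2), v (.inl 3), v (.inr 2), v (.inr 3)]

theorem sgf_md2 : ∀ v : V, Mid v → bl e2V v = 0 →
    ∀ u ∈ basisList, sgf e2V v u = sgf e2V (sixV (md2 v)) u := by
  rw [forall_mid]; decide +kernel

/-- Candidates for a product of two commuting Siegel maps with a singular second parameter. -/
def pairCands (w c : V) : List ((V × V) × (V × V)) :=
  [((eV, w), (e2V, c)), ((e2V, c), (eV, w)), ((eV + e2V, w), (e2V, c + w + eV))]

theorem pair_normal : ∀ w : V, Mid w → ∀ x,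
    (∀ u ∈ basisList, sgf eV w (sgf e2V (sixV x) (sgf eV w (sgf e2V (sixV x) u))) = u) →
    ∃ p ∈ pairCands w (sixV x), q p.1.1 = 0 ∧ p.1.1 ≠ 0 ∧ bl p.1.1 p.1.2 = 0 ∧ q p.2.1 = 0 ∧
      q p.2.2 = 0 ∧ bl p.2.1 p.2.2 = 0 ∧ bl p.2.1 p.1.1 = 0 ∧ bl p.2.2 p.1.1 = 0 ∧
      ∀ u ∈ basisList, sgf eV w (sgf e2V (sixV x) u) = sgf p.1.1 p.1.2 (sgf p.2.1 p.2.2 u) := by
  rw [forall_mid]
  intro b c d
  rcases (show ∀ t : ZMod 2, t = 0 ∨ t = 1 by decide) b with rfl | rfl <;>
    rcases (show ∀ t : ZMod 2, t = 0 ∨ t = 1 by decide) c with rfl | rfl <;>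
    rcases (show ∀ t : ZMod 2, t = 0 ∨ t = 1 by decide) d with rfl | rfl <;>
    decide +kernel

theorem root_normal : ∀ w : V, Mid w →
    (∀ u ∈ basisList, sgf eV w (sgf e2V e3V (sgf eV w (sgf e2V e3V u))) = u) →
    bl w e2V = 0 ∧ bl w e3V = 0 := by
  rw [forall_mid]; decide +kernel

theorem sgf_self : ∀ v : V, q v = 0 → ∀ u ∈ basisList, sgf v v u = u := by
  rw [forall_vec]; decide +kernel

/-- The part of a middle vector orthogonal to `e3V` and `e4V` away from their span. -/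
def repPart (v : V) : V := vec 0 (v (.inl 1)) 0 0 0 (v (.inr 1)) 0 0

theorem rep_split : ∀ v : V, Mid v → bl v e3V = 0 → bl v e4V = 0 →
    (repPart v = 0 ∨ repPart v = e2V ∨ repPart v = f2V ∨ repPart v = cV) ∧
      ∃ u ∈ [(0 : V), f3V, f4V, f3V + f4V], bl eV u = 0 ∧ bl (repPart v) u = 0 ∧
        ∀ x ∈ basisList, sgf eV v (sgf e3V e4V x) =
          sgf eV (repPart v) (sgf eV u (sgf e3V e4V (sgf eV u x))) := by
  rw [forall_mid]; decide +kernel

end CfsgLib.ConwayType
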