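import Cfsg.Agent.Lib.ConwayType.Swap
import Cfsg.Agent.Lib.ConwayType.Count
import Cfsg.Agent.Lib.ConwayType.Involutions

/-!
Every involution of the centraliser of `z` is conjugate to `z` or to one of two representatives.
-/

set_option autoImplicit false
set_option linter.unusedSectionVars false

namespace CfsgLib.ConwayType

open CfsgLib.ExtraspecialLarge

variable {G : Type*} [Group G] [Finite G]
variable {z : G} {Qf : G → Subgroup G} {θ : G → V} {ρ : G → O} {J : Subgroup O} {y h : G}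

namespace PairSetting

variable (P : PairSetting z Qf θ ρ J y h) {s₀ u₀ s₁ u₁ : G}
include P

/-- An involution of `Qf z` is conjugate to `z`. -/
theorem isConj_of_mem {i : G} (hi : i ∈ Qf z) (h2 : i * i = 1) (h1 : i ≠ 1) : IsConj i z := by
  obtain ⟨c, -, hc | hc⟩ := P.Q_cases hi h2 h1
  · exact isConj_iff.2 ⟨c, hc⟩
  · exact (isConj_iff.2 ⟨c, hc⟩).trans (isConj_iff.2 ⟨h, P.hy⟩)

variable (T0 : IsRep z Qf θ ρ y cV uV s₀ u₀) (T1 : IsRep z Qf θ ρ y e2V e3V s₁ u₁)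
include T0 T1

/-- An involution over a Siegel transformation at `eV`. -/
theorem isConj_over_Te {i : G} {w : V} (hw : bl eV w = 0) (hiz : i * z = z * i)
    (hi2 : i * i = 1) (hi1 : i ≠ 1) (hρ : ρ i = Te w hw) :
    IsConj i z ∨ IsConj i (s₁ * u₁) ∨ IsConj i (s₀ * u₀) := by
  rw [Te_md hw] at hρ
  by_cases h0 : md w = 0
  · refine Or.inl (P.isConj_of_mem ((P.ρ_ker i hiz).1 ?_) hi2 hi1)
    rw [hρ, Te_congr h0 _ (bl_zero_right eV), Te_zero]
  obtain ⟨c, -, ⟨hWy, -, -⟩ | hc | hc⟩ := P.over_Te T0 T1 (mid_md hw) h0 hiz hi2 hρ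
  · left
    have hW := P.Wy_to_W hWy
    obtain ⟨h2, h1⟩ := P.toSetting.conj_involution (c := c) hi2 hi1
    obtain ⟨h2', h1'⟩ := P.toSetting.conj_involution (c := h) h2 h1
    exact ((isConj_iff.2 ⟨c, rfl⟩).trans (isConj_iff.2 ⟨h, rfl⟩)).trans
      (P.isConj_of_mem hW.1 h2' h1')
  · exact Or.inr (Or.inl (isConj_iff.2 ⟨c, hc⟩))
  · exact Or.inr (Or.inr (isConj_iff.2 ⟨c, hc⟩))

/-- An involution over a root map. -/
theorem isConj_over_T {i : G} {v p : V} (hv : q v = 0) (hp : bl v p = 0) (hv0 : v ≠ 0)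
    (hiz : i * z = z * i) (hi2 : i * i = 1) (hi1 : i ≠ 1) (hρ : ρ i = T v p hv hp) :
    IsConj i z ∨ IsConj i (s₁ * u₁) ∨ IsConj i (s₀ * u₀) := by
  obtain ⟨g, hg, hge⟩ := P.half.exists_transport hv hv0
  obtain ⟨c, hc, hρc⟩ := P.ρ_surj _ (J.inv_mem hg)
  obtain ⟨h2, h1⟩ := P.toSetting.conj_involution (c := c) hi2 hi1
  have hw : bl eV (ap g⁻¹ p) = 0 := by rw [← bl_ap g, hge, ap_ap_inv, hp]
  have hρ' : ρ (c * i * c⁻¹) = Te (ap g⁻¹ p) hw := by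
    rw [P.toSetting.ρ_conj hc hiz, hρc, hρ, conj_T, Te]
    exact T_congr (by rw [← hge, ap_inv_ap]) rfl _ _
  have hci : IsConj i (c * i * c⁻¹) := isConj_iff.2 ⟨c, rfl⟩
  rcases P.isConj_over_Te T0 T1 hw (comm_mul (comm_mul hc hiz) (comm_inv hc)) h2 h1 hρ'
    with e | e | e
  exacts [Or.inl (hci.trans e), Or.inr (Or.inl (hci.trans e)), Or.inr (Or.inr (hci.trans e))]

/-- The classes of involutions. -/
theorem isConj_cases {i : G} (hiz : i * z = z * i) (hi2 : i * i = 1) (hi1 : i ≠ 1) :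
    IsConj i z ∨ IsConj i (s₁ * u₁) ∨ IsConj i (s₀ * u₀) := by
  by_cases hQ : i ∈ Qf z
  · exact Or.inl (P.isConj_of_mem hQ hi2 hi1)
  have hj2 : ρ i * ρ i = 1 := by rw [← P.toSetting.ρ_mul hiz hiz, hi2, P.toSetting.ρ_one]
  have hj1 : ρ i ≠ 1 := fun e => hQ ((P.ρ_ker i hiz).1 e)
  obtain ⟨g, hg, hcase⟩ := P.half.exists_rep (P.ρ_mem i hiz) hj2 hj1
  obtain ⟨c, hc, hρc⟩ := P.ρ_surj g hg
  obtain ⟨h2, h1⟩ := P.toSetting.conj_involution (c := c) hi2 hi1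
  have hcz : c * i * c⁻¹ * z = z * (c * i * c⁻¹) := comm_mul (comm_mul hc hiz) (comm_inv hc)
  have hρ' : ρ (c * i * c⁻¹) = g * ρ i * g⁻¹ := by rw [P.toSetting.ρ_conj hc hiz, hρc]
  have hci : IsConj i (c * i * c⁻¹) := isConj_iff.2 ⟨c, rfl⟩
  suffices H : IsConj (c * i * c⁻¹) z ∨ IsConj (c * i * c⁻¹) (s₁ * u₁) ∨
      IsConj (c * i * c⁻¹) (s₀ * u₀) by
    rcases H with e | e | e
    exacts [Or.inl (hci.trans e), Or.inr (Or.inl (hci.trans e)), Or.inr (Or.inr (hci.trans e))]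
  rcases hcase with ⟨w, hw, -, he⟩ | ⟨w, b, hw, hb, he⟩
  · exact P.isConj_over_Te T0 T1 hw.bl_eV hcz h2 h1 (hρ'.trans he)
  · obtain ⟨w', F⟩ := exists_frame hw hb
    obtain ⟨k, hkz, v, p, hv, hp, hv0, hk⟩ := P.swap_root F hcz h2 (fun x => by rw [hρ', he x])
    obtain ⟨k2, k1⟩ := P.toSetting.conj_involution (c := k) h2 h1
    have hki : IsConj (c * i * c⁻¹) (k * (c * i * c⁻¹) * k⁻¹) := isConj_iff.2 ⟨k, rfl⟩
    rcases P.isConj_over_T T0 T1 hv hp hv0 hkz k2 k1 hk with e | e | e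
    exacts [Or.inl (hki.trans e), Or.inr (Or.inl (hki.trans e)), Or.inr (Or.inr (hki.trans e))]

end PairSetting

end CfsgLib.ConwayType
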