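import Cfsg.Agent.Lib.ConwayType.Model
import Cfsg.Agent.Lib.ClassicalForms.Ortho.POmegaCard

/-!
The orthogonal group of plus type in dimension eight over the field with two elements and a
subgroup of index two: Siegel transformations, involutions, stabilisers of a singular vector.
-/

set_option autoImplicit false
set_option maxRecDepth 100000
set_option synthInstance.maxSize 1000

namespace CfsgLib.ConwayType

open CfsgLib.ClassicalForms

/-- Nonsingular vectors orthogonal to the first pair. -/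
def midNonsing : List V := [vec 0 1 0 0 0 1 0 0, vec 0 1 1 0 0 0 1 0, vec 0 0 1 0 0 1 1 0]

/-- Vectors linking nonsingular vectors to `cV`. -/
def linkList : List V := [vec 1 1 0 0 1 0 0 0, vec 1 1 1 0 1 0 0 0, vec 0 1 1 0 0 0 1 0, vec 1 1 1 0 0 0 1 0, vec 1 1 0 0 1 0 1 0, vec 1 1 0 1 1 0 0 0]

/-- The quadratic form. -/
abbrev qM : QuadraticForm (ZMod 2) V := qPlus 4 (ZMod 2)

theorem qM_apply (v : V) : qM v = q v := by
  rw [qPlus_apply, Cfsg.quadFormPlus, q, Fin.sum_univ_four]

theorem qM_eq_quadForm (v : V) : Cfsg.quadFormPlus 4 (ZMod 2) v = q v := by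
  rw [← qPlus_apply, qM_apply]

theorem q_add (u v : V) : q (u + v) = q u + q v + bl u v := by
  simp only [q, bl, Pi.add_apply]
  ring

theorem polar_qM (u v : V) : QuadraticMap.polar qM u v = bl u v := by
  simp only [QuadraticMap.polar, qM_apply, q_add]
  ring

theorem z2_cases : ∀ t : ZMod 2, t = 0 ∨ t = 1 := by decide

theorem vadd_self (v : V) : v + v = 0 := funext fun i => CharTwo.add_self_eq_zero (v i)

theorem vneg (v : V) : -v = v := funext fun i => CharTwo.neg_eq (v i)

theorem vsub (u v : V) : u - v = u + v := by rw [sub_eq_add_neg, vneg]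

theorem vadd_eq_zero {u v : V} : u + v = 0 ↔ u = v := by rw [← vsub, sub_eq_zero]

theorem bl_comm (u v : V) : bl u v = bl v u := by simp only [bl]; ring

theorem bl_add_left (u u' v : V) : bl (u + u') v = bl u v + bl u' v := by
  simp only [bl, Pi.add_apply]; ring

theorem bl_add_right (u v v' : V) : bl u (v + v') = bl u v + bl u v' := by
  simp only [bl, Pi.add_apply]; ring

theorem bl_smul_left (c : ZMod 2) (u v : V) : bl (c • u) v = c * bl u v := by
  simp only [bl, Pi.smul_apply, smul_eq_mul]; ring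

theorem bl_smul_right (c : ZMod 2) (u v : V) : bl u (c • v) = c * bl u v := by
  rw [bl_comm, bl_smul_left, bl_comm]

theorem bl_self (u : V) : bl u u = 0 := by
  have : bl u u = 2 * (q u) := by simp only [bl, q]; ring
  rw [this, show (2 : ZMod 2) = 0 from rfl, zero_mul]

@[simp] theorem bl_zero_left (v : V) : bl 0 v = 0 := by simp [bl]
@[simp] theorem bl_zero_right (v : V) : bl v 0 = 0 := by simp [bl]
@[simp] theorem q_zero : q (0 : V) = 0 := by simp [q]

/-- The isometry group. -/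
abbrev O : Subgroup (V ≃ₗ[ZMod 2] V) := orth qM

/-- Application. -/
abbrev ap (g : O) (v : V) : V := (g : V ≃ₗ[ZMod 2] V) v

theorem ap_mul (g h : O) (v : V) : ap (g * h) v = ap g (ap h v) := rfl

theorem ap_one (v : V) : ap 1 v = v := rfl

theorem ap_inv_ap (g : O) (v : V) : ap g⁻¹ (ap g v) = v := orth_inv_apply g v

theorem ap_ap_inv (g : O) (v : V) : ap g (ap g⁻¹ v) = v := orth_apply_inv g v

theorem ap_inj (g : O) {u v : V} (h : ap g u = ap g v) : u = v :=
  (g : V ≃ₗ[ZMod 2] V).injective h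

theorem ap_add (g : O) (u v : V) : ap g (u + v) = ap g u + ap g v := map_add _ u v

theorem ap_smul (g : O) (c : ZMod 2) (v : V) : ap g (c • v) = c • ap g v := map_smul _ c v

theorem ap_zero (g : O) : ap g 0 = 0 := map_zero _

theorem q_ap (g : O) (v : V) : q (ap g v) = q v := by
  rw [← qM_apply, ← qM_apply]; exact orth_apply g v

theorem bl_ap (g : O) (u v : V) : bl (ap g u) (ap g v) = bl u v := by
  rw [← polar_qM, ← polar_qM]; exact polar_apply g u v

theorem vec_decomp (v : V) : v = v (.inl 0) • eV + v (.inl 1) • e2V + v (.inl 2) • e3V + v (.inl 3) • e4V +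
    v (.inr 0) • fV + v (.inr 1) • f2V + v (.inr 2) • f3V + v (.inr 3) • f4V := by
  funext i
  rcases i with i | i <;> fin_cases i <;> simp [eV, e2V, fV, f2V, e3V, f3V, e4V, f4V, vec]

theorem O_ext_basis {g h : O} (e : ∀ x ∈ basisList, ap g x = ap h x) : g = h := by
  refine orth_ext fun v => ?_
  change ap g v = ap h v
  rw [vec_decomp v]
  simp only [ap_add, ap_smul]
  rw [e eV (by simp [basisList]), e e2V (by simp [basisList]), e fV (by simp [basisList]),
    e f2V (by simp [basisList]), e e3V (by simp [basisList]), e f3V (by simp [basisList]),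
    e e4V (by simp [basisList]), e f4V (by simp [basisList])]

/-! ### Reflections and Siegel transformations -/

theorem qM_ne {a : V} (ha : q a = 1) : qM a ≠ 0 := by rw [qM_apply, ha]; exact one_ne_zero

/-- A reflection. -/
noncomputable def R (a : V) (ha : q a = 1) : O := refl qM a (qM_ne ha)

theorem rf_eq (a x : V) : rf a x = x + bl x a • a := rfl

theorem ap_R (a : V) (ha : q a = 1) (x : V) : ap (R a ha) x = rf a x := by
  rw [ap, R, refl_apply, polar_qM, qM_apply, ha, inv_one, one_mul, vsub]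
  rfl

theorem R_congr {a b : V} (h : a = b) (ha : q a = 1) (hb : q b = 1) : R a ha = R b hb := by
  subst h; rfl

theorem sgf_eq (v w x : V) : sgf v w x = x + bl x v • w + (bl x w + q w * bl x v) • v := rfl

/-- A Siegel transformation. -/
noncomputable def T (v w : V) (hv : q v = 0) (hw : bl v w = 0) : O :=
  siegel qM v w (by rw [qM_apply, hv]) (by rw [polar_qM, hw])

theorem ap_T (v w : V) (hv : q v = 0) (hw : bl v w = 0) (x : V) : ap (T v w hv hw) x = sgf v w x := by
  rw [ap, T, siegel_apply, polar_qM, polar_qM, qM_apply, vsub]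
  rfl

theorem T_congr {v v' w w' : V} (h1 : v = v') (h2 : w = w') (hv : q v = 0) (hw : bl v w = 0) :
    T v w hv hw = T v' w' (h1 ▸ hv) (h1 ▸ h2 ▸ hw) := by
  subst h1; subst h2; rfl

theorem T_mul {v w w' : V} (hv : q v = 0) (hw : bl v w = 0) (hw' : bl v w' = 0) :
    T v w hv hw * T v w' hv hw' =
      T v (w + w') hv (by rw [bl_add_right, hw, hw', add_zero]) :=
  siegel_mul _ _ _

theorem T_zero {v : V} (hv : q v = 0) : T v 0 hv (bl_zero_right v) = 1 := siegel_zero _

theorem T_mul_self {v w : V} (hv : q v = 0) (hw : bl v w = 0) : T v w hv hw * T v w hv hw = 1 := by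
  rw [T_mul hv hw hw, T_congr rfl (vadd_self w)]
  exact T_zero hv

theorem conj_T (g : O) {v w : V} (hv : q v = 0) (hw : bl v w = 0) :
    g * T v w hv hw * g⁻¹ = T (ap g v) (ap g w) (by rw [q_ap, hv]) (by rw [bl_ap, hw]) := by
  refine orth_ext fun x => ?_
  change ap (g * T v w hv hw * g⁻¹) x = ap (T _ _ _ _) x
  rw [ap_mul, ap_mul, ap_T, ap_T, sgf_eq, sgf_eq, ap_add, ap_add, ap_smul, ap_smul, ap_ap_inv, q_ap]
  have e : ∀ u, bl x (ap g u) = bl (ap g⁻¹ x) u := fun u => by
    rw [← bl_ap g (ap g⁻¹ x) u, ap_ap_inv]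
  rw [e, e]

/-! ### The singular vector `eV` -/

theorem q_eV : q eV = 0 := by decide
theorem bl_e_f : bl eV fV = 1 := by decide
theorem q_cV : q cV = 1 := by decide
theorem q_uV : q uV = 1 := by decide
theorem q_e2V : q e2V = 0 := by decide
theorem q_e3V : q e3V = 0 := by decide
theorem bl_c_u : bl cV uV = 1 := by decide

theorem bl_md (v : V) : bl eV (md v) = bl eV v := by simp [bl, eV, md, vec]

theorem Mid.bl_eV {v : V} (h : Mid v) : bl eV v = 0 := by simp [bl, eV, vec, h.2]

theorem md_decomp (v : V) : v = md v + v (.inl 0) • eV := by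
  funext i
  rcases i with i | i <;> fin_cases i <;> simp [eV, md, vec]

theorem md_add (u v : V) : md (u + v) = md u + md v := by
  funext i
  rcases i with i | i <;> fin_cases i <;> simp [md, vec]

theorem md_smul (c : ZMod 2) (v : V) : md (c • v) = c • md v := by
  funext i
  rcases i with i | i <;> fin_cases i <;> simp [md, vec]

theorem md_eV : md eV = 0 := by decide

theorem md_zero : md (0 : V) = 0 := by decide

theorem md_md (v : V) : md (md v) = md v := by
  funext i
  rcases i with i | i <;> fin_cases i <;> simp [md, vec]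

theorem md_of_mid {v : V} (h : Mid v) : md v = v := by
  conv_rhs => rw [eq_vec v, h.1]
  rfl

theorem mid_md {v : V} (h : bl eV v = 0) : Mid (md v) := by
  refine ⟨rfl, ?_⟩
  simpa [bl, eV, md, vec] using h

theorem mid_zero : Mid (0 : V) := ⟨rfl, rfl⟩
theorem mid_cV : Mid cV := ⟨rfl, rfl⟩
theorem mid_uV : Mid uV := ⟨rfl, rfl⟩
theorem mid_e3V : Mid e3V := ⟨rfl, rfl⟩
theorem mid_f3V : Mid f3V := ⟨rfl, rfl⟩
theorem mid_e4V : Mid e4V := ⟨rfl, rfl⟩
theorem mid_f4V : Mid f4V := ⟨rfl, rfl⟩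
theorem mid_e2V : Mid e2V := ⟨rfl, rfl⟩
theorem mid_f2V : Mid f2V := ⟨rfl, rfl⟩

theorem Mid.add {u v : V} (hu : Mid u) (hv : Mid v) : Mid (u + v) :=
  ⟨by simp [hu.1, hv.1], by simp [hu.2, hv.2]⟩

theorem bl_eV_of_eq {v u : V} (h : md v = md u) : bl eV v = bl eV u := by
  rw [← bl_md v, h, bl_md]

theorem q_md {v : V} (h : bl eV v = 0) : q (md v) = q v := by
  conv_rhs => rw [md_decomp v, q_add]
  rcases z2_cases (v (.inl 0)) with e | e <;> rw [e]
  · simp
  · rw [one_smul, q_eV, bl_comm (md v) eV, bl_md, h, add_zero, add_zero]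

theorem bl_md_left {u v : V} (h : bl eV v = 0) : bl (md u) v = bl u v := by
  conv_rhs => rw [md_decomp u, bl_add_left, bl_smul_left, h, mul_zero, add_zero]

theorem bl_md_md {u v : V} (hu : bl eV u = 0) (hv : bl eV v = 0) : bl (md u) (md v) = bl u v := by
  rw [bl_md_left (by rw [bl_md, hv]), bl_comm, bl_md_left hu, bl_comm]

/-- The Siegel transformation at `eV`. -/
noncomputable def Te (w : V) (hw : bl eV w = 0) : O := T eV w q_eV hw

theorem Te_congr {w w' : V} (h : w = w') (hw : bl eV w = 0) (hw' : bl eV w' = 0) :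
    Te w hw = Te w' hw' := by
  subst h; rfl

theorem sgf_shift : ∀ w : V, Mid w → ∀ x ∈ basisList, sgf eV (w + eV) x = sgf eV w x := by
  rw [forall_mid]; decide +kernel

theorem Te_md {w : V} (hw : bl eV w = 0) : Te w hw = Te (md w) (by rw [bl_md, hw]) := by
  refine O_ext_basis fun x hx => ?_
  simp only [Te, ap_T]
  conv_lhs => rw [md_decomp w]
  rcases z2_cases (w (.inl 0)) with e | e <;> rw [e]
  · simp
  · rw [one_smul]
    exact sgf_shift _ (mid_md hw) x hx

theorem Te_mul {w w' : V} (hw : bl eV w = 0) (hw' : bl eV w' = 0) :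
    Te w hw * Te w' hw' = Te (w + w') (by rw [bl_add_right, hw, hw', add_zero]) :=
  T_mul q_eV hw hw'

theorem Te_zero : Te 0 (bl_zero_right eV) = 1 := T_zero q_eV

theorem conj_Te {g : O} (hg : ap g eV = eV) {w : V} (hw : bl eV w = 0) :
    g * Te w hw * g⁻¹ =
      Te (md (ap g w)) (by rw [bl_md]; conv_lhs => rw [← hg]; rw [bl_ap, hw]) := by
  have h' : bl eV (ap g w) = 0 := by
    conv_lhs => rw [← hg]
    rw [bl_ap, hw]
  rw [Te, conj_T, T_congr hg rfl, ← Te_md h']
  rfl

theorem sgf_eV_fix : ∀ w : V, Mid w → sgf eV w eV = eV ∧ md (sgf eV w fV + fV) = w := by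
  rw [forall_mid]; decide +kernel

theorem ap_Te_eV {w : V} (hw : bl eV w = 0) : ap (Te w hw) eV = eV := by
  rw [Te_md hw]
  exact (ap_T _ _ _ _ _).trans (sgf_eV_fix _ (mid_md hw)).1

theorem Te_param {w : V} (hw : bl eV w = 0) : md (ap (Te w hw) fV + fV) = md w := by
  rw [Te_md hw, Te, ap_T]
  exact (sgf_eV_fix _ (mid_md hw)).2

theorem Te_eq_iff {w w' : V} (hw : bl eV w = 0) (hw' : bl eV w' = 0) :
    Te w hw = Te w' hw' ↔ md w = md w' := by
  refine ⟨fun e => by rw [← Te_param hw, e, Te_param hw'], fun e => ?_⟩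
  rw [Te_md hw, Te_md hw']
  exact Te_congr e _ _

theorem sgf_mid_fix (w : V) (_ : Mid w) (v : V) (hv : Mid v) : md (sgf eV w v) = v := by
  rw [sgf_eq, md_add, md_add, md_smul, md_smul, md_eV, smul_zero, add_zero, bl_comm v eV, hv.bl_eV,
    zero_smul, add_zero, md_of_mid hv]

theorem md_ap_Te {w : V} (hw : bl eV w = 0) {v : V} (hv : Mid v) : md (ap (Te w hw) v) = v := by
  rw [Te_md hw, Te, ap_T]
  exact sgf_mid_fix _ (mid_md hw) _ hv

theorem bl_eV_ap {g : O} (hg : ap g eV = eV) {v : V} (hv : bl eV v = 0) : bl eV (ap g v) = 0 := by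
  conv_lhs => rw [← hg]
  rw [bl_ap, hv]

theorem md_ap {g : O} (hg : ap g eV = eV) (v : V) : md (ap g (md v)) = md (ap g v) := by
  conv_rhs => rw [md_decomp v, ap_add, ap_smul, hg, md_add, md_smul, md_eV, smul_zero, add_zero]

/-- The parameter of a unipotent element of the stabiliser of `eV`. -/
theorem eq_Te {g : O} (hg : ap g eV = eV) (h : ∀ v, Mid v → md (ap g v) = v) :
    ∃ (w : V) (hw : bl eV w = 0), Mid w ∧ g = Te w hw ∧ w = md (ap g fV + fV) := by
  set w := md (ap g fV + fV) with hwdef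
  have hgf : bl eV (ap g fV + fV) = 0 := by
    have := bl_ap g eV fV
    rw [hg] at this
    rw [bl_add_right, this, bl_e_f]
    rfl
  have hwM : Mid w := mid_md hgf
  have hw : bl eV w = 0 := hwM.bl_eV
  refine ⟨w, hw, hwM, ?_, rfl⟩
  set c := (ap g fV + fV) (.inl 0) with hc
  have hgfv : ap g fV = fV + w + c • eV := by
    rw [add_assoc, hwdef, hc, ← md_decomp, add_comm (ap g fV), ← add_assoc, vadd_self, zero_add]
  have hbf : bl fV eV = 1 := by rw [bl_comm]; exact bl_e_f
  have hmid : ∀ v, Mid v → ap g v = v + bl v w • eV := by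
    intro v hv
    set l := ap g v (.inl 0)
    have hv' : ap g v = v + l • eV := by conv_lhs => rw [md_decomp (ap g v), h v hv]
    have h1 := bl_ap g v fV
    rw [hv', hgfv] at h1
    simp only [bl_add_left, bl_add_right, bl_smul_left, bl_smul_right] at h1
    simp only [bl_self eV, bl_comm v eV, hv.bl_eV, hw, bl_e_f, mul_zero, add_zero,
      mul_one] at h1
    rw [hv']
    have h2 : bl v w + l = 0 := by linear_combination h1
    rw [show l = bl v w from (CharTwo.add_eq_zero.1 h2).symm]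
  have hq := q_ap g fV
  rw [hgfv, q_add, q_add] at hq
  have hqf : q fV = 0 := by decide
  have hqc : q (c • eV) = 0 := by
    rcases z2_cases c with e | e <;> rw [e] <;> simp [q_eV]
  rw [hqf, hqc, bl_add_left, bl_smul_right, bl_smul_right, hbf, bl_comm w eV, hw, mul_one,
    mul_zero, add_zero, add_zero, zero_add] at hq
  have hcv : c = bl fV w + q w := by
    have h2 : c + (bl fV w + q w) = 0 := by linear_combination hq
    exact CharTwo.add_eq_zero.1 h2
  refine O_ext_basis fun x hx => ?_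
  rw [show ap (Te w hw) x = sgf eV w x from ap_T _ _ _ _ _, sgf_eq]
  have hM : ∀ y, Mid y → ap g y = y + bl y eV • w + (bl y w + q w * bl y eV) • eV := fun y hy => by
    rw [hmid y hy, bl_comm y eV, hy.bl_eV, zero_smul, mul_zero, add_zero, add_zero]
  simp only [basisList, List.mem_cons, List.not_mem_nil, or_false] at hx
  rcases hx with rfl | rfl | rfl | rfl | rfl | rfl | rfl | rfl
  · simp [hg, bl_self eV, hw]
  · rw [hgfv, hbf, one_smul, mul_one, hcv]
  · exact hM _ mid_e2V
  · exact hM _ mid_f2V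
  · exact hM _ mid_e3V
  · exact hM _ mid_f3V
  · exact hM _ mid_e4V
  · exact hM _ mid_f4V

/-! ### A subgroup of index two -/

theorem card_O : Nat.card O = 348364800 := by
  have h := card_orth_qPlus (F := ZMod 2) 4 (by norm_num)
  rw [Nat.card_zmod] at h
  norm_num [Finset.prod_range_succ] at h
  exact_mod_cast h

theorem card_Omega : 2 * Nat.card (Cfsg.Omega (ZMod 2) (Cfsg.quadFormPlus 4 (ZMod 2))) = 348364800 := by
  have hn : 5 ≤ Fintype.card Ix := by simp
  have hg := isGen_qPlus (F := ZMod 2) 4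
  have hQ := nondeg_qPlus (F := ZMod 2) 4
  have h1 : commutator O = siegelGroup qM :=
    commutator_eq_siegelGroup hQ (by simp) hg
  rw [Nat.card_congr (((commutatorCongr (isoMat qM (qPlus_apply 4))).trans
    (MulEquiv.subgroupCongr h1)).toEquiv), mul_comm,
    card_siegelGroup_even (by decide) hQ hn hg, card_O]

/-- A subgroup of index two. -/
def Half (J : Subgroup O) : Prop := 2 * Nat.card J = 348364800

theorem nonsing_link : ∀ a : V, q a = 1 →
    a = cV ∨ bl a cV = 1 ∨ ∃ c ∈ linkList, q c = 1 ∧ bl a c = 1 ∧ bl c cV = 1 := by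
  rw [forall_vec]; decide +kernel

theorem R_conj_of_bl {a b : V} (ha : q a = 1) (hb : q b = 1) (h : bl a b = 1) :
    ∃ g : O, g * R a ha * g⁻¹ = R b hb := by
  have hc : q (a + b) = 1 := by rw [q_add, ha, hb, h]; rfl
  refine ⟨R (a + b) hc, ?_⟩
  have e : ap (R (a + b) hc) a = b := by
    rw [ap_R, rf_eq, bl_add_right, bl_self a, h, zero_add, one_smul, ← add_assoc, vadd_self,
      zero_add]
  unfold R at e ⊢
  rw [conj_refl]
  exact refl_congr e _

theorem R_conj_c {a : V} (ha : q a = 1) : ∃ g : O, g * R cV q_cV * g⁻¹ = R a ha := by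
  rcases nonsing_link a ha with rfl | h | ⟨c, -, hc, hac, hcz⟩
  · exact ⟨1, by rw [one_mul, inv_one, mul_one]⟩
  · exact R_conj_of_bl _ _ (by rw [bl_comm]; exact h)
  · obtain ⟨g, hg⟩ := R_conj_of_bl q_cV hc (by rw [bl_comm]; exact hcz)
    obtain ⟨g', hg'⟩ := R_conj_of_bl hc ha (by rw [bl_comm]; exact hac)
    exact ⟨g' * g, by rw [← hg', ← hg]; group⟩

namespace Half

variable {J : Subgroup O} (hJ : Half J)
include hJ

theorem index_two : J.index = 2 := by
  have h1 := J.index_mul_card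
  rw [card_O] at h1
  have h2 : 2 * Nat.card J = 348364800 := hJ
  have h3 : J.index * Nat.card J = 2 * Nat.card J := h1.trans h2.symm
  exact Nat.eq_of_mul_eq_mul_right (by omega) h3

theorem mul_mem_iff {a b : O} : a * b ∈ J ↔ (a ∈ J ↔ b ∈ J) :=
  Subgroup.mul_mem_iff_of_index_two hJ.index_two

theorem conj_mem {a : O} (g : O) (ha : a ∈ J) : g * a * g⁻¹ ∈ J :=
  (Subgroup.normal_of_index_eq_two hJ.index_two).conj_mem a ha g

theorem R_not_mem {a : V} (ha : q a = 1) : R a ha ∉ J := by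
  intro hm
  have h1 : R cV q_cV ∈ J := by
    obtain ⟨g, hg⟩ := R_conj_c ha
    rw [← hg] at hm
    have := hJ.conj_mem g⁻¹ hm
    rw [show g⁻¹ * (g * R cV q_cV * g⁻¹) * g⁻¹⁻¹ = R cV q_cV by group] at this
    exact this
  have hle : reflGroup qM ≤ J := by
    rw [reflGroup, Subgroup.closure_le]
    rintro _ ⟨b, hb, rfl⟩
    have hb1 : q b = 1 := by
      rw [qM_apply] at hb
      exact (z2_cases _).resolve_left hb
    obtain ⟨g, hg⟩ := R_conj_c hb1
    have := hJ.conj_mem g h1
    rw [hg] at this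
    exact this
  rw [reflGroup_eq_top (nondeg_qPlus (F := ZMod 2) 4) (by simp) (isGen_qPlus (F := ZMod 2) 4)] at hle
  have h2 := hJ.index_two
  rw [top_le_iff.1 hle, Subgroup.index_top] at h2
  omega

theorem pair_mem {a b : V} (ha : q a = 1) (hb : q b = 1) : R a ha * R b hb ∈ J :=
  hJ.mul_mem_iff.2 (iff_of_false (hJ.R_not_mem ha) (hJ.R_not_mem hb))

theorem exists_pair {p : V × V} (h1 : q p.1 = 1) (h2 : q p.2 = 1) :
    ∃ g ∈ J, ∀ x, ap g x = pf p x :=
  ⟨_, hJ.pair_mem h1 h2, fun x => by rw [ap_mul, ap_R, ap_R]; rfl⟩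

theorem exists_stab {p : V × V} (hp : p ∈ stabPairs) :
    ∃ g ∈ J, ap g eV = eV ∧ ∀ x, ap g x = pf p x := by
  obtain ⟨h1, h2, h3⟩ := stabPairs_ok p hp
  obtain ⟨g, hg, hgx⟩ := hJ.exists_pair h1 h2
  exact ⟨g, hg, by rw [hgx, h3], hgx⟩

theorem exists_transport {v : V} (hv : q v = 0) (hv0 : v ≠ 0) : ∃ g ∈ J, ap g eV = v := by
  obtain ⟨p, hp, he⟩ := singular_mem v hv hv0
  obtain ⟨h1, h2⟩ := transPairs_ok p hp
  obtain ⟨g, hg, hgx⟩ := hJ.exists_pair h1 h2
  exact ⟨g, hg, by rw [hgx, he]⟩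

omit hJ in
theorem sgf_pair : ∀ w : V, Mid w → q w = 1 →
    ∀ x ∈ basisList, rf w (rf (w + eV) x) = sgf eV w x := by
  rw [forall_mid]; decide +kernel

omit hJ in
theorem sing_split : ∀ w : V, Mid w → q w = 0 → w = 0 ∨ ∃ c ∈ midNonsing,
    q c = 1 ∧ Mid c ∧ q (w + c) = 1 := by
  rw [forall_mid]; decide +kernel

theorem Te_mem {w : V} (hw : bl eV w = 0) : Te w hw ∈ J := by
  have hns : ∀ u : V, Mid u → ∀ hu : bl eV u = 0, q u = 1 → Te u hu ∈ J := by
    intro u huM hu hq
    have hq' : q (u + eV) = 1 := by rw [q_add, hq, q_eV, bl_comm, hu]; rfl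
    have e : Te u hu = R u hq * R (u + eV) hq' := by
      refine O_ext_basis fun x hx => ?_
      rw [ap_mul, ap_R, ap_R, sgf_pair u huM hq x hx]
      exact ap_T _ _ _ _ _
    rw [e]
    exact hJ.pair_mem _ _
  rw [Te_md hw]
  have hM := mid_md hw
  rcases z2_cases (q (md w)) with hq | hq
  · rcases sing_split _ hM hq with h | ⟨c, -, hqc, hcM, hwc⟩
    · rw [Te_congr h _ (bl_zero_right eV), Te_zero]
      exact J.one_mem
    · have hwcM := hM.add hcM
      rw [Te_congr (w' := c + (md w + c)) (by rw [← add_assoc, add_comm c, add_assoc, vadd_self, add_zero]) _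
        (by rw [bl_add_right, hcM.bl_eV, hwcM.bl_eV, add_zero]), ← Te_mul hcM.bl_eV hwcM.bl_eV]
      exact J.mul_mem (hns c hcM _ hqc) (hns _ hwcM _ hwc)
  · exact hns _ hM _ hq

theorem T_mem {v w : V} (hv : q v = 0) (hv0 : v ≠ 0) (hw : bl v w = 0) : T v w hv hw ∈ J := by
  obtain ⟨g, hg, he⟩ := hJ.exists_transport hv hv0
  have hu : bl eV (ap g⁻¹ w) = 0 := by rw [← bl_ap g, he, ap_ap_inv, hw]
  have := hJ.conj_mem g (hJ.Te_mem hu)
  rw [Te, conj_T, T_congr he (ap_ap_inv g w)] at this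
  exact this

/-- Every nonzero class of `eV`-orthogonal vectors is moved to `cV` or `e2V` inside `J`. -/
theorem exists_orbit {w : V} (hw : Mid w) (hw0 : w ≠ 0) :
    ∃ g ∈ J, ap g eV = eV ∧ (md (ap g w) = cV ∧ q w = 1 ∨ md (ap g w) = e2V ∧ q w = 0) := by
  rcases z2_cases (q w) with hq | hq
  · obtain ⟨p, hp, he⟩ := orbit_sing w hw hw0 hq
    obtain ⟨g, hg, hge, hgx⟩ := hJ.exists_stab hp
    have hge' : ap g⁻¹ eV = eV := by conv_lhs => rw [← hge]; rw [ap_inv_ap]
    refine ⟨g⁻¹, J.inv_mem hg, hge', Or.inr ⟨?_, hq⟩⟩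
    rw [← he, ← hgx, md_ap hge', ap_inv_ap, md_of_mid mid_e2V]
  · obtain ⟨p, hp, he⟩ := orbit_nonsing w hw hq
    obtain ⟨g, hg, hge, hgx⟩ := hJ.exists_stab hp
    have hge' : ap g⁻¹ eV = eV := by conv_lhs => rw [← hge]; rw [ap_inv_ap]
    refine ⟨g⁻¹, J.inv_mem hg, hge', Or.inl ⟨?_, hq⟩⟩
    rw [← he, ← hgx, md_ap hge', ap_inv_ap, md_of_mid mid_cV]

end Half

end CfsgLib.ConwayType
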