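import Cfsg.Agent.Lib.ConwayType.Classes

/-!
Root elements at an arbitrary singular vector, and the reduction of involutions over the elements
with four-dimensional commutator space to root elements at the exchanged centre.
-/

set_option autoImplicit false
set_option linter.unusedSectionVars false
set_option maxRecDepth 100000
set_option synthInstance.maxSize 1000
set_option maxHeartbeats 1000000

namespace CfsgLib.ConwayType

open CfsgLib.ExtraspecialLarge

variable {G : Type*} [Group G] [Finite G]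
variable {z : G} {Qf : G → Subgroup G} {θ : G → V} {ρ : G → O} {J : Subgroup O} {y h : G}

/-! ### Siegel maps of root type -/

theorem sgf_congr {v w v' w' : V} (hv : q v = 0) (hw : bl v w = 0) (hv' : q v' = 0) (hw' : bl v' w' = 0)
    (e : ∀ x, sgf v w x = sgf v' w' x) : T v w hv hw = T v' w' hv' hw' :=
  CfsgLib.ClassicalForms.orth_ext fun x => by
    change ap (T v w hv hw) x = ap (T v' w' hv' hw') x
    rw [ap_T, ap_T, e]

theorem T_symm {a b : V} (ha : q a = 0) (hb : q b = 0) (hab : bl a b = 0) :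
    T a b ha hab = T b a hb (by rw [bl_comm]; exact hab) := by
  refine sgf_congr _ _ _ _ fun x => ?_
  rw [sgf_eq, sgf_eq, ha, hb, zero_mul, zero_mul, add_zero, add_zero]
  abel

theorem T_shift {a b : V} (ha : q a = 0) (hab : bl a b = 0) :
    T a b ha hab = T a (b + a) ha (by rw [bl_add_right, hab, bl_self, add_zero]) := by
  refine sgf_congr _ _ _ _ fun x => ?_
  have hq : q (b + a) = q b := by rw [q_add, ha, bl_comm, hab, add_zero, add_zero]
  rw [sgf_eq, sgf_eq, hq, bl_add_right]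
  simp only [smul_add, add_smul]
  have e : bl x a • a + bl x a • a = (0 : V) := vadd_self _
  linear_combination (norm := module) (-1 : ZMod 2) • e

/-- A product of two root maps sharing a totally singular line is a root map or trivial. -/
theorem Te_root {a b : V} (ha : q a = 0) (hb : q b = 0) (hab : bl a b = 0) (ha0 : a ≠ 0) (hb0 : b ≠ 0)
    (hab0 : a + b ≠ 0) (hea : bl eV a = 0) (heb : bl eV b = 0) {w : V} (hw : bl eV w = 0)
    (hcase : w = 0 ∨ w = a ∨ w = b ∨ w = a + b) :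
    ∃ (v p : V) (hv : q v = 0) (hp : bl v p = 0), v ≠ 0 ∧ Te w hw * T a b ha hab = T v p hv hp := by
  have hba : bl b a = 0 := by rw [bl_comm]; exact hab
  have hae : bl a eV = 0 := by rw [bl_comm]; exact hea
  have hbe : bl b eV = 0 := by rw [bl_comm]; exact heb
  rcases hcase with rfl | rfl | rfl | rfl
  · refine ⟨a, b, ha, hab, ha0, ?_⟩
    rw [Te_congr rfl hw (bl_zero_right eV), Te_zero, one_mul]
  · refine ⟨w, eV + b, ha, by rw [bl_add_right, hae, hab, add_zero], ha0, ?_⟩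
    rw [Te, T_symm q_eV ha hw, T_mul ha hae hab]
  · refine ⟨w, eV + a, hb, by rw [bl_add_right, hbe, hba, add_zero], hb0, ?_⟩
    rw [Te, T_symm q_eV hb hw, T_symm ha hb hab, T_mul hb hbe hba]
  · have hqs : q (a + b) = 0 := by rw [q_add, ha, hb, hab, add_zero, add_zero]
    have hse : bl (a + b) eV = 0 := by rw [bl_add_left, hae, hbe, add_zero]
    have hsb : bl (a + b) b = 0 := by rw [bl_add_left, hab, bl_self, add_zero]
    refine ⟨a + b, eV + b, hqs, by rw [bl_add_right, hse, hsb, add_zero], hab0, ?_⟩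
    have e : T a b ha hab = T (a + b) b hqs hsb := by
      rw [T_symm ha hb hab, T_shift hb hba, T_symm hb hqs]
    rw [Te, T_symm q_eV hqs hw, e, T_mul hqs hse hsb]

/-- The three frames for elements with four-dimensional commutator space. -/
structure Frame (w w' b : V) : Prop where
  hw : Mid w
  hw' : Mid w'
  hb : Mid b
  qw' : q w' = 0
  qb : q b = 0
  ww' : bl w' w = 1
  bw : bl b w = 0
  bw' : bl b w' = 0
  aw : bl e3V w = 0
  aw' : bl e3V w' = 0
  ab : bl e3V b = 0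
  b0 : b ≠ 0
  ab0 : e3V + b ≠ 0
  indep : ∀ s t r : ZMod 2, s • b + t • e3V = r • eV → s = 0 ∧ t = 0 ∧ r = 0
  key : ∀ v : V, bl eV v = 0 → bl v e3V = 0 → bl v b = 0 → bl v w = q w → q v = 0
  fixed : ∀ m : V, Mid m → bl m w = 0 → bl m w' = 0 → sgf e3V b m = m →
    m = 0 ∨ m = e3V ∨ m = b ∨ m = e3V + b

theorem frame_key : ∀ v : V, ∀ w ∈ [e2V, f2V, cV], ∀ b ∈ [e4V, f4V],
    bl eV v = 0 → bl v e3V = 0 → bl v b = 0 → bl v w = q w → q v = 0 := by
  rw [forall_vec]; decide +kernel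

theorem frame_fixed : ∀ m : V, Mid m → ∀ ww ∈ [(e2V, f2V), (f2V, e2V), (cV, e2V)], ∀ b ∈ [e4V, f4V],
    bl m ww.1 = 0 → bl m ww.2 = 0 → sgf e3V b m = m →
      m = 0 ∨ m = e3V ∨ m = b ∨ m = e3V + b := by
  have h : ∀ m : V, Mid m → ([(e2V, f2V), (f2V, e2V), (cV, e2V)].all fun ww => [e4V, f4V].all fun b =>
      decide (bl m ww.1 = 0 → bl m ww.2 = 0 → sgf e3V b m = m →
        m = 0 ∨ m = e3V ∨ m = b ∨ m = e3V + b)) = true := by
    rw [forall_mid]; decide +kernel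
  intro m hm ww hww b hb
  exact of_decide_eq_true (List.all_eq_true.1 (List.all_eq_true.1 (h m hm) ww hww) b hb)

theorem exists_frame {w b : V} (hw : w = e2V ∨ w = f2V ∨ w = cV) (hb : b = e4V ∨ b = f4V) :
    ∃ w', Frame w w' b := by
  have hk := fun v => frame_key v w (by rcases hw with rfl | rfl | rfl <;> simp) b
    (by rcases hb with rfl | rfl <;> simp)
  rcases hw with rfl | rfl | rfl
  · refine ⟨f2V, ?_⟩
    have hf := fun m hm => frame_fixed m hm (e2V, f2V) (by simp) b (by rcases hb with rfl | rfl <;> simp)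
    rcases hb with rfl | rfl <;>
      exact ⟨by decide, by decide, by decide, by decide, by decide, by decide, by decide, by decide,
        by decide, by decide, by decide, by decide, by decide, by decide +kernel, hk, hf⟩
  · refine ⟨e2V, ?_⟩
    have hf := fun m hm => frame_fixed m hm (f2V, e2V) (by simp) b (by rcases hb with rfl | rfl <;> simp)
    rcases hb with rfl | rfl <;>
      exact ⟨by decide, by decide, by decide, by decide, by decide, by decide, by decide, by decide,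
        by decide, by decide, by decide, by decide, by decide, by decide +kernel, hk, hf⟩
  · refine ⟨e2V, ?_⟩
    have hf := fun m hm => frame_fixed m hm (cV, e2V) (by simp) b (by rcases hb with rfl | rfl <;> simp)
    rcases hb with rfl | rfl <;>
      exact ⟨by decide, by decide, by decide, by decide, by decide, by decide, by decide, by decide,
        by decide, by decide, by decide, by decide, by decide, by decide +kernel, hk, hf⟩

/-- A lift of a root map inside the group of the lift of its centre. -/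
structure IsRoot (z : G) (Qf : G → Subgroup G) (θ : G → V) (ρ : G → O) (a p : V) (y₂ s₂ : G) : Prop where
  memQ : y₂ ∈ Qf z
  θy : θ y₂ = a
  good : Good (Qf y₂) y₂
  mem : s₂ ∈ Qf y₂
  comm : s₂ * z = z * s₂
  act : ∀ x, ap (ρ s₂) x = sgf a p x
  sq : s₂ * s₂ = zp y₂ (q p)
  pairing : ∀ x ∈ Qf z, bl a (θ x) = 0 →
    s₂ * x * s₂⁻¹ * x⁻¹ = zp z (bl (θ x) p) * zp y₂ (bl (θ x) p)
  inter : ∀ x ∈ Qf z, x ∈ Qf y₂ → θ x = 0 ∨ θ x = a

namespace PairSetting

variable (P : PairSetting z Qf θ ρ J y h)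
include P

theorem exists_root {a p : V} (hqa : q a = 0) (ha : a ≠ 0) (hap : bl a p = 0) :
    ∃ y₂ s₂, IsRoot z Qf θ ρ a p y₂ s₂ := by
  obtain ⟨g, hg, hga⟩ := P.half.exists_transport hqa ha
  obtain ⟨c, hc, rfl⟩ := P.ρ_surj g hg
  set p' := ap (ρ c)⁻¹ p with hp'
  have hpe : bl eV p' = 0 := by rw [← bl_ap (ρ c), hga, hp', ap_ap_inv, hap]
  obtain ⟨σ, hσ, hσw⟩ := P.exists_Wy (mid_md hpe)
  obtain ⟨hwσ, eσ⟩ := P.wS_spec hσ
  have hρσ : ρ σ = Te p' hpe := by
    rw [eσ, Te_md hpe]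
    exact Te_congr hσw _ _
  have hcz := conj_fix_iff.2 hc
  have hc' := comm_inv hc
  refine ⟨c * y * c⁻¹, c * σ * c⁻¹, ⟨P.toSetting.conj_mem_Q hc P.y_mem, ?_, ?_, P.core.conj_mem c y hσ.1,
    comm_mul (comm_mul hc hσ.2) hc', ?_, ?_, ?_, ?_⟩⟩
  · rw [P.ρ_act c hc y P.y_mem, P.θy, hga]
  · exact P.core.good_of_conj ⟨c * h, by rw [← P.hz]; group⟩
  · intro x
    rw [P.toSetting.ρ_conj hc hσ.2, hρσ, Te, conj_T, ap_T, hga]
    rw [hp', ap_ap_inv]
  · rw [show c * σ * c⁻¹ * (c * σ * c⁻¹) = c * (σ * σ) * c⁻¹ by group, P.sq_wS hσ, hσw, q_md hpe, hp',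
      q_ap]
    rcases z2_cases (q p) with e | e <;> rw [e] <;> simp
  · intro x hx hb
    have hx' : c⁻¹ * x * c ∈ Qf z := by
      have := P.toSetting.conj_mem_Q hc' hx
      rwa [inv_inv] at this
    have hθ : θ x = ap (ρ c) (θ (c⁻¹ * x * c)) := by
      rw [← P.ρ_act c hc _ hx']; congr 1; group
    have hW : inW z Qf y (c⁻¹ * x * c) := by
      refine (P.W_iff hx').2 ?_
      rw [← bl_ap (ρ c), hga, ← hθ, hb]
    have he : bl (θ (c⁻¹ * x * c)) (md p') = bl (θ x) p := by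
      rw [bl_comm, bl_md_left ((P.W_iff hx').1 hW), bl_comm, ← bl_ap (ρ c), ← hθ, hp', ap_ap_inv]
    have e := P.comm_eq hσ hW
    rw [hσw, he] at e
    calc c * σ * c⁻¹ * x * (c * σ * c⁻¹)⁻¹ * x⁻¹
        = c * (σ * (c⁻¹ * x * c) * σ⁻¹ * (c⁻¹ * x * c)⁻¹) * c⁻¹ := by group
      _ = _ := by
        rw [e]
        rcases z2_cases (bl (θ x) p) with a1 | a1 <;> rw [a1]
        · simp
        · simp only [zp_one]
          rw [show c * (z * y) * c⁻¹ = (c * z * c⁻¹) * (c * y * c⁻¹) by group, hcz]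
  · intro x hx hxy
    have hx' : c⁻¹ * x * c ∈ Qf z := by
      have := P.toSetting.conj_mem_Q hc' hx
      rwa [inv_inv] at this
    have hxy' : c⁻¹ * x * c ∈ Qf y := by
      have := P.core.conj_mem c⁻¹ _ hxy
      rwa [inv_inv, show c⁻¹ * (c * y * c⁻¹) * c = y by group] at this
    have hθ : θ x = ap (ρ c) (θ (c⁻¹ * x * c)) := by
      rw [← P.ρ_act c hc _ hx']; congr 1; group
    rw [hθ, ← hga]
    rcases P.θ_inter hx' hxy' with e | e <;> rw [e]
    · exact Or.inl (ap_zero _)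
    · exact Or.inr rfl

theorem zp_z_inj {a b : ZMod 2} (e : zp z a = zp z b) : a = b := by
  rcases z2_cases a with rfl | rfl <;> rcases z2_cases b with rfl | rfl
  · rfl
  · exact absurd e.symm P.toSetting.z_ne
  · exact absurd e P.toSetting.z_ne
  · rfl

/-- The commutator of a root lift with an element of the second half. -/
theorem root_comm {b : V} {y₂ s₂ : G} (R : IsRoot z Qf θ ρ e3V b y₂ s₂) (hb : Mid b) (hqb : q b = 0)
    {σ : G} (hσ : inWy z Qf y σ) (hσa : bl e3V (wS ρ σ) = 0) (hσb : bl b (wS ρ σ) = 0) :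
    ∃ k : ZMod 2, s₂ * σ * s₂⁻¹ * σ⁻¹ = zp z k := by
  have hy : s₂ * y = y * s₂ := by
    have e := R.pairing y P.y_mem (by rw [P.θy, bl_comm, mid_e3V.bl_eV])
    rw [P.θy, hb.bl_eV, zp_zero, zp_zero, mul_one] at e
    exact conj_fix_iff.1 (mul_inv_eq_one.1 e)
  have hσy₂ : σ * y₂ = y₂ * σ := by
    have e := P.comm_eq hσ ((P.W_iff R.memQ).2 (by rw [R.θy]; exact mid_e3V.bl_eV))
    rw [R.θy, hσa, zp_zero, zp_zero, mul_one, mul_inv_eq_one] at e
    exact conj_fix_iff.1 e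
  obtain ⟨hw, eσ⟩ := P.wS_spec hσ
  have hcomm : ρ s₂ * ρ σ = ρ σ * ρ s₂ := by
    refine CfsgLib.ClassicalForms.orth_ext fun x => ?_
    change ap (ρ s₂ * ρ σ) x = ap (ρ σ * ρ s₂) x
    rw [ap_mul, ap_mul, R.act, R.act, eσ, Te, ap_T, ap_T, sgf_eq eV, sgf_eq eV, sgf_eq e3V, sgf_eq e3V]
    have h1 : bl (wS ρ σ) e3V = 0 := by rw [bl_comm]; exact hσa
    have h2 : bl (wS ρ σ) b = 0 := by rw [bl_comm]; exact hσb
    have h3 : bl eV e3V = 0 := mid_e3V.bl_eV
    have h4 : bl eV b = 0 := hb.bl_eV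
    have h3' : bl e3V eV = 0 := by rw [bl_comm]; exact h3
    have h4' : bl b eV = 0 := by rw [bl_comm]; exact h4
    simp only [bl_add_left, bl_smul_left, h1, h2, h3, h4, h3', h4', hσa, hσb, hqb, zero_mul, mul_zero,
      add_zero]
    abel
  have h1 : s₂ * σ * s₂⁻¹ * σ⁻¹ ∈ Qf z := by
    refine (P.ρ_ker _ (comm_mul (comm_mul (comm_mul R.comm hσ.2) (comm_inv R.comm)) (comm_inv hσ.2))).1 ?_
    rw [P.toSetting.ρ_mul (comm_mul (comm_mul R.comm hσ.2) (comm_inv R.comm)) (comm_inv hσ.2),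
      P.toSetting.ρ_conj R.comm hσ.2, P.toSetting.ρ_inv hσ.2, hcomm]
    group
  have h2 : s₂ * σ * s₂⁻¹ * σ⁻¹ ∈ Qf y :=
    (Qf y).mul_mem (P.goody.norm s₂ hy σ hσ.1) ((Qf y).inv_mem hσ.1)
  have h3 : s₂ * σ * s₂⁻¹ * σ⁻¹ ∈ Qf y₂ := by
    rw [show s₂ * σ * s₂⁻¹ * σ⁻¹ = s₂ * (σ * s₂⁻¹ * σ⁻¹) by group]
    exact (Qf y₂).mul_mem R.mem (R.good.norm σ hσy₂ _ ((Qf y₂).inv_mem R.mem))
  have h0 : θ (s₂ * σ * s₂⁻¹ * σ⁻¹) = 0 := by
    rcases P.θ_inter h1 h2 with e | e
    · exact e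
    · rcases R.inter _ h1 h3 with e' | e'
      · exact e'
      · rw [e] at e'; exact absurd e' (by decide)
  rcases (P.θ_ker _ h1).1 h0 with e | e
  · exact ⟨0, by rw [e, zp_zero]⟩
  · exact ⟨1, by rw [e, zp_one]⟩

/-- An involution over `Te w * T e3V b` is conjugate to one over a root map. -/
theorem swap_root {w w' b : V} (F : Frame w w' b) {t : G} (htz : t * z = z * t) (ht2 : t * t = 1)
    (hρ : ∀ x, ap (ρ t) x = sgf eV w (sgf e3V b x)) :
    ∃ k : G, k * t * k⁻¹ * z = z * (k * t * k⁻¹) ∧ ∃ (v p : V) (hv : q v = 0) (hp : bl v p = 0),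
      v ≠ 0 ∧ ρ (k * t * k⁻¹) = T v p hv hp := by
  have hae : bl eV e3V = 0 := mid_e3V.bl_eV
  have hbe : bl eV b = 0 := F.hb.bl_eV
  have hwe : bl eV w = 0 := F.hw.bl_eV
  have hw'e : bl eV w' = 0 := F.hw'.bl_eV
  have hqa : q e3V = 0 := q_e3V
  obtain ⟨y₂, s₂, R⟩ := P.exists_root hqa (by decide) F.ab
  have hs₂y : s₂ * y = y * s₂ := by
    have e := R.pairing y P.y_mem (by rw [P.θy, bl_comm, hae])
    rw [P.θy, hbe, zp_zero, zp_zero, mul_one] at e
    exact conj_fix_iff.1 (mul_inv_eq_one.1 e)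
  obtain ⟨s, hs, hsw⟩ := P.exists_Wy F.hw
  obtain ⟨σ, hσ, hσw⟩ := P.exists_Wy F.hw'
  obtain ⟨hws, es⟩ := P.wS_spec hs
  obtain ⟨k', hk'⟩ := P.root_comm R F.hb F.qb hσ (by rw [hσw, F.aw']) (by rw [hσw, F.bw'])
  obtain ⟨κ, hκ⟩ := P.root_comm R F.hb F.qb hs (by rw [hsw, F.aw]) (by rw [hsw, F.bw])
  have hρs : ρ s = Te w hwe := by rw [es]; exact Te_congr hsw _ _
  have hρs₂ : ρ s₂ = T e3V b hqa F.ab := CfsgLib.ClassicalForms.orth_ext fun x => by
    change ap (ρ s₂) x = ap (T _ _ _ _) x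
    rw [R.act, ap_T]
  -- every such involution centralises `y` and is `s * (s₂ * u)`
  have hdec : ∀ t', t' * z = z * t' → t' * t' = 1 → ρ t' = ρ t →
      t' * y = y * t' ∧ ∃ u, inW z Qf y u ∧ t' = s * (s₂ * u) := by
    intro t' htz' ht2' hρ'
    obtain ⟨x, hx, hθx⟩ := P.θ_surj w'
    have hx2 : x * x = 1 := (P.θ_sq x hx).2 (by rw [hθx, F.qw'])
    have hx' := P.toSetting.conj_mem_Q htz' hx
    have hr : sgf e3V b w' = w' := by
      simp only [sgf_eq, bl_comm w' e3V, F.aw', bl_comm w' b, F.bw', zero_smul, mul_zero, add_zero]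
    have hθ : θ (t' * x * t'⁻¹) = w' + eV := by
      rw [P.ρ_act t' htz' x hx, hρ', hρ, hθx, hr, sgf_eq, bl_comm w' eV, hw'e, zero_smul, mul_zero,
        add_zero, add_zero, F.ww', one_smul]
    have hd : θ (t' * x * t'⁻¹ * x) = θ y := by
      rw [P.θ_mul _ hx' _ hx, hθ, hθx, P.θy, add_comm w', add_assoc, vadd_self, add_zero]
    have hcm : t' * x * t'⁻¹ * x = x * (t' * x * t'⁻¹) :=
      P.toSetting.comm_of_bl hx' hx (by rw [hθ, hθx, bl_add_left, bl_self, hw'e, add_zero])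
    have hinv : t'⁻¹ = t' := inv_eq_of_mul_eq_one_right ht2'
    have hfix : t' * (t' * x * t'⁻¹ * x) * t'⁻¹ = t' * x * t'⁻¹ * x := by
      calc t' * (t' * x * t'⁻¹ * x) * t'⁻¹ = (t' * t') * x * (t'⁻¹ * x * t'⁻¹) := by group
        _ = x * (t' * x * t'⁻¹) := by rw [ht2', one_mul, hinv]
        _ = _ := hcm.symm
    have hty : t' * y = y * t' := by
      rcases P.toSetting.eq_or_of_θ ((Qf z).mul_mem hx' hx) P.y_mem hd with e | e <;> rw [e] at hfix
      · exact conj_fix_iff.1 hfix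
      · rw [show t' * (z * y) * t'⁻¹ = (t' * z * t'⁻¹) * (t' * y * t'⁻¹) by group,
          conj_fix_iff.2 htz'] at hfix
        exact conj_fix_iff.1 (mul_left_cancel hfix)
    refine ⟨hty, s₂⁻¹ * (s⁻¹ * t'), ⟨?_, ?_⟩, by group⟩
    · refine (P.ρ_ker _ (comm_mul (comm_inv R.comm) (comm_mul (comm_inv hs.2) htz'))).1 ?_
      rw [P.toSetting.ρ_mul (comm_inv R.comm) (comm_mul (comm_inv hs.2) htz'),
        P.toSetting.ρ_mul (comm_inv hs.2) htz', P.toSetting.ρ_inv R.comm, P.toSetting.ρ_inv hs.2,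
        hρ', hρs, hρs₂]
      have : ρ t = Te w hwe * T e3V b hqa F.ab := CfsgLib.ClassicalForms.orth_ext fun x => by
        change ap (ρ t) x = ap (Te w hwe * T e3V b hqa F.ab) x
        rw [hρ, ap_mul, Te, ap_T, ap_T]
      rw [this]
      group
    · exact comm_mul (comm_inv hs₂y) (comm_mul (comm_inv (P.goody.comm s hs.1)) hty)
  -- adjust by an element moving `y`
  obtain ⟨k₀, t', htz', ht2', hρ', ht'e, u, hu, htu, hl⟩ : ∃ k₀ t', t' * z = z * t' ∧ t' * t' = 1 ∧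
      ρ t' = ρ t ∧ k₀ * t * k₀⁻¹ = t' ∧ ∃ u, inW z Qf y u ∧ t' = s * (s₂ * u) ∧ bl (θ u) w' = k' := by
    obtain ⟨-, u, hu, htu⟩ := hdec t htz ht2 rfl
    by_cases hl : bl (θ u) w' = k'
    · exact ⟨1, t, htz, ht2, rfl, by simp, u, hu, htu, hl⟩
    obtain ⟨r, hr, hθr⟩ := P.θ_surj fV
    have hrz := P.toSetting.comm_z hr
    have h2' := (comm_mul (comm_mul hrz htz) (comm_inv hrz))
    have hρr : ρ (r * t * r⁻¹) = ρ t := by
      rw [P.toSetting.ρ_conj hrz htz, P.toSetting.ρ_of_mem hr, one_mul, inv_one, mul_one]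
    have h22 : r * t * r⁻¹ * (r * t * r⁻¹) = 1 := by
      rw [show r * t * r⁻¹ * (r * t * r⁻¹) = r * (t * t) * r⁻¹ by group, ht2]; group
    obtain ⟨-, u', hu', htu'⟩ := hdec _ h2' h22 hρr
    refine ⟨r, r * t * r⁻¹, h2', h22, hρr, rfl, u', hu', htu', ?_⟩
    -- the correction
    set δ := t⁻¹ * r * t * r⁻¹ with hδ
    have hδQ : δ ∈ Qf z := (Qf z).mul_mem
      (by simpa using P.toSetting.conj_mem_Q (comm_inv htz) hr) ((Qf z).inv_mem hr)
    have hu'δ : u' = u * δ := by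
      have e : s * (s₂ * u') = s * (s₂ * u) * δ := by rw [← htu', ← htu, hδ]; group
      rwa [mul_assoc, mul_left_cancel_iff, mul_assoc, mul_left_cancel_iff] at e
    have hθδ : θ δ = w + q w • eV := by
      have hinv : t⁻¹ = t := inv_eq_of_mul_eq_one_right ht2
      have e1 : θ (t⁻¹ * r * t) = ap (ρ t) fV := by
        have := P.ρ_act t⁻¹ (comm_inv htz) r hr
        rw [inv_inv, hinv, hθr] at this
        rw [hinv]; exact this
      rw [hδ, P.θ_mul _ (by simpa using P.toSetting.conj_mem_Q (comm_inv htz) hr) _ ((Qf z).inv_mem hr),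
        e1, P.toSetting.θ_inv hr, hθr, hρ]
      have hfa : bl fV e3V = 0 := by decide
      have hfb : bl fV b = 0 := by simp [bl, fV, vec, F.hb.1]
      have hfw : bl fV w = 0 := by simp [bl, fV, vec, F.hw.1]
      rw [show sgf e3V b fV = fV by
        simp only [sgf_eq, hfa, hfb, zero_smul, mul_zero, add_zero],
        sgf_eq, bl_comm fV eV, bl_e_f, one_smul, hfw, mul_one, zero_add]
      rw [show fV + w + q w • eV + fV = w + q w • eV + (fV + fV) by abel, vadd_self, add_zero]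
    rw [hu'δ, P.θ_mul _ hu.1 _ hδQ, hθδ, bl_add_left, bl_add_left, bl_smul_left, hw'e, mul_zero,
      add_zero, bl_comm w w', F.ww']
    rcases z2_cases (bl (θ u) w') with a | a <;> rcases z2_cases k' with c | c <;> rw [a, c] at hl ⊢ <;>
      first | rfl | exact absurd rfl hl
  clear hdec
  set g := s₂ * u with hg
  have huz := P.toSetting.comm_z hu.1
  have hgz : g * z = z * g := comm_mul R.comm huz
  have hgy : g * y = y * g := comm_mul hs₂y hu.2
  have hbu : bl eV (θ u) = 0 := (P.W_iff hu.1).1 hu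
  -- `g` is an involution
  obtain ⟨hsg, hg2⟩ : g * s * g⁻¹ * s⁻¹ = zp y (q w) ∧ g * g = 1 := by
    have hggy : g * g ∈ Qf y := by
      rw [show g * g = s⁻¹ * (t' * s⁻¹ * t'⁻¹) * (t' * t') by rw [htu]; group, ht2', mul_one]
      refine (Qf y).mul_mem ((Qf y).inv_mem hs.1) (P.goody.norm t' ?_ _ ((Qf y).inv_mem hs.1))
      rw [htu]; exact comm_mul (P.goody.comm s hs.1) hgy
    have hsu : s₂ * u * s₂⁻¹ ∈ Qf z := P.toSetting.conj_mem_Q R.comm hu.1
    have hs22 : s₂ * s₂ = 1 := by rw [R.sq, F.qb, zp_zero]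
    have hgg : g * g = s₂ * u * s₂⁻¹ * u := by
      calc g * g = s₂ * u * s₂⁻¹ * (s₂ * s₂) * u := by rw [hg]; group
        _ = _ := by rw [hs22, mul_one]
    have hggQ : g * g ∈ Qf z := hgg ▸ (Qf z).mul_mem hsu hu.1
    obtain ⟨i, j, hij⟩ := P.D_cases hggQ hggy
    have e := congrArg θ hij
    rw [P.θ_zp_mul, hgg, P.θ_mul _ hsu _ hu.1, P.ρ_act s₂ R.comm u hu.1, R.act, sgf_eq, F.qb, zero_mul,
      add_zero, show θ u + bl (θ u) e3V • b + bl (θ u) b • e3V + θ u =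
        bl (θ u) e3V • b + bl (θ u) b • e3V + (θ u + θ u) by abel, vadd_self, add_zero] at e
    obtain ⟨h1, h2, rfl⟩ := F.indep _ _ _ e
    have hcu : s₂ * u * s₂⁻¹ = u := by
      have e1 := R.pairing u hu.1 (by rw [bl_comm]; exact h1)
      rw [h2, zp_zero, zp_zero, mul_one, mul_inv_eq_one] at e1
      exact e1
    rw [hcu, P.toSetting.sq_eq hu.1] at hgg
    set l := bl (θ u) w with hldef
    have hus : s * u * s⁻¹ * u⁻¹ = zp z l * zp y l := by
      have := P.comm_eq hs hu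
      rwa [hsw] at this
    have hzpcomm : ∀ a c : ZMod 2, s₂ * (zp z a * zp y c) = zp z a * zp y c * s₂ := fun a c =>
      (Commute.mul_right (show Commute s₂ (zp z a) from zp_comm R.comm a)
        (show Commute s₂ (zp y c) from zp_comm hs₂y c)).eq
    have hsg : s * g * s⁻¹ * g⁻¹ = zp z (κ + l) * zp y l := by
      calc s * g * s⁻¹ * g⁻¹ = (s₂ * s * s₂⁻¹ * s⁻¹)⁻¹ * (s₂ * (s * u * s⁻¹ * u⁻¹) * s₂⁻¹) := by
            rw [hg]; group
        _ = (zp z κ)⁻¹ * (zp z l * zp y l) := by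
            rw [hκ, hus, hzpcomm, mul_inv_cancel_right]
        _ = _ := by
            rw [← mul_assoc]
            congr 1
            rw [inv_eq_of_mul_eq_one_right (a := zp z κ) (b := zp z κ), zp_add P.toSetting.z_sq]
            rw [← zp_add P.toSetting.z_sq, CharTwo.add_self_eq_zero, zp_zero]
    have ht : t' * t' = s * g * s⁻¹ * g⁻¹ * (g * zp y (q w) * g) := by
      rw [htu, ← hsw, ← P.sq_wS hs]; group
    rw [ht2', hsg, zp_comm hgy (q w), mul_assoc (zp y (q w)) g g, hgg] at ht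
    have hzy : zp y (q w) * zp z (q (θ u)) = zp z (q (θ u)) * zp y (q w) :=
      zp_comm (zp_comm P.yz_comm.symm (q w)).symm _
    rw [hzy, show zp z (κ + l) * zp y l * (zp z (q (θ u)) * zp y (q w)) =
      zp z (κ + l + q (θ u)) * zp y (l + q w) by
        rw [zp_add P.toSetting.z_sq (κ + l) (q (θ u)), zp_add P.y_sq]
        exact (Commute.mul_mul_mul_comm (show Commute (zp y l) (zp z (q (θ u))) from
          zp_comm (zp_comm P.yz_comm.symm l).symm _) _ _)] at ht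
    have e2 := congrArg θ ht
    rw [P.θ_zp_mul, P.toSetting.θ_one] at e2
    have hlw : l = q w := by
      rcases z2_cases (l + q w) with a | a
      · exact CharTwo.add_eq_zero.1 a
      · rw [a, one_smul] at e2; exact absurd e2.symm (by decide)
    have hq0 : q (θ u) = 0 := F.key _ hbu h1 h2 hlw
    rw [hlw, hq0, add_zero, CharTwo.add_self_eq_zero, zp_zero, mul_one] at ht
    have hκ0 : κ + q w = 0 := P.zp_z_inj (ht.symm.trans (zp_zero z).symm)
    rw [hlw, hκ0, zp_zero, one_mul] at hsg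
    refine ⟨?_, by rw [hgg, hq0, zp_zero]⟩
    calc g * s * g⁻¹ * s⁻¹ = (s * g * s⁻¹ * g⁻¹)⁻¹ := by group
      _ = zp y (q w) := by
        rw [hsg]
        rcases z2_cases (q w) with a | a <;> rw [a]
        · simp
        · rw [zp_one, inv_eq_of_mul_eq_one_right P.y_sq]
  have hgσ : g * σ * g⁻¹ * σ⁻¹ = zp y k' := by
    have hus : σ * u * σ⁻¹ * u⁻¹ = zp z k' * zp y k' := by
      have := P.comm_eq hσ hu
      rwa [hσw, hl] at this
    calc g * σ * g⁻¹ * σ⁻¹ = s₂ * (σ * u * σ⁻¹ * u⁻¹)⁻¹ * s₂⁻¹ * (s₂ * σ * s₂⁻¹ * σ⁻¹) := by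
          rw [hg]; group
      _ = (zp z k' * zp y k')⁻¹ * zp z k' := by
          rw [hus, hk']
          congr 1
          have hc : Commute s₂ (zp z k' * zp y k') :=
            Commute.mul_right (show Commute s₂ (zp z k') from zp_comm R.comm k')
              (show Commute s₂ (zp y k') from zp_comm hs₂y k')
          rw [(hc.inv_right).eq, mul_inv_cancel_right]
      _ = zp y k' := by
        rcases z2_cases k' with a | a <;> rw [a]
        · simp
        · rw [zp_one, zp_one, mul_inv_rev, inv_eq_of_mul_eq_one_right P.y_sq,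
            inv_eq_of_mul_eq_one_right P.toSetting.z_sq, mul_assoc, P.toSetting.z_sq, mul_one]
  -- move to the centre `y`
  set K := h⁻¹ * g * h with hK
  have hKz : K * z = z * K := conj_comm (g := h⁻¹) (by rw [inv_inv]) (by rw [inv_inv, P.hz']) hgy
  have hKy : K * y = y * K := conj_comm (g := h⁻¹) (by rw [inv_inv]) (by rw [inv_inv, P.hy']) hgz
  have hK2 : K * K = 1 := by
    rw [hK, show h⁻¹ * g * h * (h⁻¹ * g * h) = h⁻¹ * (g * g) * h by group, hg2]; group
  have hρK2 : ρ K * ρ K = 1 := by rw [← P.toSetting.ρ_mul hKz hKz, hK2, P.toSetting.ρ_one]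
  have hKe : ap (ρ K) eV = eV := P.ρy hKz hKy
  have hxs : inW z Qf y (h⁻¹ * s * h) := P.Wy_to_W' hs
  have hkt : h⁻¹ * t' * h = h⁻¹ * s * h * K := by rw [htu, hK]; group
  refine ⟨h⁻¹ * k₀, ?_, ?_⟩
  · rw [show h⁻¹ * k₀ * t * (h⁻¹ * k₀)⁻¹ = h⁻¹ * (k₀ * t * k₀⁻¹) * h by group, ht'e, hkt]
    exact comm_mul (P.toSetting.comm_z hxs.1) hKz
  rw [show h⁻¹ * k₀ * t * (h⁻¹ * k₀)⁻¹ = h⁻¹ * (k₀ * t * k₀⁻¹) * h by group, ht'e, hkt,
    P.toSetting.ρ_mul (P.toSetting.comm_z hxs.1) hKz, P.toSetting.ρ_of_mem hxs.1, one_mul]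
  -- the transfer between the two halves
  obtain ⟨A, B, hAB, hadd, hA⟩ := P.exists_A
  have hB : ∀ τ, inWy z Qf y τ → md (θ (h⁻¹ * τ * h)) = B (wS ρ τ) := by
    intro τ hτ
    have hx := P.Wy_to_W' hτ
    have e := hA _ hx
    rw [show h * (h⁻¹ * τ * h) * h⁻¹ = τ by group] at e
    rw [e, (hAB _ (mid_md ((P.W_iff hx.1).1 hx))).2.2.2]
  have hBm : ∀ m, Mid m → Mid (B m) := fun m hm => (hAB m hm).2.1
  have hBq : ∀ m, Mid m → q (B m) = q m := by
    intro m hm
    obtain ⟨τ, hτ, rfl⟩ := P.exists_Wy hm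
    have hx := P.Wy_to_W' hτ
    rw [← hB τ hτ, q_md ((P.W_iff hx.1).1 hx)]
    refine P.zp_z_inj ?_
    rw [← P.toSetting.sq_eq hx.1, show h⁻¹ * τ * h * (h⁻¹ * τ * h) = h⁻¹ * (τ * τ) * h by group,
      P.sq_wS hτ]
    rcases z2_cases (q (wS ρ τ)) with a | a <;> rw [a]
    · simp
    · exact P.hz'
  have hBb : ∀ m m', Mid m → Mid m' → bl (B m) (B m') = bl m m' := by
    intro m m' hm hm'
    have e := hBq _ (hm.add hm')
    rw [(hadd m m' hm hm').2, q_add, q_add, hBq m hm, hBq m' hm'] at e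
    exact add_left_cancel e
  have hBinj : ∀ m, Mid m → B m = 0 → m = 0 := by
    intro m hm e
    have := (hAB m hm).2.2.1
    rw [e] at this
    rw [← this]
    have h0 := (hadd 0 0 mid_zero mid_zero).1
    rw [add_zero, vadd_self] at h0
    exact h0
  set a' := B e3V
  set b' := B b
  have hqa' : q a' = 0 := by rw [hBq _ mid_e3V, hqa]
  have hqb' : q b' = 0 := by rw [hBq _ F.hb, F.qb]
  have hab' : bl a' b' = 0 := by rw [hBb _ _ mid_e3V F.hb, F.ab]
  have ham : Mid a' := hBm _ mid_e3V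
  have hbm : Mid b' := hBm _ F.hb
  set R' := T a' b' hqa' hab'
  have hr : ∀ m, Mid m → Mid (sgf e3V b m) ∧ md (sgf a' b' (B m)) = B (sgf e3V b m) ∧
      sgf e3V b (sgf e3V b m) = m := by
    intro m hm
    have h1 : Mid (bl m e3V • b) ∧ B (bl m e3V • b) = bl m e3V • b' := by
      rcases z2_cases (bl m e3V) with a | a <;> rw [a]
      · have h0 := (hadd 0 0 mid_zero mid_zero).2
        rw [add_zero, vadd_self] at h0
        simp only [zero_smul]
        exact ⟨mid_zero, h0⟩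
      · simp only [one_smul]
        exact ⟨F.hb, rfl⟩
    have h2 : Mid (bl m b • e3V) ∧ B (bl m b • e3V) = bl m b • a' := by
      rcases z2_cases (bl m b) with a | a <;> rw [a]
      · have h0 := (hadd 0 0 mid_zero mid_zero).2
        rw [add_zero, vadd_self] at h0
        simp only [zero_smul]
        exact ⟨mid_zero, h0⟩
      · simp only [one_smul]
        exact ⟨mid_e3V, rfl⟩
    have e : sgf e3V b m = m + bl m e3V • b + bl m b • e3V := by
      rw [sgf_eq, F.qb, zero_mul, add_zero]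
    have hrm : Mid (sgf e3V b m) := by rw [e]; exact (hm.add h1.1).add h2.1
    refine ⟨hrm, ?_, ?_⟩
    · rw [e, (hadd _ _ (hm.add h1.1) h2.1).2, (hadd _ _ hm h1.1).2, h1.2, h2.2, sgf_eq, hqb', zero_mul,
        add_zero, hBb _ _ hm mid_e3V, hBb _ _ hm F.hb, md_add, md_add, md_smul, md_smul,
        md_of_mid (hBm m hm), md_of_mid hbm, md_of_mid ham]
    · rw [← ap_T e3V b hqa F.ab, ← ap_T e3V b hqa F.ab, ← ap_mul, T_mul_self, ap_one]
  have hG : ∀ m, Mid m → md (ap (ρ K) (B m)) = B (sgf e3V b m) := by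
    intro m hm
    obtain ⟨τ, hτ, rfl⟩ := P.exists_Wy hm
    obtain ⟨hτ', hτw⟩ := P.wS_conj hgz hgy hτ
    have hρg : ρ g = T e3V b hqa F.ab := by
      rw [hg, P.toSetting.ρ_mul R.comm huz, P.toSetting.ρ_of_mem hu.1, mul_one, hρs₂]
    rw [hρg, ap_T, md_of_mid (hr _ hm).1] at hτw
    have hx := P.Wy_to_W' hτ
    rw [← hτw, ← hB _ hτ', ← hB _ hτ, md_ap hKe, ← P.ρ_act K hKz _ hx.1]
    congr 2
    rw [hK]; group
  have hKfix : ∀ τ k, inWy z Qf y τ → g * τ * g⁻¹ * τ⁻¹ = zp y k →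
      ap (ρ K) (θ (h⁻¹ * τ * h)) = θ (h⁻¹ * τ * h) := by
    intro τ k hτ e
    have hx := P.Wy_to_W' hτ
    rw [← P.ρ_act K hKz _ hx.1, show K * (h⁻¹ * τ * h) * K⁻¹ =
      h⁻¹ * (g * τ * g⁻¹ * τ⁻¹) * h * (h⁻¹ * τ * h) by rw [hK]; group, e]
    rcases z2_cases k with a | a <;> rw [a]
    · simp
    · rw [zp_one, P.hz', P.toSetting.θ_z_mul hx.1]
  have hR'e : ap R' eV = eV := by
    simp only [R', ap_T, sgf_eq, ham.bl_eV, hbm.bl_eV, zero_smul, mul_zero, add_zero]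
  have hX : ap (ρ K * R') eV = eV := by rw [ap_mul, hR'e, hKe]
  obtain ⟨w2, hw2, hw2M, hXe, -⟩ := eq_Te hX fun v hv => by
    obtain ⟨m, hm, rfl⟩ : ∃ m, Mid m ∧ B m = v := ⟨A v, (hAB v hv).1, (hAB v hv).2.2.2⟩
    rw [ap_mul, ← md_ap hKe, ap_T, (hr m hm).2.1, hG _ (hr m hm).1, (hr m hm).2.2]
  have hρK : ρ K = Te w2 hw2 * R' := by
    rw [← hXe, mul_assoc, T_mul_self, mul_one]
  have hfix : ∀ τ k, inWy z Qf y τ → g * τ * g⁻¹ * τ⁻¹ = zp y k → bl e3V (wS ρ τ) = 0 →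
      bl b (wS ρ τ) = 0 → bl (B (wS ρ τ)) w2 = 0 := by
    intro τ k hτ e ha1 hb1
    have hM := (P.wS_spec hτ).1
    have hx := P.Wy_to_W' hτ
    have hbx := (P.W_iff hx.1).1 hx
    have h1 : bl (θ (h⁻¹ * τ * h)) a' = 0 := by
      rw [← bl_md_left ham.bl_eV, hB τ hτ, hBb _ _ hM mid_e3V, bl_comm, ha1]
    have h2 : bl (θ (h⁻¹ * τ * h)) b' = 0 := by
      rw [← bl_md_left hbm.bl_eV, hB τ hτ, hBb _ _ hM F.hb, bl_comm, hb1]
    have e1 := hKfix τ k hτ e
    rw [hρK, ap_mul, show ap R' (θ (h⁻¹ * τ * h)) = θ (h⁻¹ * τ * h) by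
      simp only [R', ap_T, sgf_eq, h1, h2, zero_smul, mul_zero, add_zero],
      Te, ap_T, sgf_eq, bl_comm (θ _) eV, hbx, zero_smul, mul_zero, add_zero, add_zero,
      add_eq_left] at e1
    rw [← hB τ hτ, bl_md_left hw2]
    rcases z2_cases (bl (θ (h⁻¹ * τ * h)) w2) with a | a
    · exact a
    · rw [a, one_smul] at e1; exact absurd e1 (by decide)
  obtain ⟨m, hm, hBm2⟩ : ∃ m, Mid m ∧ B m = w2 := ⟨A w2, (hAB w2 hw2M).1, (hAB w2 hw2M).2.2.2⟩
  have hmw : bl m w = 0 := by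
    have := hfix s _ hs hsg (by rw [hsw, F.aw]) (by rw [hsw, F.bw])
    rwa [hsw, ← hBm2, hBb _ _ F.hw hm, bl_comm] at this
  have hmw' : bl m w' = 0 := by
    have := hfix σ _ hσ hgσ (by rw [hσw, F.aw']) (by rw [hσw, F.bw'])
    rwa [hσw, ← hBm2, hBb _ _ F.hw' hm, bl_comm] at this
  have hcom : R' * Te w2 hw2 * R'⁻¹ = Te w2 hw2 := by
    have h1 : (Te w2 hw2)⁻¹ = Te w2 hw2 := inv_eq_of_mul_eq_one_right (T_mul_self _ _)
    rw [hρK] at hρK2
    calc R' * Te w2 hw2 * R'⁻¹ = (Te w2 hw2)⁻¹ * (Te w2 hw2 * R' * (Te w2 hw2 * R')) * (R' * R')⁻¹ := by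
          group
      _ = Te w2 hw2 := by rw [hρK2, T_mul_self, h1]; group
  rw [conj_Te hR'e hw2] at hcom
  have hfm := (Te_eq_iff _ _).1 hcom
  rw [md_md, md_of_mid hw2M, ← hBm2, ap_T, (hr m hm).2.1] at hfm
  have hrm : sgf e3V b m = m := by
    refine vadd_eq_zero.1 (hBinj _ ((hr m hm).1.add hm) ?_)
    rw [(hadd _ _ (hr m hm).1 hm).2, hfm, vadd_self]
  have hcase : w2 = 0 ∨ w2 = a' ∨ w2 = b' ∨ w2 = a' + b' := by
    rcases F.fixed m hm hmw hmw' hrm with e | e | e | e <;> rw [← hBm2, e]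
    · left
      have h0 := (hadd 0 0 mid_zero mid_zero).2
      rw [add_zero, vadd_self] at h0
      exact h0
    · exact Or.inr (Or.inl rfl)
    · exact Or.inr (Or.inr (Or.inl rfl))
    · exact Or.inr (Or.inr (Or.inr (hadd _ _ mid_e3V F.hb).2))
  rw [hρK]
  exact Te_root hqa' hqb' hab' (fun e => absurd (hBinj _ mid_e3V e) (by decide))
    (fun e => F.b0 (hBinj _ F.hb e))
    (fun e => F.ab0 (hBinj _ (mid_e3V.add F.hb) ((hadd _ _ mid_e3V F.hb).2.trans e)))
    ham.bl_eV hbm.bl_eV hw2 hcase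

end PairSetting

end CfsgLib.ConwayType
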